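import Mathlib
import Cfsg.Agent.Lib.H34.MRule

/-!
# No stem extension with kernel of given order: generators of square one; covers
-/

set_option autoImplicit false

namespace H34.MK

open Subgroup H35.Stem H35.TC H35.Net
open scoped commutatorElement

/-- a stem extension of a perfect group is perfect -/
theorem perfect_of_stem {Γ G : Type} [Group Γ] [Group G] {σ : Γ →* G} (hσ : Cfsg.IsStemExtension σ)
    (hperf : commutator G = ⊤) : commutator Γ = ⊤ := by
  obtain ⟨hs, hc, hcm⟩ := hσ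
  have h1 : (commutator Γ).map σ = ⊤ := by
    rw [commutator_def, Subgroup.map_commutator, ← MonoidHom.range_eq_map, MonoidHom.range_eq_top.2 hs, ← commutator_def]
    exact hperf
  rw [eq_top_iff]
  intro x _
  have h2 : σ x ∈ (commutator Γ).map σ := by rw [h1]; trivial
  obtain ⟨d, hd, hdx⟩ := h2
  have h3 : d⁻¹ * x ∈ σ.ker := by rw [MonoidHom.mem_ker, map_mul, map_inv, hdx, inv_mul_cancel]
  have h4 := (commutator Γ).mul_mem hd (hcm h3)
  rwa [mul_inv_cancel_left] at h4

theorem card_of_ker {Γ G : Type} [Group Γ] [Group G] {σ : Γ →* G} (hs : Function.Surjective σ) :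
    Nat.card σ.ker * Nat.card G = Nat.card Γ := by
  have h4 := Subgroup.card_mul_index σ.ker
  have h5 : σ.ker.index = Nat.card G := by
    rw [Subgroup.index_ker, MonoidHom.range_eq_top.2 hs, Nat.card_congr (Subgroup.topEquiv (G := G)).toEquiv]
  rwa [h5] at h4

theorem pow_ker {Γ G : Type} [Group Γ] [Group G] {σ : Γ →* G} {k : ℕ} (hk : Nat.card σ.ker = k) {z : Γ}
    (hz : z ∈ σ.ker) : z ^ k = 1 := by
  have h1 : (⟨z, hz⟩ : σ.ker) ^ Nat.card σ.ker = 1 := pow_card_eq_one'
  rw [hk] at h1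
  exact congrArg Subtype.val h1

/-- the extension with adjoined root -/
theorem exists_PL {Γ G : Type} [Group Γ] [Finite Γ] [Group G] [Finite G] {σ : Γ →* G} (hσ : Cfsg.IsStemExtension σ)
    (hperf : commutator G = ⊤) {k : ℕ} (hk : Nat.card σ.ker = k) {N : ℕ} {g : Fin N → G} (nn : Fin N → ℕ) {iv : Fin N → Bool}
    {tr : Fin N → Bool} {par : Fin N → Fin N} {uw : Fin N → W (Fin N)} (hpar : ∀ x, tr x = true → par x < x)
    (ht : ∀ x, tr x = true → ev g (tword par uw x) = 1) {x0 : Fin N} (hx0 : iv x0 = true) (hg0 : g x0 * g x0 = 1)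
    (hiv : ∀ x, iv x = true → x = x0 ∨ tr x = true ∧ iv (par x) = true)
    (hti : ∀ x, tr x = true → iv x = true) (hpi : ∀ x, tr x = true → iv (par x) = true)
    (hord : ∀ x, iv x = false → g x ^ nn x = 1 ∧ Nat.Coprime (nn x) k)
    (hgen : closure (Set.range g) = ⊤) :
    ∃ (P : Type) (_ : Group P) (_ : Finite P) (π : P →* G) (f : Fin N → P), PL π (2 * k) nn iv g f ∧
      Function.Surjective π ∧ (∀ x, tr x = true → ev f (tword par uw x) = 1) ∧ closure (Set.range f) = ⊤ ∧
      Nat.card P = 2 * k * Nat.card G := by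
  obtain ⟨hs, hc, hcm⟩ := hσ
  have hq : ∀ z ∈ σ.ker, z ^ k = 1 := fun z hz => pow_ker hk hz
  -- lifts
  obtain ⟨f0, hf0, hf0o⟩ : ∃ f0 : Fin N → Γ, (∀ x, σ (f0 x) = g x) ∧ ∀ x, iv x = false → f0 x ^ nn x = 1 := by
    have h1 : ∀ x, ∃ y : Γ, σ y = g x ∧ (iv x = false → y ^ nn x = 1) := by
      intro x
      cases hx : iv x with
      | true =>
        obtain ⟨y, hy⟩ := hs (g x)
        exact ⟨y, hy, fun h => absurd h (by simp)⟩
      | false =>
        obtain ⟨y, hy, hy1⟩ := exists_pow_lift hs hq (hord x hx).2 (g x) (hord x hx).1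
        exact ⟨y, hy, fun _ => hy1⟩
    choose f0 h2 h3 using h1
    exact ⟨f0, h2, h3⟩
  obtain ⟨f, hf, hff, hft⟩ := exists_tree hc g tr par uw hpar ht f0 hf0
  have hsq := tree_sq hc hpar hft (x0 := x0) (by rw [hf, hg0]) hiv
  have hperfΓ := perfect_of_stem ⟨hs, hc, hcm⟩ hperf
  have hgenΓ : closure (Set.range f) = ⊤ := closure_lifts ⟨hs, hc, hcm⟩ f (by
    simp only [hf]
    exact hgen)
  have hz : ∀ y, f x0 * f x0 * y = y * (f x0 * f x0) := by
    intro y
    have : f x0 * f x0 ∈ σ.ker := by rw [MonoidHom.mem_ker, map_mul, hf, hg0]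
    exact (mem_center_iff.1 (hc this) y).symm
  obtain ⟨P, gP, fP, π, ι, s, hcard, hinj, hsc, hss, hπ, hπs, hspan, hsq', hgenP⟩ :=
    exists_twist σ f iv x0 hx0 hz (by rw [hf, hg0]) hsq hgenΓ (Or.inl hperfΓ)
  have hπsurj : Function.Surjective π := by
    intro x
    obtain ⟨y, rfl⟩ := hs x
    exact ⟨ι y, hπ y⟩
  have hcG := card_of_ker hs
  have hcP := card_of_ker hπsurj
  have hGpos : 0 < Nat.card G := Nat.card_pos
  have hkP : Nat.card π.ker = 2 * k := by
    rw [hk] at hcG
    rw [hcard, ← hcG] at hcP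
    have : Nat.card π.ker * Nat.card G = (2 * k) * Nat.card G := by rw [hcP]; ring
    exact Nat.eq_of_mul_eq_mul_right hGpos this
  refine ⟨P, gP, fP, π, twist ι s iv f, ⟨?_, ?_, ?_, hsq', ?_⟩, hπsurj, ?_, hgenP, ?_⟩
  · intro y hy
    obtain ⟨x, j, rfl⟩ := hspan y
    rw [MonoidHom.mem_ker, map_mul, map_pow, hπ, hπs, one_pow, mul_one] at hy
    have hxc := hc (show x ∈ σ.ker from hy)
    rw [mem_center_iff]
    intro y'
    obtain ⟨x', j', rfl⟩ := hspan y'
    have h1 := mem_center_iff.1 hxc x'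
    have hs1 : ∀ (j : ℕ) (y : P), s ^ j * y = y * s ^ j := fun j y => (Commute.pow_left (hsc y) j).eq
    calc ι x' * s ^ j' * (ι x * s ^ j) = ι x' * (s ^ j' * ι x) * s ^ j := by group
      _ = ι x' * ι x * (s ^ j' * s ^ j) := by rw [hs1]; group
      _ = ι x * ι x' * (s ^ j * s ^ j') := by rw [← map_mul, h1, map_mul, hs1 j' (s ^ j)]
      _ = ι x * (ι x' * s ^ j) * s ^ j' := by group
      _ = ι x * (s ^ j * ι x') * s ^ j' := by rw [hs1]
      _ = _ := by group
  · intro z hz
    exact pow_ker hkP hz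
  · intro x
    cases hx : iv x with
    | true => simp [twist, hx, hπ, hπs, hf]
    | false => simp [twist, hx, hπ, hf]
  · intro x hx
    have h1 : twist ι s iv f x = ι (f x) := by simp [twist, hx]
    have hnt : tr x = false := by
      cases h : tr x with
      | false => rfl
      | true => rw [hti x h] at hx; exact absurd hx (by simp)
    rw [h1, ← map_pow, hff x hnt, hf0o x hx, map_one]
  · intro x hx
    rw [ev_twist hsc, hft x hx, map_one, one_mul]
    have h1 : cnt iv (tword par uw x) = 0 := by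
      have hw : ∀ w : W (Fin N), cnt iv (winv w) = - cnt iv w := by
        intro w
        induction w with
        | nil => rfl
        | cons a w ih =>
          have h1 : winv (a :: w) = winv w ++ [(a.1, !a.2)] := by simp [winv]
          rw [h1, cnt_append, ih]
          rcases a with ⟨y, b⟩
          cases b <;> simp [cnt] <;> split <;> ring
      rw [tword, cnt_append, cnt_append, cnt_append, hw]
      simp [cnt, hti x hx, hpi x hx]
    rw [h1, zpow_zero]
  · rw [hcard, ← hcG, hk]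
    ring

/-- **no stem extension with kernel of order `k`** -/
theorem noExt_root {G : Type} [Group G] [Finite G] (hperf : commutator G = ⊤) {k : ℕ} {N : ℕ} {g : Fin N → G}
    (nn : Fin N → ℕ) {iv : Fin N → Bool}
    {tr : Fin N → Bool} {par : Fin N → Fin N} {uw : Fin N → W (Fin N)} (hpar : ∀ x, tr x = true → par x < x)
    (ht : ∀ x, tr x = true → ev g (tword par uw x) = 1) {x0 : Fin N} (hx0 : iv x0 = true) (hg0 : g x0 * g x0 = 1)
    (hiv : ∀ x, iv x = true → x = x0 ∨ tr x = true ∧ iv (par x) = true)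
    (hti : ∀ x, tr x = true → iv x = true) (hpi : ∀ x, tr x = true → iv (par x) = true)
    (hord : ∀ x, iv x = false → g x ^ nn x = 1 ∧ Nat.Coprime (nn x) k)
    (hgen : closure (Set.range g) = ⊤) {B : ℕ}
    (hb : ∀ (P : Type) [Group P] [Finite P] (π : P →* G) (f : Fin N → P), PL π (2 * k) nn iv g f →
      (∀ x, tr x = true → ev f (tword par uw x) = 1) → Nat.card (closure (Set.range f)) ≤ B)
    (hB : B < 2 * k * Nat.card G) : NoExt G k := by
  intro Γ _ _ σ hσ hk
  obtain ⟨P, gP, fP, π, f, hPL, _, hft, hgenP, hcard⟩ :=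
    exists_PL hσ hperf hk nn hpar ht hx0 hg0 hiv hti hpi hord hgen
  have h1 := hb P π f hPL hft
  rw [hgenP, Nat.card_congr (Subgroup.topEquiv (G := P)).toEquiv, hcard] at h1
  omega

/-- lifts of coprime order, as `PL` -/
theorem PL.of_lifts {X Γ G : Type} [Group Γ] [Group G] {σ : Γ →* G} {q : ℕ} {n : X → ℕ} {g : X → G} {f : X → Γ}
    (h : Lifts σ q n g f) {iv : X → Bool} (hiv : ∀ x, iv x = true → n x = 2) : PL σ q n iv g f where
  cen := h.cen
  pow := h.pow
  lift := h.lift
  sq x hx := by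
    have := h.ord x
    rwa [hiv x hx, pow_two] at this
  ord x _ := h.ord x

/-- the conditions of a certificate from rules -/
theorem PL.holdsQ {X P G L : Type} [DecidableEq X] [DecidableEq L] [Group P] [Group G] {π : P →* G} {q : ℕ} {n : X → ℕ}
    {g : X → G} {f : X → P} {C : CQ X L} (h : PL π q n C.iv g f) {Gv : List (W X)}
    (hG : ∀ w ∈ Gv, ev f w = 1) {S : X → Bool} (hS : Inj g f S) {rules : List (RR X)}
    (hex : C.exact = rules.map fun r => nred C.iv (r.word q n))
    (hok : (rules.all fun r => r.ok q n C.iv Gv S) = true)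
    (ht : ∀ r ∈ rules, ∀ w ∈ r.needs, ev g w = 1)
    (hcen : ∀ z, C.cen z = true → ev g (C.wd z) = 1) : C.Holds f := by
  refine ⟨h.sq, fun z hz y => h.cent (hcen z hz) y, ?_⟩
  intro w hw
  rw [hex, List.mem_map] at hw
  obtain ⟨r, hr, rfl⟩ := hw
  rw [ev_nred h.sq]
  exact RR.holds h hG hS (List.all_eq_true.1 hok r hr) (ht r hr)

end H34.MK
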