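import Mathlib
import Cfsg.Agent.Lib.H34.MLev
import Cfsg.Agent.Lib.H35.StemCover

/-!
# Existence of covers from pairs whose involution letters have a common central square
-/

set_option autoImplicit false
set_option maxHeartbeats 400000

namespace H34.MK

open Subgroup H35.Stem H35.TC H35.Net
open scoped commutatorElement

section cover

variable {X P G : Type} [Group P] [Group G]

/-- the group of pairs -/
abbrev EP (p : X → P) (g : X → G) : Subgroup (P × G) := closure (Set.range (pr p g))

/-- the generators -/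
def eg (p : X → P) (g : X → G) (x : X) : EP p g := ⟨pr p g x, subset_closure ⟨x, rfl⟩⟩

theorem ev_eg (p : X → P) (g : X → G) (w : W X) : ((ev (eg p g) w : EP p g) : P × G) = ev (pr p g) w :=
  ev_hom (EP p g).subtype (eg p g) w

theorem closure_eg (p : X → P) (g : X → G) : closure (Set.range (eg p g)) = ⊤ := by
  have h := Subgroup.closure_closure_coe_preimage (k := Set.range (pr p g))
  rw [← h]
  congr 1
  ext ⟨y, hy⟩
  constructor
  · rintro ⟨x, hx⟩
    exact ⟨x, congrArg Subtype.val hx⟩
  · rintro ⟨x, hx⟩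
    exact ⟨x, Subtype.ext hx⟩

/-- the projection -/
def eσ (p : X → P) (g : X → G) : EP p g →* G := (MonoidHom.snd P G).comp (EP p g).subtype

theorem eσ_eg (p : X → P) (g : X → G) (x : X) : eσ p g (eg p g x) = g x := rfl

theorem eσ_surj {p : X → P} {g : X → G} (hgen : closure (Set.range g) = ⊤) : Function.Surjective (eσ p g) := by
  rw [← MonoidHom.range_eq_top, eq_top_iff, ← hgen, closure_le]
  rintro _ ⟨x, rfl⟩
  exact ⟨eg p g x, rfl⟩

/-- **existence of a cover with kernel `A`** -/
theorem exists_cover_gen [Finite P] [Finite G] {p : X → P} {g : X → G} (hgen : closure (Set.range g) = ⊤)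
    {A : Type} [CommGroup A] [Finite A] (ψ : A →* P × G) (hψ : Function.Injective ψ) (hψ2 : ∀ a, (ψ a).2 = 1)
    (hψc : ∀ a x, ψ a * pr p g x = pr p g x * ψ a) (T : Set A) (hT : closure T = ⊤)
    (hTw : ∀ a ∈ T, ∃ u v : W X, ψ a = ev (pr p g) (cmw u v)) (hb : Nat.card (EP p g) ≤ Nat.card A * Nat.card G) :
    ∃ (Γ : Type) (_ : Group Γ) (_ : Finite Γ) (σ : Γ →* G), Cfsg.IsStemExtension σ ∧ Nonempty (σ.ker ≃* A) := by
  set E := EP p g with hE
  set σ := eσ p g with hσ
  have hs : Function.Surjective σ := eσ_surj hgen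
  have hcard := card_of_ker hs
  have hGpos : 0 < Nat.card G := Nat.card_pos
  have hkle : Nat.card σ.ker ≤ Nat.card A := by
    have h1 : Nat.card σ.ker * Nat.card G ≤ Nat.card A * Nat.card G := by rw [hcard]; exact hb
    exact Nat.le_of_mul_le_mul_right h1 hGpos
  -- the image of `ψ` is in `E`, even in the commutator subgroup
  have hψE : ∀ a, ψ a ∈ (commutator E).map E.subtype := by
    have h1 : closure T ≤ ((commutator E).map E.subtype).comap ψ := by
      rw [closure_le]
      intro a ha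
      obtain ⟨u, v, huv⟩ := hTw a ha
      refine ⟨⁅ev (eg p g) u, ev (eg p g) v⁆, ?_, ?_⟩
      · exact Subgroup.commutator_mem_commutator (mem_top _) (mem_top _)
      · rw [huv]
        change ((⁅ev (eg p g) u, ev (eg p g) v⁆ : E) : P × G) = _
        rw [ev_cmw, commutatorElement_def]
        push_cast
        rw [ev_eg, ev_eg]
    intro a
    have : a ∈ closure T := by rw [hT]; trivial
    exact h1 this
  have hψE' : ∀ a, ψ a ∈ E := fun a => by
    obtain ⟨y, _, hy⟩ := hψE a
    rw [← hy]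
    exact y.2
  let φ : A →* σ.ker :=
    { toFun := fun a => ⟨⟨ψ a, hψE' a⟩, hψ2 a⟩
      map_one' := by
        apply Subtype.ext
        apply Subtype.ext
        exact map_one ψ
      map_mul' := fun a b => by
        apply Subtype.ext
        apply Subtype.ext
        exact map_mul ψ a b }
  have hφi : Function.Injective φ := by
    intro a b hab
    apply hψ
    exact congrArg (fun z : σ.ker => ((z : E) : P × G)) hab
  have hφb : Function.Bijective φ := by
    have : Fintype A := Fintype.ofFinite _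
    have : Fintype σ.ker := Fintype.ofFinite _
    refine (Fintype.bijective_iff_injective_and_card φ).2 ⟨hφi, ?_⟩
    have h1 := Nat.card_le_card_of_injective φ hφi
    rw [← Nat.card_eq_fintype_card, ← Nat.card_eq_fintype_card]
    omega
  refine ⟨E, inferInstance, inferInstance, σ, ⟨hs, ?_, ?_⟩, ⟨(MulEquiv.ofBijective φ hφb).symm⟩⟩
  · intro y hy
    obtain ⟨a, ha⟩ := hφb.2 ⟨y, hy⟩
    have hya : (y : P × G) = ψ a := (congrArg (fun z : σ.ker => ((z : E) : P × G)) ha).symm
    have h1 : E ≤ centralizer {ψ a} := by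
      rw [hE, closure_le]
      rintro _ ⟨x, rfl⟩
      rw [SetLike.mem_coe, mem_centralizer_singleton_iff]
      exact (hψc a x).symm
    rw [mem_center_iff]
    intro y'
    apply Subtype.ext
    change (y' : P × G) * (y : P × G) = y * y'
    rw [hya]
    exact mem_centralizer_singleton_iff.1 (h1 y'.2)
  · intro y hy
    obtain ⟨a, ha⟩ := hφb.2 ⟨y, hy⟩
    have hya : (y : P × G) = ψ a := (congrArg (fun z : σ.ker => ((z : E) : P × G)) ha).symm
    obtain ⟨c, hc, hcy⟩ := hψE a
    have : c = y := Subtype.ext (by rw [hya]; exact hcy)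
    rw [← this]
    exact hc

/-- **existence of a cover with cyclic kernel generated by a commutator word** -/
theorem exists_cover_comm [Finite P] [Finite G] {p : X → P} {g : X → G} (hgen : closure (Set.range g) = ⊤)
    {m : ℕ} (hm : m ≠ 0) (u v : W X) (h1 : ev g (cmw u v) = 1) (ho : orderOf (ev p (cmw u v)) = m)
    (hc : ∀ x, p x * ev p (cmw u v) = ev p (cmw u v) * p x)
    (hb : Nat.card (EP p g) ≤ m * Nat.card G) :
    ∃ (Γ : Type) (_ : Group Γ) (_ : Finite Γ) (σ : Γ →* G), Cfsg.IsStemExtension σ ∧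
      Nonempty (σ.ker ≃* Multiplicative (ZMod m)) := by
  obtain ⟨ζ, hζ⟩ : ∃ ζ : P × G, ζ = ev (pr p g) (cmw u v) := ⟨_, rfl⟩
  have hζ1 : ζ = (ev p (cmw u v), 1) := by rw [hζ, ev_pr, h1]
  have hζo : orderOf ζ = m := by
    rw [hζ1, Prod.orderOf_mk, orderOf_one, Nat.lcm_one_right, ho]
  have hcA : Nat.card (zpowers ζ) = m := by rw [Nat.card_zpowers, hζo]
  have : NeZero m := ⟨hm⟩
  have hcc : Nat.card (zpowers ζ) = Nat.card (Multiplicative (ZMod m)) := by
    rw [hcA, Nat.card_congr Multiplicative.toAdd, Nat.card_zmod]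
  have e : zpowers ζ ≃* Multiplicative (ZMod m) := mulEquivOfCyclicCardEq hcc
  have hk : ∀ a : Multiplicative (ZMod m), ∃ k : ℤ, ((e.symm a : zpowers ζ) : P × G) = ζ ^ k := by
    intro a
    obtain ⟨k, hk⟩ := (e.symm a).2
    exact ⟨k, hk.symm⟩
  have hcζ : ∀ x, Commute ζ (pr p g x) := by
    intro x
    rw [hζ1]
    refine Prod.ext (hc x).symm ?_
    change 1 * g x = g x * 1
    rw [one_mul, mul_one]
  refine exists_cover_gen (p := p) (g := g) hgen (A := Multiplicative (ZMod m))
    ((zpowers ζ).subtype.comp e.symm.toMonoidHom) ?_ ?_ ?_ {e ⟨ζ, mem_zpowers ζ⟩} ?_ ?_ ?_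
  · exact (zpowers ζ).subtype_injective.comp e.symm.injective
  · intro a
    obtain ⟨k, hk⟩ := hk a
    change ((e.symm a : zpowers ζ) : P × G).2 = 1
    rw [hk, hζ1]
    have : ((ev p (cmw u v), (1 : G)) ^ k).2 = (1 : G) ^ k := rfl
    rw [this, one_zpow]
  · intro a x
    obtain ⟨k, hk⟩ := hk a
    change ((e.symm a : zpowers ζ) : P × G) * pr p g x = pr p g x * ((e.symm a : zpowers ζ) : P × G)
    rw [hk]
    exact ((hcζ x).zpow_left k).eq
  · rw [eq_top_iff]
    intro a _
    obtain ⟨k, hk⟩ := hk a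
    have h2 : a = (e ⟨ζ, mem_zpowers ζ⟩) ^ k := by
      rw [← map_zpow, ← MulEquiv.symm_apply_eq]
      apply Subtype.ext
      rw [hk]
      rfl
    rw [h2]
    exact Subgroup.zpow_mem _ (subset_closure (Set.mem_singleton _)) k
  · rintro a ha
    rw [Set.mem_singleton_iff.1 ha]
    refine ⟨u, v, ?_⟩
    rw [← hζ]
    change ((e.symm (e ⟨ζ, mem_zpowers ζ⟩) : zpowers ζ) : P × G) = _
    rw [MulEquiv.symm_apply_apply]
  · rw [← hcc, hcA]
    exact hb

/-- appended inverse letters -/
def bal (iv : X → Bool) (x0 : X) (w : W X) : W X := w ++ rep [(x0, false)] (cnt iv w).toNat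

/-- **bound through the adjoined root** -/
theorem card_EP_le [Finite P] [Finite G] {p : X → P} {g : X → G} {iv : X → Bool} {x0 : X}
    (hx0 : iv x0 = true) (hg0 : g x0 * g x0 = 1)
    (hsq : ∀ x, iv x = true → ev (pr p g) [(x, true), (x, true), (x0, false), (x0, false)] = 1)
    (hz : ∀ x, ev (pr p g) (cmw [(x0, true), (x0, true)] [(x, true)]) = 1)
    (w0 : W X) (k0 : ℕ) (hw0 : ev (pr p g) w0 = 1) (hw0c : cnt iv w0 % 2 = 1)
    (hk0 : ev (pr p g) (rep [(x0, true), (x0, true)] (2 ^ k0)) = 1) {B : ℕ}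
    (hb : ∀ (Q : Type) [Group Q] [Finite Q] (f : X → Q), (∀ x, iv x = true → f x * f x = 1) →
      (∀ w, ev (pr p g) w = 1 → cnt iv w = 0 → ev f w = 1) → closure (Set.range f) = ⊤ →
      Nat.card (closure (Set.range f)) ≤ 2 * B) :
    Nat.card (EP p g) ≤ B := by
  have hev : ∀ w, ev (pr p g) w = 1 → ev (eg p g) w = 1 := fun w hw => Subtype.ext (by rw [ev_eg, hw]; rfl)
  have hxx : ev (eg p g) [(x0, true), (x0, true)] = eg p g x0 * eg p g x0 := by
    change eg p g x0 * (eg p g x0 * 1) = _
    rw [mul_one]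
  have hzc : ∀ y, eg p g x0 * eg p g x0 * y = y * (eg p g x0 * eg p g x0) := by
    have h1 : closure (Set.range (eg p g)) ≤ centralizer {eg p g x0 * eg p g x0} := by
      rw [closure_le]
      rintro _ ⟨x, rfl⟩
      rw [SetLike.mem_coe, mem_centralizer_singleton_iff]
      have h2 := hev _ (hz x)
      rw [ev_cmw, hxx] at h2
      change eg p g x0 * eg p g x0 * (eg p g x * 1) * (eg p g x0 * eg p g x0)⁻¹ * (eg p g x * 1)⁻¹ = 1 at h2
      rw [mul_one, mul_inv_eq_one, mul_inv_eq_iff_eq_mul] at h2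
      exact h2.symm
    intro y
    have : y ∈ closure (Set.range (eg p g)) := by rw [closure_eg]; trivial
    exact (mem_centralizer_singleton_iff.1 (h1 this)).symm
  obtain ⟨Q, gQ, fQ, π, ι, s, hcard, hinj, hsc, hss, hπ, hπs, hspan, hsq', hgenQ⟩ :=
    exists_twist (eσ p g) (eg p g) iv x0 hx0 hzc (by rw [eσ_eg, hg0]) (by
      intro x hx
      have h2 := hev _ (hsq x hx)
      change eg p g x * (eg p g x * ((eg p g x0)⁻¹ * ((eg p g x0)⁻¹ * 1))) = 1 at h2
      rw [mul_one, ← mul_inv_rev, ← mul_assoc, mul_inv_eq_one] at h2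
      exact h2) (closure_eg p g) (Or.inr ⟨w0, k0, hev _ hw0, hw0c, by
        have h2 := hev _ hk0
        rw [ev_rep, hxx] at h2
        exact h2⟩)
  have h1 := hb Q (twist ι s iv (eg p g)) hsq' (by
    intro w hw hc
    rw [ev_twist hsc, hev w hw, map_one, hc, zpow_zero, one_mul]) hgenQ
  rw [hgenQ, Nat.card_congr (Subgroup.topEquiv (G := Q)).toEquiv, hcard] at h1
  omega

/-- conditions of a certificate for the twisted generators -/
theorem holdsB {Q L : Type} [DecidableEq X] [Group Q] {p : X → P} {g : X → G} {C : CQ X L} {x0 : X} (hx0 : C.iv x0 = true) {f : X → Q}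
    (hsq : ∀ x, C.iv x = true → f x * f x = 1)
    (hK : ∀ w, ev (pr p g) w = 1 → cnt C.iv w = 0 → ev f w = 1) (hgen : closure (Set.range f) = ⊤)
    (hex : ∀ w ∈ C.exact, ev (pr p g) (bal C.iv x0 w) = 1 ∧ cnt C.iv w % 2 = 0 ∧ 0 ≤ cnt C.iv w)
    (hcen : ∀ z, C.cen z = true → ∀ x, ev (pr p g) (cmw (C.wd z) [(x, true)]) = 1) : C.Holds f := by
  refine ⟨hsq, ?_, ?_⟩
  · intro z hz
    have h1 : closure (Set.range f) ≤ centralizer {ev f (C.wd z)} := by
      rw [closure_le]
      rintro _ ⟨x, rfl⟩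
      rw [SetLike.mem_coe, mem_centralizer_singleton_iff]
      have h2 := hK _ (hcen z hz x) (by
        have hw : ∀ w : W X, cnt C.iv (winv w) = - cnt C.iv w := by
          intro w
          induction w with
          | nil => rfl
          | cons a w ih =>
            have h1 : winv (a :: w) = winv w ++ [(a.1, !a.2)] := by simp [winv]
            rw [h1, cnt_append, ih]
            rcases a with ⟨y, b⟩
            cases b <;> simp [cnt] <;> split <;> omega
        rw [cmw, cnt_append, cnt_append, cnt_append, hw, hw]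
        omega)
      rw [ev_cmw] at h2
      change ev f (C.wd z) * (f x * 1) * (ev f (C.wd z))⁻¹ * (f x * 1)⁻¹ = 1 at h2
      rw [mul_one, mul_inv_eq_one, mul_inv_eq_iff_eq_mul] at h2
      exact h2.symm
    intro y
    have : y ∈ closure (Set.range f) := by rw [hgen]; trivial
    exact (mem_centralizer_singleton_iff.1 (h1 this)).symm
  · intro w hw
    obtain ⟨h1, h2, h3⟩ := hex w hw
    have hr : ∀ k : ℕ, cnt C.iv (rep [(x0, false)] k) = - (k : ℤ) := by
      intro k
      induction k with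
      | zero => rfl
      | succ k ih =>
        rw [rep, cnt_append, ih]
        simp [cnt, hx0]
    have h4 := hK _ h1 (by
      rw [bal, cnt_append, hr, Int.toNat_of_nonneg h3, add_neg_cancel])
    rw [bal, ev_append, ev_rep] at h4
    obtain ⟨j, hj⟩ : ∃ j, (cnt C.iv w).toNat = 2 * j := ⟨(cnt C.iv w).toNat / 2, by omega⟩
    have h5 : (ev f [(x0, false)]) ^ 2 = 1 := by
      change ((f x0)⁻¹ * 1) ^ 2 = 1
      rw [mul_one, inv_pow, pow_two, hsq x0 hx0, inv_one]
    rwa [hj, pow_mul, h5, one_pow, mul_one] at h4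

end cover

end H34.MK
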