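import Mathlib
import Cfsg.Agent.Lib.H34.MCov
import Cfsg.Agent.Lib.H35.StemPerm

/-!
# Words in elements of a group with a faithful coded permutation representation
-/

set_option autoImplicit false
set_option maxHeartbeats 400000

namespace H34.MK

open Subgroup H35.Stem H40.PermCode

section perm

variable {α : Type} {n wd : ℕ} {E : Coding α n} {X G : Type} [Group G]

theorem ev_one_of_inj (hn : n ≤ 2 ^ wd) {φ : G →* Equiv.Perm α} (hφ : Function.Injective φ) {g : X → G} {c ci : X → ℕ}
    (hc : ∀ x, Rep E wd (φ (g x)) (c x)) (hci : ∀ x, Rep E wd (φ (g x))⁻¹ (ci x)) {w : W X}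
    (h : isOne wd n (evc wd n c ci w) = true) : ev g w = 1 := by
  apply hφ
  rw [map_one, ev_hom]
  exact (Rep.isOne_iff (rep_evc hn (g := fun x => φ (g x)) hc hci w)).1 h

/-- the same for a permutation representation that need not be faithful -/
theorem ev_ne_one_of_code (hn : n ≤ 2 ^ wd) {φ : G →* Equiv.Perm α} {g : X → G} {c ci : X → ℕ}
    (hc : ∀ x, Rep E wd (φ (g x)) (c x)) (hci : ∀ x, Rep E wd (φ (g x))⁻¹ (ci x)) {w : W X}
    (h : isOne wd n (evc wd n c ci w) = false) : ev g w ≠ 1 := by
  intro h1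
  have h2 : φ (ev g w) = 1 := by rw [h1, map_one]
  rw [ev_hom] at h2
  have h3 := (Rep.isOne_iff (rep_evc hn (g := fun x => φ (g x)) hc hci w)).2 h2
  rw [h3] at h
  exact absurd h (by simp)

/-- involutions: the code is its own inverse -/
theorem rep_inv_self {σ : Equiv.Perm α} {c : ℕ} (h : Rep E wd σ c) (hk : okc wd n c c = true) :
    Rep E wd σ⁻¹ c := h.inv hk

end perm

end H34.MK
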