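import Mathlib
import Cfsg.Agent.Lib.H34.MCode
import Cfsg.Agent.Lib.H35.TC

/-!
# Pointwise check of words in coded permutations
-/

set_option autoImplicit false
set_option maxHeartbeats 400000

namespace H34.MK

open Subgroup H35.Stem H40.PermCode H35.TC

section pt

variable {X : Type}

/-- codes of a word -/
def cw (c ci : X → ℕ) (w : W X) : List ℕ := w.map fun a => bif a.2 then c a.1 else ci a.1

/-- image of a point under a list of codes; `mk` is the mask `2 ^ wd - 1` -/
noncomputable def imp (wd mk : ℕ) (l : List ℕ) (i : ℕ) : ℕ :=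
  List.rec (motive := fun _ => ℕ) i (fun C _ k => Nat.land (Nat.shiftRight C (Nat.mul wd k)) mk) l

/-- all points are fixed -/
noncomputable def chk (wd mk n K : ℕ) (l : List ℕ) : Bool :=
  allB (fun i => Bool.rec (motive := fun _ => Bool) (Nat.beq (imp wd mk l i) i) true (Nat.ble n i)) K 0

theorem imp_cons (wd mk C : ℕ) (l : List ℕ) (i : ℕ) : imp wd mk (C :: l) i = (C >>> (wd * imp wd mk l i)) &&& mk := rfl

theorem imp_eq {α : Type} {n wd mk : ℕ} (hmk : mk = 2 ^ wd - 1) {E : Coding α n} {g : X → Equiv.Perm α} {c ci : X → ℕ}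
    (hc : ∀ x, Rep E wd (g x) (c x)) (hci : ∀ x, Rep E wd (g x)⁻¹ (ci x)) (w : W X) (p : α) :
    imp wd mk (cw c ci w) (E.idx p) = E.idx (ev g w p) := by
  induction w with
  | nil => rfl
  | cons a w ih =>
    rcases a with ⟨x, b⟩
    rw [ev_cons, Equiv.Perm.mul_apply]
    have h1 : imp wd mk (cw c ci ((x, b) :: w)) (E.idx p) =
        tab wd (bif b then c x else ci x) (imp wd mk (cw c ci w) (E.idx p)) := by
      have h0 : cw c ci ((x, b) :: w) = (bif b then c x else ci x) :: cw c ci w := rfl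
      rw [h0, imp_cons, hmk, Nat.and_two_pow_sub_one_eq_mod]
      rfl
    rw [h1, ih]
    cases b
    · exact (hci x _).symm
    · exact (hc x _).symm

theorem ev_one_of_chk {α : Type} {n wd mk K : ℕ} (hmk : mk = 2 ^ wd - 1) {E : Coding α n} {g : X → Equiv.Perm α} {c ci : X → ℕ}
    (hc : ∀ x, Rep E wd (g x) (c x)) (hci : ∀ x, Rep E wd (g x)⁻¹ (ci x)) (hK : n ≤ 2 ^ K) {w : W X}
    (h : chk wd mk n K (cw c ci w) = true) : ev g w = 1 := by
  ext1 p
  apply E.idx_injective
  rw [Equiv.Perm.one_apply, ← imp_eq hmk hc hci]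
  have h1 := allB_spec _ _ _ h (E.idx p) (Nat.zero_le _) (by have := E.idx_lt p; omega)
  have h2 : Nat.ble n (E.idx p) = false := by
    rw [← Bool.not_eq_true, Nat.ble_eq]
    have := E.idx_lt p
    omega
  rw [h2] at h1
  exact Nat.eq_of_beq_eq_true h1

/-- a moved point -/
theorem ev_ne_one_of_pt {α : Type} {n wd mk : ℕ} (hmk : mk = 2 ^ wd - 1) {E : Coding α n} {g : X → Equiv.Perm α} {c ci : X → ℕ}
    (hc : ∀ x, Rep E wd (g x) (c x)) (hci : ∀ x, Rep E wd (g x)⁻¹ (ci x)) {w : W X} {i : ℕ} (hi : i < n)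
    (h : Nat.beq (imp wd mk (cw c ci w) i) i = false) : ev g w ≠ 1 := by
  intro h1
  have h2 := imp_eq hmk hc hci w (E.pt i)
  rw [h1, Equiv.Perm.one_apply, E.idx_pt i hi] at h2
  rw [h2] at h
  rw [Nat.beq_refl] at h
  exact absurd h (by simp)

/-- words inverse to a central word are central -/
theorem cmw_inv {G : Type} [Group G] [DecidableEq X] {iv : X → Bool} {f : X → G} (hiv : ∀ x, iv x = true → f x * f x = 1)
    {w w' : W X} {x : X} (h : nred iv (w' ++ w) = []) (hw : ev f (cmw w [(x, true)]) = 1) : ev f (cmw w' [(x, true)]) = 1 := by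
  have h1 : ev f w' * ev f w = 1 := by rw [← ev_append, ← ev_nred hiv, h, ev_nil]
  have h2 : ev f w' = (ev f w)⁻¹ := eq_inv_of_mul_eq_one_left h1
  rw [ev_cmw] at hw ⊢
  rw [mul_inv_eq_one, mul_inv_eq_iff_eq_mul] at hw
  rw [h2, mul_inv_eq_one, mul_inv_eq_iff_eq_mul, inv_mul_eq_iff_eq_mul, ← mul_assoc, hw, mul_assoc, mul_inv_cancel, mul_one]

theorem cmw_one {G : Type} [Group G] {f : X → G} {w : W X} {x : X} (hw : ev f w = 1) : ev f (cmw w [(x, true)]) = 1 := by
  rw [ev_cmw, hw, one_mul, inv_one, mul_one, mul_inv_cancel]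

end pt

end H34.MK
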