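import Mathlib
import Cfsg.Prelude.Def_GeometricClasses

/-!
# S5707: overgroup of the tensor-wreath stabiliser in even characteristic (the spin group), definitions
-/

set_option autoImplicit false

namespace H34.SpW

open Matrix

/-- data of one tensor factor: a space `Wk` of matrices with scalar squares, two elements and some vectors -/
structure KD {F : Type*} [Field F] (k t : ℕ) (f : (Fin k → F) → (Fin k → F) → F) where
  Wk : Submodule F (Matrix (Fin k) (Fin k) F)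
  one : (1 : Matrix (Fin k) (Fin k) F) ∈ Wk
  sq : ∀ X ∈ Wk, ∃ a : F, X * X = a • (1 : Matrix (Fin k) (Fin k) F)
  sim : ∀ (A : GL (Fin k) F) (c : F), c ≠ 0 →
    (∀ u v, f ((A : Matrix (Fin k) (Fin k) F) *ᵥ u) ((A : Matrix (Fin k) (Fin k) F) *ᵥ v) = c * f u v) →
    ∀ X ∈ Wk, (A : Matrix (Fin k) (Fin k) F) * X * ((A⁻¹ : GL (Fin k) F) : Matrix (Fin k) (Fin k) F) ∈ Wk
  E : Matrix (Fin k) (Fin k) F
  E' : Matrix (Fin k) (Fin k) F
  hE : E ∈ Wk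
  hE' : E' ∈ Wk
  EE : E * E = 0
  EE' : E' * E' = 0
  EEone : E * E' + E' * E = 1
  adjE : ∀ u v, f (E *ᵥ u) v = f u (E *ᵥ v)
  adjE' : ∀ u v, f (E' *ᵥ u) v = f u (E' *ᵥ v)
  alt : 3 ≤ t ∨ ∀ v, f (E *ᵥ v) v = 0
  p : Fin k → F
  a : Fin k → F
  b : Fin k → F
  E'p : E' *ᵥ p = 0
  fpa : f p a = 1
  fqa : f (E *ᵥ p) a = 0
  fpb : f p b = 0
  fqb : f (E *ᵥ p) b = 1
  x : Fin t → Fin k → F
  y : Fin t → Fin k → F
  s : Fin t → Fin k → F
  z : Fin t → Fin k → F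
  i₀ : Fin t
  hxy : ∏ i, f (x i) (y i) = 0
  hsz : ∏ i, f (s i) (z i) ≠ 0
  hxs : ∏ i, f (x i) (s i) = 0
  hxz : ∏ i, f (x i) (z i) = 0
  hys : ∏ i, f (y i) (s i) = 0
  hyz : ∏ i, f (y i) (z i) = 0
  hxs' : ∏ i, f (Function.update x i₀ (E *ᵥ x i₀) i) (s i) = 0
  hys' : ∏ i, f (Function.update y i₀ (E *ᵥ y i₀) i) (s i) = 0
  hxy' : ∏ i, f (Function.update x i₀ (E *ᵥ x i₀) i) (y i) ≠ 0

/-- the tensor structure on `ι → F` -/
structure TS {F : Type*} [Field F] {ι : Type} [Fintype ι] [DecidableEq ι] (k t : ℕ) (Q : (ι → F) → F)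
    (f : (Fin k → F) → (Fin k → F) → F) (H : Subgroup (GL ι F)) where
  T : (Fin t → Fin k → F) → (ι → F)
  c : F
  hc : c ≠ 0
  pol : ∀ x y, QuadraticMap.polar Q (T x) (T y) = c * ∏ i, f (x i) (y i)
  sing : ∀ x, Q (T x) = 0
  φ : Fin t → (Matrix (Fin k) (Fin k) F →ₐ[F] Matrix ι ι F)
  hφ : ∀ i X x, φ i X *ᵥ T x = T (Function.update x i (X *ᵥ x i))
  span : Submodule.span F (Set.range T) = ⊤
  wr : ∀ g ∈ H, ∃ (A : Fin t → GL (Fin k) F) (σ : Equiv.Perm (Fin t)),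
    ∀ x, (g : Matrix ι ι F) *ᵥ T x = T (fun i => (A i : Matrix (Fin k) (Fin k) F) *ᵥ x (σ i))

end H34.SpW
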