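import Cfsg.Agent.Lib.H8.M24Simple

/-!
# 23:11 is maximal in M23
-/

set_option autoImplicit false

namespace H34.L23

open Cfsg H8.GolayCode H8.GolayCount H8.GolayBasic H8.M24Mem H8.M24Chain H8.M24Trans H8.M24Simple

/-- masks of octads meeting the fixed points in at least five points -/
def ML : List ℕ := [0xc13488, 0x98081b, 0x104157, 0x4470e, 0x215207, 0x886072, 0x863a80]

/-- An element of `M24` fixing `∞`, `0` and the eleven squares is trivial. -/
theorem fix13 {g : Equiv.Perm GolayPt} (hg : g ∈ M24)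
    (hF : ∀ i ∈ [23, 0, 1, 2, 3, 4, 6, 8, 9, 12, 13, 16, 18], g (pt i) = pt i) : g = 1 := by
  have hok : ∀ m ∈ ML, okMask [23, 0, 1, 2, 3, 4, 6, 8, 9, 12, 13, 16, 18] m = true := by decide +kernel
  have h1' : ∀ x y : Fin 24, (∀ m ∈ ML, m.testBit y.1 = m.testBit x.1) → y = x := by decide +kernel
  ext1 p
  have h2 : ∀ m ∈ ML, m.testBit (idx (g p)) = m.testBit (idx p) := fun m hm => fixes_okMask hg hF (hok m hm) p
  have h3 := h1' ⟨idx p, idx_lt p⟩ ⟨idx (g p), idx_lt _⟩ h2
  exact idx_injective (congrArg Fin.val h3)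

section sylow

variable {G : Type*} [Group G] [Finite G]

/-- Sylow's congruence inside a subgroup -/
theorem relIndex_modEq {p : ℕ} (hp : p.Prime) {P K : Subgroup G} (hPK : P ≤ K) (hP : Nat.card P = p)
    (h2 : ¬ p ^ 2 ∣ Nat.card G) : (Subgroup.normalizer (P : Set G)).relIndex K ≡ 1 [MOD p] := by
  have : Fact p.Prime := ⟨hp⟩
  have hc : Nat.card (P.subgroupOf K) = p := by
    rw [Nat.card_congr (Subgroup.subgroupOfEquivOfLe hPK).toEquiv, hP]
  have hidx : ¬ p ∣ (P.subgroupOf K).index := by
    intro h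
    apply h2
    have h3 := Subgroup.card_mul_index (P.subgroupOf K)
    rw [hc] at h3
    have h4 : p ^ 2 ∣ Nat.card K := by
      rw [← h3, pow_two]
      exact Nat.mul_dvd_mul_left p h
    exact h4.trans (Subgroup.card_subgroup_dvd_card K)
  let S : Sylow p K := (IsPGroup.of_card (n := 1) (by rw [hc, pow_one]) : IsPGroup p (P.subgroupOf K)).toSylow hidx
  have h5 := card_sylow_modEq_one p K
  rw [S.card_eq_index_normalizer] at h5
  have h6 : (Subgroup.normalizer (P.subgroupOf K : Set K)).index ≡ 1 [MOD p] := h5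
  rw [← Subgroup.subgroupOf_normalizer_eq hPK] at h6
  exact h6

end sylow

/-- the unit 2 of order 11 -/
def u2 : (ZMod 23)ˣ := ⟨2, 12, by decide, by decide⟩

theorem u2_sq : IsSquare u2 := ⟨⟨5, 14, by decide, by decide⟩, by ext; decide⟩

/-- the element of order 11 -/
def m11 : G23 := affG u2 u2_sq 0

theorem affG_mul {u v : (ZMod 23)ˣ} (hu : IsSquare u) (hv : IsSquare v) (c d : ZMod 23) :
    affG u hu c * affG v hv d = affG (u * v) (hu.mul hv) (u * d + c) := by
  apply Subtype.ext; apply Subtype.ext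
  exact aff_mul u v c d

theorem m11_pow (n : ℕ) : m11 ^ n = affG (u2 ^ n) (u2_sq.pow n) 0 := by
  induction n with
  | zero =>
    apply Subtype.ext; apply Subtype.ext
    show (1 : Equiv.Perm GolayPt) = aff _ 0
    rw [pow_zero, aff_one]
  | succ n ih =>
    rw [pow_succ, ih]
    apply Subtype.ext; apply Subtype.ext
    show aff (u2 ^ n) 0 * aff u2 0 = aff (u2 ^ (n + 1)) 0
    rw [aff_mul, pow_succ]
    congr 1

theorem orderOf_m11 : orderOf m11 = 11 := by
  have : Fact (Nat.Prime 11) := ⟨by norm_num⟩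
  apply orderOf_eq_prime
  · rw [m11_pow]
    apply Subtype.ext; apply Subtype.ext
    show aff (u2 ^ 11) 0 = 1
    rw [← aff_one]
    congr 1
  · intro h
    have h1 : aff u2 0 = aff 1 0 := by
      rw [aff_one]
      exact congrArg (fun g : G23 => ((g : M24) : Equiv.Perm GolayPt)) h
    have h2 := (aff_inj h1).1
    exact absurd h2 (by decide)

/-- the Sylow 11-subgroup -/
def R : Subgroup G23 := Subgroup.zpowers m11

theorem card_R : Nat.card R = 11 := by
  rw [R, Nat.card_zpowers, orderOf_m11]

/-- squares are powers of two -/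
theorem sq_list : ∀ i ∈ [1, 2, 3, 4, 6, 8, 9, 12, 13, 16, 18], ∃ k < 11, ((i : ℕ) : ZMod 23) = (2 : ZMod 23) ^ k := by
  decide

theorem perm_mul_m11 {g : G23} (hg : g * m11 = m11 * g) (x : ZMod 23) (y : GolayPt)
    (h : ((g : M24) : Equiv.Perm GolayPt) (some x) = y) :
    ((g : M24) : Equiv.Perm GolayPt) (some (2 * x)) = aff u2 0 y := by
  have h1 := congrArg (fun g : G23 => ((g : M24) : Equiv.Perm GolayPt) (some x)) hg
  have h2 : ((g : M24) : Equiv.Perm GolayPt) (aff u2 0 (some x)) = aff u2 0 (((g : M24) : Equiv.Perm GolayPt) (some x)) := h1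
  rw [h, aff_some, add_zero] at h2
  exact h2

/-- the centraliser of `m11` acts freely off the fixed points -/
theorem cent_free {g : G23} (hg : g * m11 = m11 * g) (h1 : ((g : M24) : Equiv.Perm GolayPt) (some 1) = some 1) : g = 1 := by
  have h0 : ((g : M24) : Equiv.Perm GolayPt) (some 0) = some 0 := by
    cases h : ((g : M24) : Equiv.Perm GolayPt) (some 0) with
    | none =>
      have : ((g : M24) : Equiv.Perm GolayPt) none = none := g.2
      rw [← this] at h
      exact absurd (((g : M24) : Equiv.Perm GolayPt).injective h) (by simp)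
    | some y =>
      have h2 := perm_mul_m11 hg 0 (some y) h
      rw [mul_zero, h, aff_some, add_zero, Option.some.injEq] at h2
      have h3 : ∀ y : ZMod 23, y = 2 * y → y = 0 := by decide
      rw [h3 y h2]
  have hp : ∀ k : ℕ, ((g : M24) : Equiv.Perm GolayPt) (some ((2 : ZMod 23) ^ k)) = some ((2 : ZMod 23) ^ k) := by
    intro k
    induction k with
    | zero => rw [pow_zero]; exact h1
    | succ k ih =>
      have h2 := perm_mul_m11 hg _ _ ih
      rw [aff_some, add_zero] at h2
      rw [pow_succ, mul_comm _ (2 : ZMod 23)]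
      exact h2
  apply Subtype.ext; apply Subtype.ext
  show ((g : M24) : Equiv.Perm GolayPt) = 1
  apply fix13 (g : M24).2
  intro i hi
  rcases List.mem_cons.1 hi with rfl | hi
  · exact g.2
  rcases List.mem_cons.1 hi with rfl | hi
  · exact h0
  have hi' : i ∈ [1, 2, 3, 4, 6, 8, 9, 12, 13, 16, 18] := hi
  obtain ⟨k, _, hk⟩ := sq_list i hi'
  have hlt : i < 23 := by
    have : ∀ i ∈ [1, 2, 3, 4, 6, 8, 9, 12, 13, 16, 18], i < 23 := by decide
    exact this i hi'
  have e : pt i = some ((2 : ZMod 23) ^ k) := by rw [pt, if_pos hlt, hk]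
  rw [e, hp]

/-- the centraliser of `R` -/
abbrev CR : Subgroup G23 := Subgroup.centralizer (R : Set G23)

theorem mem_CR {g : G23} (hg : g ∈ CR) : g * m11 = m11 * g := by
  rw [Subgroup.mem_centralizer_iff] at hg
  exact (hg m11 (Subgroup.mem_zpowers _)).symm

theorem card_CR_le : Nat.card CR ≤ 22 := by
  have h : Function.Injective (fun g : CR => (⟨((((g : G23) : M24) : Equiv.Perm GolayPt) (some 1)), by
      constructor
      · intro h
        have h2 : (((g : G23) : M24) : Equiv.Perm GolayPt) none = none := (g : G23).2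
        rw [← h2] at h
        exact absurd ((((g : G23) : M24) : Equiv.Perm GolayPt).injective h) (by simp)
      · intro h
        have h2 := perm_mul_m11 (mem_CR g.2) 1 (some 0) h
        have h3 : aff u2 0 (some 0) = some 0 := by rw [aff_some]; simp
        rw [h3, ← h] at h2
        have h4 := (((g : G23) : M24) : Equiv.Perm GolayPt).injective h2
        rw [Option.some.injEq] at h4
        exact absurd h4 (by decide)⟩ : {p : GolayPt // p ≠ none ∧ p ≠ some 0})) := by
    intro g g' h
    have h1 := congrArg Subtype.val h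
    dsimp only at h1
    have h2 : (g : G23)⁻¹ * g' = 1 := by
      apply cent_free
      · have := mem_CR (CR.mul_mem (CR.inv_mem g.2) g'.2)
        exact this
      · show ((((g : G23) : M24) : Equiv.Perm GolayPt)⁻¹ * (((g' : G23) : M24) : Equiv.Perm GolayPt)) (some 1) = some 1
        rw [Equiv.Perm.mul_apply, ← h1]
        exact (((g : G23) : M24) : Equiv.Perm GolayPt).symm_apply_apply _
    exact Subtype.ext (inv_mul_eq_one.1 h2)
  have h2 := Nat.card_le_card_of_injective _ h
  have h3 : Nat.card {p : GolayPt // p ≠ none ∧ p ≠ some 0} = 22 := by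
    rw [Nat.card_eq_fintype_card]
    decide +kernel
  rw [h3] at h2
  exact h2

theorem R_le_CR : R ≤ CR := by
  intro x hx
  rw [Subgroup.mem_centralizer_iff]
  intro y hy
  obtain ⟨i, rfl⟩ := Subgroup.mem_zpowers_iff.1 hx
  obtain ⟨j, rfl⟩ := Subgroup.mem_zpowers_iff.1 hy
  rw [← zpow_add, ← zpow_add, add_comm]

theorem card_CR : Nat.card CR = 11 ∨ Nat.card CR = 22 := by
  have h1 := Subgroup.card_dvd_of_le R_le_CR
  rw [card_R] at h1
  obtain ⟨k, hk⟩ := h1
  have h2 := card_CR_le
  have h3 : 0 < Nat.card CR := Nat.card_pos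
  rw [hk] at h2 h3 ⊢
  have : k = 1 ∨ k = 2 := by omega
  rcases this with rfl | rfl <;> simp

/-- the normaliser of `R` -/
abbrev NR : Subgroup G23 := Subgroup.normalizer (R : Set G23)

instance : IsCyclic R := inferInstanceAs (IsCyclic (Subgroup.zpowers m11))

theorem card_NR_dvd : ∃ d, d ∣ 10 ∧ Nat.card NR = Nat.card CR * d := by
  have h1 : Nat.card (MulAut R) = 10 := by
    rw [IsCyclic.card_mulAut, card_R]
    decide
  have h2 := Subgroup.card_mul_index (R.normalizerMonoidHom).ker
  have h3 : (R.normalizerMonoidHom).ker.index ∣ 10 := by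
    rw [Subgroup.index_ker, ← h1]
    exact Subgroup.card_subgroup_dvd_card _
  refine ⟨_, h3, ?_⟩
  rw [← h2, Subgroup.normalizerMonoidHom_ker]
  congr 1
  rw [Nat.card_congr (Subgroup.subgroupOfEquivOfLe (Subgroup.centralizer_le_normalizer (R : Set G23))).toEquiv]

theorem not_sq_dvd : ¬ 11 ^ 2 ∣ Nat.card G23 := by rw [card_G23]; norm_num

theorem card_NR : Nat.card NR = 55 := by
  have h1 := relIndex_modEq (by norm_num) (le_top : R ≤ ⊤) card_R not_sq_dvd
  rw [Subgroup.relIndex_top_right] at h1
  have h2 := Subgroup.card_mul_index NR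
  rw [card_G23] at h2
  obtain ⟨d, hd, hN⟩ := card_NR_dvd
  have hd' : d = 1 ∨ d = 2 ∨ d = 5 ∨ d = 10 := by
    have h3 : d ∈ Nat.divisors 10 := by rw [Nat.mem_divisors]; exact ⟨hd, by norm_num⟩
    have h4 : Nat.divisors 10 = {1, 2, 5, 10} := by decide
    rw [h4] at h3
    simpa using h3
  have h5 : NR.index % 11 = 1 := h1
  rcases card_CR with hC | hC <;> rcases hd' with rfl | rfl | rfl | rfl <;> rw [hC] at hN <;> rw [hN] at h2 ⊢ <;> omega

/-- `23:11` -/
abbrev F : Subgroup G23 := Subgroup.normalizer (τ.range : Set G23)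

theorem m11_mem_F : m11 ∈ F := affG_normalizes _ _ _

theorem tau_le_F : τ.range ≤ F := Subgroup.le_normalizer

/-- **`23:11` is maximal in `M23`** -/
theorem F_max (K : Subgroup G23) (hK : F ≤ K) : K = F ∨ K = ⊤ := by
  have hR : R ≤ K := by
    rw [R, Subgroup.zpowers_le]
    exact hK m11_mem_F
  have h23 := relIndex_modEq (by norm_num) (tau_le_F.trans hK) card_range (by rw [card_G23]; norm_num)
  have h11 := relIndex_modEq (by norm_num) hR card_R not_sq_dvd
  -- card K = 253 n
  have hcF : Nat.card F = 253 := card_normalizer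
  have c1 : Nat.card K = 253 * F.relIndex K := by
    have := Subgroup.card_mul_index (F.subgroupOf K)
    rw [Nat.card_congr (Subgroup.subgroupOfEquivOfLe hK).toEquiv, hcF] at this
    exact this.symm
  have c2 : Nat.card K * K.index = 10200960 := by rw [← card_G23]; exact Subgroup.card_mul_index K
  have c3 : Nat.card (NR.subgroupOf K) * NR.relIndex K = Nat.card K := Subgroup.card_mul_index (NR.subgroupOf K)
  have c4 : Nat.card (NR.subgroupOf K) ∣ 55 := by
    rw [← card_NR]
    exact Subgroup.card_comap_dvd_of_injective NR K.subtype K.subtype_injective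
  have c5 : 11 ∣ Nat.card (NR.subgroupOf K) := by
    have h1 : R.subgroupOf K ≤ NR.subgroupOf K := Subgroup.comap_mono Subgroup.le_normalizer
    have h2 := Subgroup.card_dvd_of_le h1
    rwa [Nat.card_congr (Subgroup.subgroupOfEquivOfLe hR).toEquiv, card_R] at h2
  have c6 : Nat.card (NR.subgroupOf K) = 11 ∨ Nat.card (NR.subgroupOf K) = 55 := by
    obtain ⟨k, hk⟩ := c5
    rw [hk] at c4 ⊢
    have h1 : k ∣ 5 := by
      have : 11 * k ∣ 11 * 5 := c4
      exact Nat.dvd_of_mul_dvd_mul_left (by norm_num) this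
    rcases (Nat.dvd_prime (by norm_num : Nat.Prime 5)).1 h1 with rfl | rfl
    · left; rfl
    · right; rfl
  set n := F.relIndex K with hn
  have hnd : n ∣ 40320 := by
    have h1 : 253 * (n * K.index) = 253 * 40320 := by rw [← mul_assoc, ← c1, c2]
    exact ⟨K.index, (Nat.eq_of_mul_eq_mul_left (by norm_num) h1).symm⟩
  have hn23 : n % 23 = 1 := h23
  have hlist : ∀ d ∈ Nat.divisors 40320, d % 23 = 1 → d = 1 ∨ d = 24 ∨ d = 70 ∨ d = 576 ∨ d = 1680 ∨ d = 40320 := by
    decide +kernel
  have hm11 : NR.relIndex K % 11 = 1 := h11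
  have hcases := hlist n (by rw [Nat.mem_divisors]; exact ⟨hnd, by norm_num⟩) hn23
  have hfin : n = 1 ∨ n = 40320 := by
    rw [c1] at c3
    rcases c6 with h | h <;> rw [h] at c3 <;> rcases hcases with h' | h' | h' | h' | h' | h' <;> rw [h'] at c3 ⊢ <;> omega
  rcases hfin with h | h
  · left
    have h1 : F.relIndex K = 1 := h
    rw [Subgroup.relIndex_eq_one] at h1
    exact le_antisymm h1 hK
  · right
    apply Subgroup.eq_top_of_card_eq
    rw [c1, h, card_G23]

end H34.L23
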