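import Cfsg.Agent.Lib.H34.L23

/-!
# L2(23) in M24
-/

set_option autoImplicit false

namespace H34.L23

open Cfsg H8.GolayCode H8.GolayCount H8.GolayBasic H8.M24Mem H8.M24Chain H8.M24Trans H8.M24Simple

instance f23 : Fact (Nat.Prime 23) := ⟨by norm_num⟩

/-- square multiplications -/
abbrev SQ : Set (Equiv.Perm GolayPt) := {g | ∃ u : (ZMod 23)ˣ, IsSquare u ∧ g = Equiv.optionCongr (Units.mulLeft u)}

/-- `23:11` as permutations -/
abbrev B : Subgroup (Equiv.Perm GolayPt) := Subgroup.closure ({Equiv.optionCongr (Equiv.addRight (1 : ZMod 23))} ∪ SQ)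

/-- `L2(23)` -/
abbrev L : Subgroup (Equiv.Perm GolayPt) := Subgroup.closure ({Equiv.optionCongr (Equiv.addRight (1 : ZMod 23)), projInv} ∪ SQ)

theorem tr_eq : (Equiv.optionCongr (Equiv.addRight (1 : ZMod 23)) : Equiv.Perm GolayPt) = aff 1 1 := by
  ext1 p
  cases p with
  | none => rfl
  | some x => rw [aff_some]; simp

theorem mul_eq (u : (ZMod 23)ˣ) : (Equiv.optionCongr (Units.mulLeft u) : Equiv.Perm GolayPt) = aff u 0 := by
  ext1 p
  cases p with
  | none => rfl
  | some x => rw [aff_some]; simp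

theorem aff_inv (u : (ZMod 23)ˣ) (c : ZMod 23) : (aff u c)⁻¹ = aff u⁻¹ (-((u⁻¹ : (ZMod 23)ˣ) : ZMod 23) * c) := by
  rw [inv_eq_iff_mul_eq_one, aff_mul, ← aff_one]
  congr 1
  · exact mul_inv_cancel u
  · have : (u : ZMod 23) * (u⁻¹ : (ZMod 23)ˣ) = 1 := Units.mul_inv u
    linear_combination (-c) * this

/-- the affine permutations as a subgroup -/
def AB : Subgroup (Equiv.Perm GolayPt) where
  carrier := {g | ∃ u : (ZMod 23)ˣ, IsSquare u ∧ ∃ c, g = aff u c}
  one_mem' := ⟨1, IsSquare.one, 0, aff_one.symm⟩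
  mul_mem' := by
    rintro _ _ ⟨u, hu, c, rfl⟩ ⟨v, hv, d, rfl⟩
    exact ⟨u * v, hu.mul hv, _, aff_mul u v c d⟩
  inv_mem' := by
    rintro _ ⟨u, hu, c, rfl⟩
    exact ⟨u⁻¹, hu.inv, _, aff_inv u c⟩

theorem aff_tr_mem {H : Subgroup (Equiv.Perm GolayPt)} (h : (Equiv.optionCongr (Equiv.addRight (1 : ZMod 23)) : Equiv.Perm GolayPt) ∈ H)
    (c : ZMod 23) : aff 1 c ∈ H := by
  have h1 : (aff 1 1) ^ c.val = aff 1 c := by
    have h2 : gα = aff 1 1 := tr_eq
    rw [← h2, tr_pow, ZMod.natCast_zmod_val]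
  rw [← h1, ← tr_eq]
  exact H.pow_mem h _

theorem aff_mem_of {H : Subgroup (Equiv.Perm GolayPt)} (h : (Equiv.optionCongr (Equiv.addRight (1 : ZMod 23)) : Equiv.Perm GolayPt) ∈ H)
    (h2 : SQ ⊆ H) {u : (ZMod 23)ˣ} (hu : IsSquare u) (c : ZMod 23) : aff u c ∈ H := by
  have e : aff u c = aff 1 c * aff u 0 := by
    rw [aff_mul]
    congr 1
    · rw [one_mul]
    · simp
  rw [e]
  exact H.mul_mem (aff_tr_mem h c) (h2 ⟨u, hu, (mul_eq u).symm⟩)

theorem B_eq : B = AB := by
  apply le_antisymm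
  · rw [Subgroup.closure_le]
    rintro g (hg | ⟨u, hu, rfl⟩)
    · rw [Set.mem_singleton_iff] at hg
      rw [hg, tr_eq]
      exact ⟨1, IsSquare.one, 1, rfl⟩
    · rw [mul_eq]
      exact ⟨u, hu, 0, rfl⟩
  · rintro _ ⟨u, hu, c, rfl⟩
    exact aff_mem_of (Subgroup.subset_closure (Or.inl rfl)) (fun g hg => Subgroup.subset_closure (Or.inr hg)) hu c

theorem AB_le : AB ≤ M24 ⊓ MulAction.stabilizer (Equiv.Perm GolayPt) (none : GolayPt) := by
  rintro _ ⟨u, hu, c, rfl⟩
  exact ⟨aff_mem hu c, rfl⟩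

theorem AB_sub : (AB.subgroupOf M24).subgroupOf (MulAction.stabilizer M24 (none : GolayPt)) = F := by
  ext g
  constructor
  · rintro ⟨u, hu, c, h⟩
    have h1 : g = affG u hu c := Subtype.ext (Subtype.ext h)
    rw [h1]
    exact affG_normalizes u hu c
  · intro hg
    obtain ⟨u, hu, c, rfl⟩ := affine_of_normalizes hg
    exact ⟨u, hu, c, rfl⟩

theorem AB_sub_le : AB.subgroupOf M24 ≤ MulAction.stabilizer M24 (none : GolayPt) := by
  rintro g ⟨u, hu, c, h⟩
  show ((g : M24) : Equiv.Perm GolayPt) none = none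
  have h1 : ((g : M24) : Equiv.Perm GolayPt) = aff u c := h
  rw [h1]
  rfl

theorem card_AB : Nat.card AB = 253 := by
  have h1 : Nat.card F = 253 := card_normalizer
  rw [← AB_sub, Nat.card_congr (Subgroup.subgroupOfEquivOfLe AB_sub_le).toEquiv,
    Nat.card_congr (Subgroup.subgroupOfEquivOfLe (AB_le.trans inf_le_left)).toEquiv] at h1
  exact h1

theorem F_coatom : IsCoatom F := by
  constructor
  · intro h
    have h1 := card_normalizer
    have h2 : Nat.card (F : Subgroup G23) = Nat.card G23 := by rw [h, Subgroup.card_top]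
    rw [card_G23] at h2
    rw [h2] at h1
    norm_num at h1
  · intro K hK
    rcases F_max K hK.le with h | h
    · exact absurd h hK.ne'
    · exact h

/-! ### the big cell -/

theorem w_none : projInv none = some 0 := rfl

theorem w_zero : projInv (some 0) = none := rfl

theorem pow21 {x : ZMod 23} (hx : x ≠ 0) : x ^ 21 = x⁻¹ := by
  have h := ZMod.pow_card_sub_one_eq_one hx
  have h2 : x ^ 22 = 1 := h
  have h3 : x ^ 21 * x = 1 := by rw [← pow_succ]; exact h2
  exact eq_inv_of_mul_eq_one_left h3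

theorem w_some {x : ZMod 23} (hx : x ≠ 0) : projInv (some x) = some (-x⁻¹) := by
  have : projInv (some x) = if x = 0 then none else some (-(x ^ 21)) := rfl
  rw [this, if_neg hx, pow21 hx]

theorem w_aff (u : (ZMod 23)ˣ) (c : ZMod 23) :
    projInv * aff u c = aff u⁻¹ 0 * projInv * aff 1 (c * ((u⁻¹ : (ZMod 23)ˣ) : ZMod 23)) := by
  have hu : (u : ZMod 23) ≠ 0 := u.ne_zero
  have hui : ((u⁻¹ : (ZMod 23)ˣ) : ZMod 23) = (u : ZMod 23)⁻¹ := Units.val_inv_eq_inv_val u
  ext1 p
  rw [Equiv.Perm.mul_apply, Equiv.Perm.mul_apply, Equiv.Perm.mul_apply]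
  cases p with
  | none => rw [aff_none, aff_none, w_none, aff_some, mul_zero, add_zero]
  | some x =>
    rw [aff_some, aff_some, hui]
    by_cases h : (u : ZMod 23) * x + c = 0
    · have h2 : ((1 : (ZMod 23)ˣ) : ZMod 23) * x + c * (u : ZMod 23)⁻¹ = 0 := by
        field_simp
        push_cast
        linear_combination h
      rw [h, h2, w_zero, aff_none]
    · have h2 : ((1 : (ZMod 23)ˣ) : ZMod 23) * x + c * (u : ZMod 23)⁻¹ ≠ 0 := by
        intro h3
        apply h
        field_simp at h3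
        push_cast at h3
        linear_combination h3
      rw [w_some h, w_some h2, aff_some, hui]
      congr 1
      push_cast at h2 ⊢
      rw [one_mul] at h2 ⊢
      have h4 : (u : ZMod 23) * x + c = u * (x + c * (u : ZMod 23)⁻¹) := by field_simp
      rw [h4, mul_inv]
      ring

theorem w_aff_w0 (u : (ZMod 23)ˣ) : projInv * aff u 0 * projInv = aff u⁻¹ 0 := by
  have hu : (u : ZMod 23) ≠ 0 := u.ne_zero
  have hui : ((u⁻¹ : (ZMod 23)ˣ) : ZMod 23) = (u : ZMod 23)⁻¹ := Units.val_inv_eq_inv_val u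
  ext1 p
  rw [Equiv.Perm.mul_apply, Equiv.Perm.mul_apply]
  cases p with
  | none => rw [w_none, aff_some, mul_zero, zero_add, w_zero, aff_none]
  | some x =>
    rw [aff_some, hui]
    by_cases h : x = 0
    · rw [h, w_zero, aff_none, w_none, mul_zero, add_zero]
    · rw [w_some h, aff_some]
      have h2 : (u : ZMod 23) * -x⁻¹ + 0 ≠ 0 := by
        rw [add_zero]
        exact mul_ne_zero hu (neg_ne_zero.2 (inv_ne_zero h))
      rw [w_some h2]
      congr 1
      field_simp
      ring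

theorem w_aff_w (u v : (ZMod 23)ˣ) (c : ZMod 23) (hc : c ≠ 0) (hv : (v : ZMod 23) = u * c⁻¹ * c⁻¹) :
    projInv * aff u c * projInv = aff v (-c⁻¹) * projInv * aff 1 (-((u : ZMod 23) * c⁻¹)) := by
  have hu : (u : ZMod 23) ≠ 0 := u.ne_zero
  ext1 p
  rw [Equiv.Perm.mul_apply, Equiv.Perm.mul_apply, Equiv.Perm.mul_apply, Equiv.Perm.mul_apply]
  cases p with
  | none => rw [w_none, aff_some, mul_zero, zero_add, w_some hc, aff_none, w_none, aff_some, mul_zero, zero_add]
  | some x =>
    rw [aff_some 1, Units.val_one, one_mul]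
    by_cases h : x = 0
    · subst h
      have h2 : (0 : ZMod 23) + -((u : ZMod 23) * c⁻¹) ≠ 0 := by
        rw [zero_add]
        exact neg_ne_zero.2 (mul_ne_zero hu (inv_ne_zero hc))
      rw [w_zero, aff_none, w_none, w_some h2, aff_some, hv]
      congr 1
      field_simp
      ring
    · rw [w_some h, aff_some]
      by_cases h3 : (u : ZMod 23) * -x⁻¹ + c = 0
      · have h4 : x + -((u : ZMod 23) * c⁻¹) = 0 := by
          field_simp at h3 ⊢
          linear_combination h3
        rw [h3, h4, w_zero, aff_none]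
      · have h4 : x + -((u : ZMod 23) * c⁻¹) ≠ 0 := by
          intro h5
          apply h3
          field_simp at h5 ⊢
          linear_combination h5
        rw [w_some h3, w_some h4, aff_some, hv]
        congr 1
        have h5 : c * x - u ≠ 0 := by
          intro h6
          apply h4
          field_simp
          linear_combination h6
        have e1 : (u : ZMod 23) * -x⁻¹ + c = (c * x - u) * x⁻¹ := by field_simp; ring
        have e2 : x + -((u : ZMod 23) * c⁻¹) = (c * x - u) * c⁻¹ := by field_simp; ring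
        rw [e1, e2, mul_inv, mul_inv, inv_inv, inv_inv]
        field_simp
        ring

/-- the Bruhat decomposition -/
theorem bruhat {g : Equiv.Perm GolayPt} (hg : g ∈ L) :
    g ∈ AB ∨ ∃ b ∈ AB, ∃ d, g = b * projInv * aff 1 d := by
  have key : ∀ a ∈ AB, ∀ g, (g ∈ AB ∨ ∃ b ∈ AB, ∃ d, g = b * projInv * aff 1 d) →
      (a * g ∈ AB ∨ ∃ b ∈ AB, ∃ d, a * g = b * projInv * aff 1 d) := by
    intro a ha g hg
    rcases hg with h | ⟨b, hb, d, rfl⟩
    · exact Or.inl (AB.mul_mem ha h)
    · exact Or.inr ⟨a * b, AB.mul_mem ha hb, d, by simp only [mul_assoc]⟩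
  have keyw : ∀ g, (g ∈ AB ∨ ∃ b ∈ AB, ∃ d, g = b * projInv * aff 1 d) →
      (projInv * g ∈ AB ∨ ∃ b ∈ AB, ∃ d, projInv * g = b * projInv * aff 1 d) := by
    rintro g (⟨u, hu, c, rfl⟩ | ⟨_, ⟨u, hu, c, rfl⟩, d, rfl⟩)
    · exact Or.inr ⟨_, ⟨u⁻¹, hu.inv, 0, rfl⟩, _, w_aff u c⟩
    · by_cases hc : c = 0
      · left
        subst hc
        rw [← mul_assoc, ← mul_assoc, w_aff_w0]
        exact AB.mul_mem ⟨u⁻¹, hu.inv, 0, rfl⟩ ⟨1, IsSquare.one, d, rfl⟩
      · right
        set c' : (ZMod 23)ˣ := Units.mk0 c hc with hc'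
        refine ⟨aff (u * c'⁻¹ * c'⁻¹) (-c⁻¹), ⟨_, ?_, _, rfl⟩, -((u : ZMod 23) * c⁻¹) + d, ?_⟩
        · rw [mul_assoc]
          exact hu.mul ⟨c'⁻¹, rfl⟩
        · rw [← mul_assoc, ← mul_assoc, w_aff_w u (u * c'⁻¹ * c'⁻¹) c hc (by simp [hc']), mul_assoc _ (aff 1 _) (aff 1 d), aff_mul]
          congr 2
          rw [Units.val_one, one_mul, add_comm]
  have hw : projInv⁻¹ = projInv := rfl
  induction hg using Subgroup.closure_induction_left with
  | one => exact Or.inl AB.one_mem
  | mul_left x hx y _ ih =>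
    rcases hx with hx | ⟨u, hu, rfl⟩
    · rcases hx with rfl | rfl
      · rw [tr_eq]
        exact key _ ⟨1, IsSquare.one, 1, rfl⟩ _ ih
      · exact keyw _ ih
    · rw [mul_eq]
      exact key _ ⟨u, hu, 0, rfl⟩ _ ih
  | inv_mul_cancel x hx y _ ih =>
    rcases hx with hx | ⟨u, hu, rfl⟩
    · rcases hx with rfl | rfl
      · rw [tr_eq]
        exact key _ (AB.inv_mem ⟨1, IsSquare.one, 1, rfl⟩) _ ih
      · rw [hw]
        exact keyw _ ih
    · rw [mul_eq]
      exact key _ (AB.inv_mem ⟨u, hu, 0, rfl⟩) _ ih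

theorem AB_none {g : Equiv.Perm GolayPt} (hg : g ∈ AB) : g none = none := (AB_le hg).2

theorem AB_le_L : AB ≤ L := by
  rw [← B_eq]
  apply Subgroup.closure_mono
  rintro g (hg | hg)
  · left; left; exact hg
  · right; exact hg

theorem projInv_mem_L : projInv ∈ L := Subgroup.subset_closure (Or.inl (Or.inr rfl))

/-- the point stabiliser of `L` -/
theorem L_stab {g : Equiv.Perm GolayPt} (hg : g ∈ L) (h : g none = none) : g ∈ AB := by
  rcases bruhat hg with h1 | ⟨b, hb, d, rfl⟩
  · exact h1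
  · exfalso
    rw [Equiv.Perm.mul_apply, Equiv.Perm.mul_apply, aff_none, w_none] at h
    rw [← AB_none hb] at h
    exact absurd (b.injective h) (by simp)

theorem L_le : L ≤ M24 := by
  rw [Subgroup.closure_le]
  rintro g (hg | ⟨u, hu, rfl⟩)
  · rcases hg with rfl | rfl
    · exact α_mem
    · exact γ_mem
  · exact mul_square_mem u hu

theorem L_trans (p : GolayPt) : ∃ g ∈ L, g none = p := by
  cases p with
  | none => exact ⟨1, L.one_mem, rfl⟩
  | some x =>
    refine ⟨aff 1 x * projInv, L.mul_mem (AB_le_L ⟨1, IsSquare.one, x, rfl⟩) projInv_mem_L, ?_⟩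
    rw [Equiv.Perm.mul_apply, w_none, aff_some, mul_zero, zero_add]

/-- order of a transitive overgroup -/
theorem card_trans (K : Subgroup (Equiv.Perm GolayPt)) (hK : L ≤ K) :
    Nat.card K = 24 * Nat.card (K ⊓ MulAction.stabilizer (Equiv.Perm GolayPt) (none : GolayPt) : Subgroup (Equiv.Perm GolayPt)) := by
  have h1 : (MulAction.stabilizer K (none : GolayPt)).index = (MulAction.orbit K (none : GolayPt)).ncard :=
    MulAction.index_stabilizer K _
  have h2 := Subgroup.card_mul_index (MulAction.stabilizer K (none : GolayPt))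
  have h3 : Nat.card (K ⊓ MulAction.stabilizer (Equiv.Perm GolayPt) (none : GolayPt) : Subgroup (Equiv.Perm GolayPt)) =
      Nat.card (MulAction.stabilizer K (none : GolayPt)) := by
    apply Nat.card_congr
    refine ⟨fun x => ⟨⟨x.1, x.2.1⟩, x.2.2⟩, fun x => ⟨x.1.1, x.1.2, x.2⟩, fun x => rfl, fun x => rfl⟩
  have h4 : MulAction.orbit K (none : GolayPt) = Set.univ := by
    rw [Set.eq_univ_iff_forall]
    intro p
    obtain ⟨g, hg, hp⟩ := L_trans p
    exact ⟨⟨g, hK hg⟩, hp⟩
  rw [h4, Set.ncard_univ, card_pt'] at h1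
  rw [h3, ← h2, h1, Nat.mul_comm]

theorem L_inf : (L ⊓ MulAction.stabilizer (Equiv.Perm GolayPt) (none : GolayPt) : Subgroup (Equiv.Perm GolayPt)) = AB := by
  apply le_antisymm
  · rintro g ⟨h1, h2⟩
    exact L_stab h1 h2
  · intro g hg
    exact ⟨AB_le_L hg, AB_none hg⟩

theorem card_L : Nat.card L = 6072 := by
  rw [card_trans L le_rfl, L_inf, card_AB]

/-- **`L2(23)` is maximal in `M24`** -/
theorem L_coatom : IsCoatom (L.subgroupOf M24) := by
  constructor
  · intro h
    rw [Subgroup.subgroupOf_eq_top] at h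
    have h1 := Subgroup.card_dvd_of_le h
    rw [card_L, card_M24] at h1
    have h2 := Nat.le_of_dvd (by norm_num) h1
    norm_num at h2
  · intro K hK
    have hle : L ≤ K.map M24.subtype := by
      intro g hg
      exact ⟨⟨g, L_le hg⟩, hK.le hg, rfl⟩
    have hKG : F ≤ K.subgroupOf G23 := by
      rw [← AB_sub]
      intro g hg
      exact hK.le (AB_le_L hg)
    rcases F_max _ hKG with h | h
    · -- then `K = L`
      exfalso
      have h1 : (K.map M24.subtype ⊓ MulAction.stabilizer (Equiv.Perm GolayPt) (none : GolayPt) : Subgroup (Equiv.Perm GolayPt)) ≤ AB := by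
        rintro g ⟨⟨k, hk, rfl⟩, h2⟩
        have h3 : (⟨k, h2⟩ : G23) ∈ K.subgroupOf G23 := hk
        rw [h, ← AB_sub] at h3
        exact h3
      have h2 := card_trans _ hle
      have h3 : Nat.card (K.map M24.subtype ⊓ MulAction.stabilizer (Equiv.Perm GolayPt) (none : GolayPt) : Subgroup (Equiv.Perm GolayPt)) ≤ 253 := by
        rw [← card_AB]
        exact Subgroup.card_le_of_le h1
      have h4 : L = K.map M24.subtype := by
        apply Subgroup.eq_of_le_of_card_ge hle
        rw [h2, card_L]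
        omega
      apply hK.ne
      ext g
      constructor
      · intro hg
        exact hK.le hg
      · intro hg
        show (g : Equiv.Perm GolayPt) ∈ L
        rw [h4]
        exact ⟨g, hg, rfl⟩
    · rw [eq_top_iff]
      intro g _
      obtain ⟨l, hl, hl2⟩ := L_trans ((g : Equiv.Perm GolayPt) none)
      have h1 : (⟨l, L_le hl⟩ : M24)⁻¹ * g ∈ MulAction.stabilizer M24 (none : GolayPt) := by
        show (l⁻¹ * (g : Equiv.Perm GolayPt)) none = none
        rw [Equiv.Perm.mul_apply, ← hl2]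
        exact l.symm_apply_apply _
      have h2 : (⟨_, h1⟩ : G23) ∈ K.subgroupOf G23 := by rw [h]; trivial
      have h3 : (⟨l, L_le hl⟩ : M24)⁻¹ * g ∈ K := h2
      have h4 : (⟨l, L_le hl⟩ : M24) ∈ K := hK.le hl
      have h5 := K.mul_mem h4 h3
      rwa [mul_inv_cancel_left] at h5

end H34.L23
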