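import Mathlib
import Cfsg.Agent.Lib.H34.MLev
import Cfsg.Agent.Lib.H19.UCov
import Cfsg.Agent.Lib.H69.SchurPerfect
import Cfsg.Agent.Lib.H35.StemFin

/-!
# Finishing a multiplier with an arbitrary abelian kernel

If `σ : Γ → G` is a stem extension of a perfect group with kernel `A` and for every prime `p` no stem extension of `G`
has a kernel of order `p ^ (v_p |A| + 1)`, then `A` is the Schur multiplier.
-/

set_option autoImplicit false
set_option maxHeartbeats 400000

namespace H34.MK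

open Subgroup H35.Stem

universe v

section fin

variable {G : Type} [Group G] [Finite G]

/-- stem kernels have no elements of order `p` when the Sylow `p`-subgroups have order at most `p` -/
theorem not_dvd_of_sq {p : ℕ} (hp : p.Prime) (h : ¬ p ^ 2 ∣ Nat.card G) {Γ : Type} [Group Γ] [Finite Γ] {σ : Γ →* G}
    (hσ : Cfsg.IsStemExtension σ) : ¬ p ∣ Nat.card σ.ker := by
  have : Fact p.Prime := ⟨hp⟩
  intro hd
  let P : Sylow p G := default
  have hcy : IsCyclic P := by
    have hG : Nat.card G ≠ 0 := Nat.card_pos.ne'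
    have h2 : (Nat.card G).factorization p < 2 := by
      by_contra hcon
      exact h ((hp.pow_dvd_iff_le_factorization hG).2 (not_lt.1 hcon))
    have hc : Nat.card P = p ^ (Nat.card G).factorization p := Sylow.card_eq_multiplicity P
    rcases Nat.lt_succ_iff_lt_or_eq.1 h2 with h3 | h3
    · have h4 : (Nat.card G).factorization p = 0 := by omega
      rw [h4, pow_zero] at hc
      have : Subsingleton P := (Nat.card_eq_one_iff_unique.1 hc).1
      infer_instance
    · rw [h3, pow_one] at hc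
      exact isCyclic_of_prime_card hc
  obtain ⟨i, n, hi, hn, hnf, w, hw, hz⟩ := cond_cyclic P hσ 1
  have hn' : ¬ p ∣ n := by
    intro hpn
    have h5 := (hp.dvd_iff_one_le_factorization hn).1 hpn
    rw [Nat.factorization_one, Finsupp.zero_apply] at hnf
    omega
  obtain ⟨z, hz1⟩ := exists_prime_orderOf_dvd_card' (G := σ.ker) p hd
  have h1 : (z : Γ) ^ (i * n) = 1 := by
    obtain ⟨k, hk⟩ := mem_zpowers_iff.1 (hz z z.2)
    rw [pow_mul, ← hk, ← zpow_natCast, ← zpow_mul, mul_comm, zpow_mul, zpow_natCast, hw, one_zpow]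
  have h2 : z ^ (i * n) = 1 := Subtype.ext h1
  have h3 := orderOf_dvd_of_pow_eq_one h2
  rw [hz1] at h3
  rcases (Nat.Prime.dvd_mul hp).1 h3 with h4 | h4
  · exact hi h4
  · exact hn' h4

/-- **multiplier from a cover and bounds** -/
theorem hasMult_of {A : Type v} [CommGroup A] (hperf : commutator G = ⊤)
    (hex : ∃ (Γ : Type) (_ : Group Γ) (_ : Finite Γ) (σ : Γ →* G), Cfsg.IsStemExtension σ ∧ Nonempty (σ.ker ≃* A))
    (h : ∀ p : ℕ, p.Prime → ∀ (Γ : Type) [Group Γ] [Finite Γ] (σ : Γ →* G), Cfsg.IsStemExtension σ →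
      ¬ p ^ ((Nat.card A).factorization p + 1) ∣ Nat.card σ.ker) : Cfsg.HasSchurMultiplier G A := by
  obtain ⟨Γ, _, _, σ, hσ, ⟨e⟩⟩ := hex
  have hΓ := perfect_of_stem hσ hperf
  have hA : Nat.card σ.ker = Nat.card A := Nat.card_congr e.toEquiv
  have hA0 : Nat.card A ≠ 0 := by rw [← hA]; exact Nat.card_pos.ne'
  refine H19.UCov.hasSchurMultiplier_of_simply_connected hσ hΓ ?_ e
  intro Δ _ _ ρ hρ
  have hΔ := perfect_of_stem hρ hΓ
  have hst : Cfsg.IsStemExtension (σ.comp ρ) := by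
    refine ⟨hσ.1.comp hρ.1, ?_, by rw [hΔ]; exact le_top⟩
    intro x hx
    apply H69.SchurPerfect.mem_center_of_perfect (Group.isPerfect_def.mpr hΔ)
    intro g
    apply hρ.2.1
    have h3 : ρ x ∈ σ.ker := hx
    have h4 := Subgroup.mem_center_iff.mp (hσ.2.1 h3) (ρ g)
    rw [MonoidHom.mem_ker, map_mul, map_mul, map_mul, map_inv, map_inv, ← h4, mul_inv_cancel_right, mul_inv_cancel]
  have c1 := card_of_ker hρ.1
  have c2 := card_of_ker hσ.1
  have c3 := card_of_ker hst.1
  have hG : 0 < Nat.card G := Nat.card_pos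
  have hc : Nat.card (σ.comp ρ).ker = Nat.card ρ.ker * Nat.card A := by
    rw [← hA]
    apply Nat.eq_of_mul_eq_mul_right hG
    rw [c3, mul_assoc, c2, c1]
  rw [← Subgroup.card_eq_one]
  by_contra h1
  obtain ⟨p, hp, hpd⟩ := Nat.exists_prime_and_dvd h1
  apply h p hp Δ (σ.comp ρ) hst
  rw [hc, pow_succ, mul_comm]
  exact Nat.mul_dvd_mul hpd (Nat.ordProj_dvd _ _)

/-- **multiplier from a cover and bounds**, with a factorised group order -/
theorem hasMult_list {A : Type v} [CommGroup A] (hperf : commutator G = ⊤)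
    (hex : ∃ (Γ : Type) (_ : Group Γ) (_ : Finite Γ) (σ : Γ →* G), Cfsg.IsStemExtension σ ∧ Nonempty (σ.ker ≃* A))
    (l : List (ℕ × ℕ)) (hl : ∀ a ∈ l, a.1.Prime) (hc : Nat.card G = (l.map fun a => a.1 ^ a.2).prod)
    (h : ∀ a ∈ l, ¬ a.1 ^ 2 ∣ Nat.card G ∨ ∃ k, NoExt G (a.1 ^ (k + 1)) ∧ a.1 ^ k ∣ Nat.card A) :
    Cfsg.HasSchurMultiplier G A := by
  refine hasMult_of hperf hex ?_
  intro p hp Γ _ _ σ hσ
  have hA0 : Nat.card A ≠ 0 := by
    obtain ⟨Γ, _, _, σ, hσ, ⟨e⟩⟩ := hex
    rw [← Nat.card_congr e.toEquiv]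
    exact Nat.card_pos.ne'
  by_cases hd : p ∣ Nat.card G
  · rw [hc] at hd
    obtain ⟨a, ha, rfl⟩ := prime_dvd_list hp l hl hd
    rcases h a ha with h1 | ⟨k, hk, hkA⟩
    · intro h2
      exact not_dvd_of_sq hp h1 hσ ((dvd_pow_self a.1 (by omega)).trans h2)
    · intro h2
      have h3 := (hp.pow_dvd_iff_le_factorization hA0).1 hkA
      exact not_dvd_of_noExt hp hk hσ ((pow_dvd_pow a.1 (by omega)).trans h2)
  · intro h2
    refine not_dvd_of_sq hp (fun h3 => hd ((dvd_pow_self p (by norm_num)).trans h3)) hσ ((dvd_pow_self p (by omega)).trans h2)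

end fin

end H34.MK
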