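import Mathlib
import Cfsg.Agent.Lib.H35.StemFin

/-!
# Adjoining a central square root
-/

set_option autoImplicit false

namespace H34.MK

open Subgroup

/-- **adjoining a central root** of `z⁻¹` -/
theorem exists_root {Γ : Type} [Group Γ] [Finite Γ] (z : Γ) (hz : ∀ y, z * y = y * z) :
    ∃ (P : Type) (_ : Group P) (_ : Finite P) (ι : Γ →* P) (s : P), Function.Injective ι ∧
      (∀ y, s * y = y * s) ∧ s * s = (ι z)⁻¹ ∧ Nat.card P = 2 * Nat.card Γ ∧
      (∀ y : P, ∃ (x : Γ) (k : ℕ), y = ι x * s ^ k) ∧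
      ∀ (G : Type) [Group G] (σ : Γ →* G), σ z = 1 → ∃ π : P →* G, (∀ x, π (ι x) = σ x) ∧ π s = 1 := by
  set m := orderOf z with hm
  have hm0 : 0 < m := orderOf_pos z
  have : NeZero (2 * m) := ⟨by omega⟩
  let C := Multiplicative (ZMod (2 * m))
  let r : C := Multiplicative.ofAdd 1
  have hro : orderOf r = 2 * m := by
    rw [orderOf_ofAdd_eq_addOrderOf, ZMod.addOrderOf_one]
  let a : Γ × C := (z, r ^ 2)
  have hac : ∀ y : Γ × C, a * y = y * a := by
    rintro ⟨y1, y2⟩
    exact Prod.ext (hz y1) (mul_comm _ _)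
  have hao : orderOf a = m := by
    rw [Prod.orderOf_mk, orderOf_pow, hro, ← hm]
    have : Nat.gcd (2 * m) 2 = 2 := Nat.gcd_eq_right (dvd_mul_right 2 m)
    rw [this, Nat.mul_div_cancel_left m (by norm_num), Nat.lcm_self]
  let N : Subgroup (Γ × C) := zpowers a
  have hN : N.Normal := by
    constructor
    rintro _ ⟨k, rfl⟩ g
    have h1 : Commute (a ^ k) g := (Commute.zpow_left (hac g) k)
    change g * a ^ k * g⁻¹ ∈ N
    rw [← h1.eq, mul_inv_cancel_right]
    exact ⟨k, rfl⟩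
  let P := (Γ × C) ⧸ N
  let ι : Γ →* P := (QuotientGroup.mk' N).comp (MonoidHom.inl Γ C)
  let s : P := QuotientGroup.mk' N (1, r)
  have hι : ∀ x, ι x = QuotientGroup.mk' N (x, 1) := fun x => rfl
  have hinj : Function.Injective ι := by
    rw [injective_iff_map_eq_one]
    intro x hx
    have h1 : ((x, 1) : Γ × C) ∈ N := (QuotientGroup.eq_one_iff _).1 hx
    obtain ⟨k, hk⟩ := h1
    have h2 : z ^ k = x := congrArg Prod.fst hk
    have h3 : (r ^ 2) ^ k = 1 := congrArg Prod.snd hk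
    rw [← h2]
    rw [← zpow_natCast, ← zpow_mul] at h3
    have h4 := orderOf_dvd_iff_zpow_eq_one.2 h3
    rw [hro] at h4
    push_cast at h4
    have h5 : (m : ℤ) ∣ k := (mul_dvd_mul_iff_left (by norm_num)).1 h4
    exact orderOf_dvd_iff_zpow_eq_one.1 h5
  have hsc : ∀ y, s * y = y * s := by
    intro y
    obtain ⟨⟨y1, y2⟩, rfl⟩ := QuotientGroup.mk'_surjective N y
    rw [← map_mul, ← map_mul]
    congr 1
    exact Prod.ext (by simp) (mul_comm _ _)
  have hss : s * s = (ι z)⁻¹ := by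
    rw [eq_inv_iff_mul_eq_one, hι, ← map_mul, ← map_mul]
    refine (QuotientGroup.eq_one_iff _).2 ?_
    refine ⟨1, ?_⟩
    change a ^ (1 : ℤ) = _
    rw [zpow_one]
    exact Prod.ext (by simp [a]) (by simp [a, pow_two])
  have hspan : ∀ y : P, ∃ (x : Γ) (k : ℕ), y = ι x * s ^ k := by
    intro y
    obtain ⟨⟨y1, y2⟩, rfl⟩ := QuotientGroup.mk'_surjective N y
    obtain ⟨k, hk⟩ : ∃ k : ℕ, y2 = r ^ k := by
      refine ⟨(Multiplicative.toAdd y2).val, ?_⟩
      apply Multiplicative.toAdd.injective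
      rw [toAdd_pow]
      simp [r]
    refine ⟨y1, k, ?_⟩
    rw [hι, ← map_pow, ← map_mul]
    congr 1
    exact Prod.ext (by simp) (by simp [hk])
  refine ⟨P, inferInstance, inferInstance, ι, s, hinj, hsc, hss, ?_, hspan, ?_⟩
  · have h1 := Subgroup.card_eq_card_quotient_mul_card_subgroup N
    have h2 : Nat.card N = m := by rw [Nat.card_zpowers, hao]
    have h3 : Nat.card (Γ × C) = Nat.card Γ * (2 * m) := by
      rw [Nat.card_prod]
      congr 1
      rw [Nat.card_congr Multiplicative.toAdd, Nat.card_zmod]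
    rw [h2, h3] at h1
    have h4 : Nat.card P * m = (2 * Nat.card Γ) * m := by rw [← h1]; ring
    exact Nat.eq_of_mul_eq_mul_right hm0 h4
  · intro G _ σ hσ
    have hle : ∀ y ∈ N, (σ.comp (MonoidHom.fst Γ C)) y = 1 := by
      rintro _ ⟨k, rfl⟩
      rw [map_zpow]
      change (σ z) ^ k = 1
      rw [hσ, one_zpow]
    refine ⟨QuotientGroup.lift N (σ.comp (MonoidHom.fst Γ C)) hle, fun x => rfl, ?_⟩
    change σ 1 = 1
    exact map_one σ

end H34.MK
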