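import Mathlib
import Cfsg.Agent.Lib.H34.MKRoot

/-!
# Central extensions with generators of square one: exact facts from facts in the quotient
-/

set_option autoImplicit false

namespace H34.MK

open Subgroup H35.Stem H35.TC H35.Net
open scoped commutatorElement

section lifts

variable {P G : Type} [Group P] [Group G] {π : P →* G}

/-- two lifts of the same element act in the same way -/
theorem conj_same (hc : π.ker ≤ center P) {x y : P} (h : π x = π y) (a : P) : x * a * x⁻¹ = y * a * y⁻¹ := by
  have h1 : y⁻¹ * x ∈ π.ker := by rw [MonoidHom.mem_ker, map_mul, map_inv, h, inv_mul_cancel]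
  have h2 := mem_center_iff.1 (hc h1) a
  calc x * a * x⁻¹ = y * ((y⁻¹ * x) * a) * x⁻¹ := by group
    _ = y * (a * (y⁻¹ * x)) * x⁻¹ := by rw [h2]
    _ = y * a * y⁻¹ := by group

/-- commutators depend only on the images -/
theorem comm_same (hc : π.ker ≤ center P) {x y a b : P} (h : π x = π y) (hab : π a = π b) :
    x * a * x⁻¹ * a⁻¹ = y * b * y⁻¹ * b⁻¹ := by
  have e1 : x * a * x⁻¹ * a⁻¹ = y * a * y⁻¹ * a⁻¹ := by rw [conj_same hc h a]
  have e2 : y * a * y⁻¹ * a⁻¹ = y * (a * y⁻¹ * a⁻¹) := by group
  have e3 : y * b * y⁻¹ * b⁻¹ = y * (b * y⁻¹ * b⁻¹) := by group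
  rw [e1, e2, e3, conj_same hc hab y⁻¹]

end lifts

section tree

variable {Γ G : Type} [Group Γ] [Group G] {σ : Γ →* G}

/-- the word `u p u⁻¹ x⁻¹` -/
def tword {n : ℕ} (par : Fin n → Fin n) (uw : Fin n → W (Fin n)) (x : Fin n) : W (Fin n) :=
  uw x ++ ([(par x, true)] ++ (winv (uw x) ++ [(x, false)]))

theorem ev_tword {n : ℕ} {par : Fin n → Fin n} {uw : Fin n → W (Fin n)} {x : Fin n} {P : Type} [Group P] (f : Fin n → P) :
    ev f (tword par uw x) = 1 ↔ ev f (uw x) * f (par x) * (ev f (uw x))⁻¹ = f x := by
  rw [tword, ev_append, ev_append, ev_append, ev_winv]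
  change ev f (uw x) * ((f (par x) * 1) * ((ev f (uw x))⁻¹ * ((f x)⁻¹ * 1))) = 1 ↔ _
  rw [mul_one, mul_one, ← mul_assoc, ← mul_assoc, mul_inv_eq_one]

/-- lifts with exact conjugation relations along a tree; `tr x` tells which letters have a parent -/
theorem exists_tree {n : ℕ} (hc : σ.ker ≤ center Γ) (g : Fin n → G)
    (tr : Fin n → Bool) (par : Fin n → Fin n) (uw : Fin n → W (Fin n)) (hpar : ∀ x, tr x = true → par x < x)
    (ht : ∀ x, tr x = true → ev g (tword par uw x) = 1) (f0 : Fin n → Γ) (hf0 : ∀ x, σ (f0 x) = g x) :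
    ∃ f : Fin n → Γ, (∀ x, σ (f x) = g x) ∧ (∀ x, tr x = false → f x = f0 x) ∧
      ∀ x, tr x = true → ev f (tword par uw x) = 1 := by
  have key : ∀ k : ℕ, ∃ f : Fin n → Γ, (∀ x, σ (f x) = g x) ∧ (∀ x, tr x = false → f x = f0 x) ∧
      ∀ x : Fin n, x.val < k → tr x = true → ev f (tword par uw x) = 1 := by
    intro k
    induction k with
    | zero => exact ⟨f0, hf0, fun _ _ => rfl, fun x hx => absurd hx (Nat.not_lt_zero _)⟩
    | succ k ih =>
      obtain ⟨f, h1, h2, h3⟩ := ih
      by_cases hk : k < n
      · set y : Fin n := ⟨k, hk⟩ with hy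
        cases hty : tr y with
        | false =>
          refine ⟨f, h1, h2, fun x hx htx => ?_⟩
          rcases Nat.lt_succ_iff_lt_or_eq.1 hx with h4 | h4
          · exact h3 x h4 htx
          · have : x = y := Fin.ext h4
            rw [this, hty] at htx
            exact absurd htx (by simp)
        | true =>
          have hev : ∀ w : W (Fin n), σ (ev f w) = ev g w := fun w => by
            rw [ev_hom]; congr 1; funext x; exact h1 x
          have hy1 : ev g (uw y) * g (par y) * (ev g (uw y))⁻¹ = g y := (ev_tword g).1 (ht y hty)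
          set v := ev f (uw y) * f (par y) * (ev f (uw y))⁻¹ with hv
          have hσv : σ v = g y := by
            rw [hv, map_mul, map_mul, map_inv, hev, h1, hy1]
          let f' : Fin n → Γ := Function.update f y v
          have hf'y : f' y = v := Function.update_self _ _ _
          have hf'n : ∀ x, x ≠ y → f' x = f x := fun x hx => Function.update_of_ne hx _ _
          have h1' : ∀ x, σ (f' x) = g x := by
            intro x
            by_cases hx : x = y
            · rw [hx, hf'y, hσv]
            · rw [hf'n x hx, h1]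
          have hev' : ∀ w : W (Fin n), σ (ev f' w) = ev g w := fun w => by
            rw [ev_hom]; congr 1; funext x; exact h1' x
          refine ⟨f', h1', ?_, ?_⟩
          · intro x hx
            rw [hf'n x (fun h => by rw [h, hty] at hx; exact absurd hx (by simp)), h2 x hx]
          · intro x hx htx
            rw [ev_tword]
            have hpx : (par x).val < x.val := hpar x htx
            have hpy : par x ≠ y := fun h => by
              have : (par x).val = k := by rw [h]
              omega
            rw [hf'n _ hpy, conj_same hc (x := ev f' (uw x)) (y := ev f (uw x)) (by rw [hev, hev'])]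
            rcases Nat.lt_succ_iff_lt_or_eq.1 hx with h4 | h4
            · rw [hf'n x (fun h => by rw [h] at h4; exact lt_irrefl _ h4)]
              exact (ev_tword f).1 (h3 x h4 htx)
            · have hxy : x = y := Fin.ext h4
              rw [hxy, hf'y]
      · refine ⟨f, h1, h2, fun x _ htx => h3 x (by omega) htx⟩
  obtain ⟨f, h1, h2, h3⟩ := key n
  exact ⟨f, h1, h2, fun x hx => h3 x x.2 hx⟩

/-- along a tree all squares are equal -/
theorem tree_sq {n : ℕ} (hc : σ.ker ≤ center Γ) {tr : Fin n → Bool} {par : Fin n → Fin n}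
    {uw : Fin n → W (Fin n)} (hpar : ∀ x, tr x = true → par x < x) {f : Fin n → Γ}
    (hf : ∀ x, tr x = true → ev f (tword par uw x) = 1) {iv : Fin n → Bool} {x0 : Fin n}
    (h0 : σ (f x0) * σ (f x0) = 1)
    (hiv : ∀ x, iv x = true → x = x0 ∨ tr x = true ∧ iv (par x) = true) :
    ∀ x, iv x = true → f x * f x = f x0 * f x0 := by
  have hz : f x0 * f x0 ∈ center Γ := hc (by rw [MonoidHom.mem_ker, map_mul, h0])
  have key : ∀ k : ℕ, ∀ x : Fin n, x.val < k → iv x = true → f x * f x = f x0 * f x0 := by
    intro k
    induction k with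
    | zero => exact fun x hx => absurd hx (Nat.not_lt_zero _)
    | succ k ih =>
      intro x hx hix
      rcases hiv x hix with rfl | ⟨h1, h2⟩
      · rfl
      · have h3 := (ev_tword f).1 (hf x h1)
        have h4 : (par x).val < x.val := hpar x h1
        have h5 := ih (par x) (by omega) h2
        rw [← h3]
        have e : ev f (uw x) * f (par x) * (ev f (uw x))⁻¹ * (ev f (uw x) * f (par x) * (ev f (uw x))⁻¹) =
            ev f (uw x) * (f (par x) * f (par x)) * (ev f (uw x))⁻¹ := by group
        rw [e, h5, mem_center_iff.1 hz, mul_inv_cancel_right]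
  exact fun x hx => key n x x.2 hx

end tree

section root

/-- signed number of letters with `iv` -/
def cnt {X : Type} (iv : X → Bool) : W X → ℤ
  | [] => 0
  | (x, b) :: t => (if iv x then (if b then 1 else -1) else 0) + cnt iv t

theorem cnt_append {X : Type} (iv : X → Bool) (u v : W X) : cnt iv (u ++ v) = cnt iv u + cnt iv v := by
  induction u with
  | nil => simp [cnt]
  | cons a u ih =>
    rcases a with ⟨x, b⟩
    rw [List.cons_append, cnt, cnt, ih, add_assoc]

/-- modified letters -/
def twist {X Γ P : Type} [Group Γ] [Group P] (ι : Γ →* P) (s : P) (iv : X → Bool) (f : X → Γ) (x : X) : P :=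
  bif iv x then ι (f x) * s else ι (f x)

theorem ev_twist {X Γ P : Type} [Group Γ] [Group P] {ι : Γ →* P} {s : P} (hs : ∀ y, s * y = y * s) (iv : X → Bool)
    (f : X → Γ) (w : W X) : ev (twist ι s iv f) w = ι (ev f w) * s ^ cnt iv w := by
  induction w with
  | nil => simp [cnt]
  | cons a w ih =>
    rcases a with ⟨x, b⟩
    rw [ev_cons, ih, ev_cons, cnt, map_mul, zpow_add]
    have hs' : ∀ (k : ℤ) (y : P), s ^ k * y = y * s ^ k := fun k y => (Commute.zpow_left (hs y) k).eq
    have h1 : el (twist ι s iv f) (x, b) = ι (el f (x, b)) * s ^ (if iv x then (if b then (1 : ℤ) else -1) else 0) := by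
      cases hi : iv x <;> cases b
      · simp [el, twist, hi]
      · simp [el, twist, hi]
      · simp only [el, twist, hi, cond_false, cond_true, if_true, mul_inv_rev, map_inv, zpow_neg, zpow_one]
        simp only [Bool.false_eq_true, if_false, zpow_neg, zpow_one]
        have := hs' (-1) (ι (f x))⁻¹
        simpa using this
      · simp [el, twist, hi]
    rw [h1]
    set a := s ^ (if iv x then (if b then (1 : ℤ) else -1) else 0)
    have h2 : a * ι (ev f w) = ι (ev f w) * a := hs' _ _
    calc ι (el f (x, b)) * a * (ι (ev f w) * s ^ cnt iv w)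
        = ι (el f (x, b)) * (a * ι (ev f w)) * s ^ cnt iv w := by group
      _ = ι (el f (x, b)) * ι (ev f w) * (a * s ^ cnt iv w) := by rw [h2]; group

/-- the adjoined root and the twisted generators: a finite group `Γ` with generators `f` such that the letters with
`iv` have the same central square -/
theorem exists_twist {Γ G : Type} [Group Γ] [Group G] [Finite Γ] {X : Type} (σ : Γ →* G) (f : X → Γ) (iv : X → Bool) (x0 : X) (hx0 : iv x0 = true)
    (hz : ∀ y, f x0 * f x0 * y = y * (f x0 * f x0)) (hσz : σ (f x0) * σ (f x0) = 1)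
    (hsq : ∀ x, iv x = true → f x * f x = f x0 * f x0)
    (hgen : closure (Set.range f) = ⊤)
    (hodd : commutator Γ = ⊤ ∨ ∃ (w : W X) (k : ℕ), ev f w = 1 ∧ cnt iv w % 2 = 1 ∧ (f x0 * f x0) ^ (2 ^ k) = 1) :
    ∃ (P : Type) (_ : Group P) (_ : Finite P) (π : P →* G) (ι : Γ →* P) (s : P), Nat.card P = 2 * Nat.card Γ ∧
      Function.Injective ι ∧ (∀ y, s * y = y * s) ∧ s * s = (ι (f x0 * f x0))⁻¹ ∧ (∀ x, π (ι x) = σ x) ∧ π s = 1 ∧
      (∀ y : P, ∃ (x : Γ) (k : ℕ), y = ι x * s ^ k) ∧
      (∀ x, iv x = true → twist ι s iv f x * twist ι s iv f x = 1) ∧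
      closure (Set.range (twist ι s iv f)) = ⊤ := by
  obtain ⟨P, gP, fP, ι, s, hinj, hsc, hss, hcard, hspan, hext⟩ := exists_root (f x0 * f x0) hz
  obtain ⟨π, hπ, hπs⟩ := hext G σ (by rw [map_mul, hσz])
  refine ⟨P, gP, fP, π, ι, s, hcard, hinj, hsc, hss, hπ, hπs, hspan, ?_, ?_⟩
  · intro x hx
    have h1 : twist ι s iv f x = ι (f x) * s := by simp [twist, hx]
    rw [h1]
    calc ι (f x) * s * (ι (f x) * s) = ι (f x) * (s * ι (f x)) * s := by group
      _ = ι (f x) * ι (f x) * (s * s) := by rw [hsc]; group
      _ = 1 := by rw [← map_mul, hsq x hx, hss, mul_inv_cancel]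
  · set K := closure (Set.range (twist ι s iv f)) with hK
    have hm : ∀ x, twist ι s iv f x ∈ K := fun x => subset_closure ⟨x, rfl⟩
    have hw : ∀ w : W X, ev (twist ι s iv f) w ∈ K := by
      intro w
      induction w with
      | nil => exact one_mem _
      | cons a w ih =>
        rw [ev_cons]
        refine K.mul_mem ?_ ih
        rcases a with ⟨x, b⟩
        cases b
        · exact K.inv_mem (hm x)
        · exact hm x
    have hs' : ∀ (k : ℤ) (y : P), s ^ k * y = y * s ^ k := fun k y => (Commute.zpow_left (hsc y) k).eq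
    -- every element of `Γ` times some power of `s` is in `K`
    have hall : ∀ x : Γ, ∃ k : ℤ, ι x * s ^ k ∈ K := by
      have h1 : ∀ x ∈ closure (Set.range f), ∃ k : ℤ, ι x * s ^ k ∈ K := by
        intro x hx
        induction hx using Subgroup.closure_induction with
        | mem x hx =>
          obtain ⟨y, rfl⟩ := hx
          refine ⟨if iv y then 1 else 0, ?_⟩
          have := hm y
          cases hi : iv y
          · simpa [twist, hi] using this
          · simpa [twist, hi] using this
        | one => exact ⟨0, by simpa using K.one_mem⟩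
        | mul x y _ _ hx hy =>
          obtain ⟨a, ha⟩ := hx
          obtain ⟨b, hb⟩ := hy
          refine ⟨a + b, ?_⟩
          have e : ι (x * y) * s ^ (a + b) = (ι x * s ^ a) * (ι y * s ^ b) := by
            rw [map_mul, zpow_add]
            calc ι x * ι y * (s ^ a * s ^ b) = ι x * (ι y * s ^ a) * s ^ b := by group
              _ = ι x * (s ^ a * ι y) * s ^ b := by rw [hs']
              _ = _ := by group
          rw [e]
          exact K.mul_mem ha hb
        | inv x _ hx =>
          obtain ⟨a, ha⟩ := hx
          refine ⟨-a, ?_⟩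
          have e : ι x⁻¹ * s ^ (-a) = (ι x * s ^ a)⁻¹ := by
            rw [mul_inv_rev, map_inv, zpow_neg]
            have := hs' (-a) (ι x)⁻¹
            rw [zpow_neg] at this
            exact this.symm
          rw [e]
          exact K.inv_mem ha
      intro x
      exact h1 x (by rw [hgen]; trivial)
    have hsK : s ∈ K := by
      rcases hodd with hc | ⟨w, k0, hw1, hw2, hw3⟩
      · -- `ι Γ ≤ K`
        have h2 : ∀ x : Γ, ι x ∈ K := by
          have h3 : (commutator Γ).map ι ≤ K := by
            rw [commutator_def, Subgroup.map_commutator, Subgroup.commutator_le]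
            rintro _ ⟨x, _, rfl⟩ _ ⟨y, _, rfl⟩
            obtain ⟨a, ha⟩ := hall x
            obtain ⟨b, hb⟩ := hall y
            have h4 : ⁅ι x * s ^ a, ι y * s ^ b⁆ ∈ K := by
              rw [commutatorElement_def]
              exact K.mul_mem (K.mul_mem (K.mul_mem ha hb) (K.inv_mem ha)) (K.inv_mem hb)
            have h5 : ⁅ι x * s ^ a, ι y * s ^ b⁆ = ⁅ι x, ι y⁆ := by
              rw [commutatorElement_def, commutatorElement_def]
              have e1 : ι x * s ^ a * (ι y * s ^ b) = ι x * ι y * (s ^ a * s ^ b) := by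
                calc _ = ι x * (s ^ a * ι y) * s ^ b := by group
                  _ = _ := by rw [hs']; group
              have e2 : ι y * s ^ b * (ι x * s ^ a) = ι y * ι x * (s ^ a * s ^ b) := by
                calc _ = ι y * (s ^ b * ι x) * s ^ a := by group
                  _ = ι y * ι x * (s ^ b * s ^ a) := by rw [hs']; group
                  _ = _ := by rw [hs' b (s ^ a)]
              calc ι x * s ^ a * (ι y * s ^ b) * (ι x * s ^ a)⁻¹ * (ι y * s ^ b)⁻¹
                  = (ι x * s ^ a * (ι y * s ^ b)) * (ι y * s ^ b * (ι x * s ^ a))⁻¹ := by group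
                _ = (ι x * ι y * (s ^ a * s ^ b)) * (ι y * ι x * (s ^ a * s ^ b))⁻¹ := by rw [e1, e2]
                _ = _ := by group
            rw [← h5]
            exact h4
          intro x
          exact h3 ⟨x, by rw [hc]; trivial, rfl⟩
        have h3 : ι (f x0) * s ∈ K := by
          have := hm x0
          simpa [twist, hx0] using this
        have h4 := K.mul_mem (K.inv_mem (h2 (f x0))) h3
        rwa [inv_mul_cancel_left] at h4
      · have h2 := hw w
        rw [ev_twist hsc, hw1, map_one, one_mul] at h2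
        have h3 : s ^ (2 ^ (k0 + 1)) = 1 := by
          rw [pow_succ', pow_mul, pow_two, hss, inv_pow, ← map_pow, hw3, map_one, inv_one]
        have h4 : orderOf s ∣ 2 ^ (k0 + 1) := orderOf_dvd_of_pow_eq_one h3
        have h5 : IsCoprime (cnt iv w) ((2 : ℤ) ^ (k0 + 1)) := by
          refine IsCoprime.pow_right ⟨1, -(cnt iv w / 2), ?_⟩
          omega
        obtain ⟨a, b, hab⟩ := h5
        have h6 : s = (s ^ cnt iv w) ^ a := by
          have h7 : s ^ (a * cnt iv w + b * (2 : ℤ) ^ (k0 + 1)) = s := by rw [hab, zpow_one]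
          rw [zpow_add, zpow_mul', zpow_mul'] at h7
          have h8 : s ^ ((2 : ℤ) ^ (k0 + 1)) = 1 := by exact_mod_cast h3
          rw [h8, one_zpow, mul_one] at h7
          exact h7.symm
        rw [h6]
        exact K.zpow_mem h2 a
    rw [eq_top_iff]
    intro y _
    obtain ⟨x, k, rfl⟩ := hspan y
    obtain ⟨a, ha⟩ := hall x
    have h1 : ι x * s ^ k = (ι x * s ^ a) * s ^ ((k : ℤ) - a) := by
      rw [mul_assoc, ← zpow_add, add_sub_cancel, zpow_natCast]
    rw [h1]
    exact K.mul_mem ha (K.zpow_mem hsK _)

end root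

end H34.MK
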