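import Mathlib
import Cfsg.Agent.Lib.H34.MCov

/-!
# Existence of covers with a four-group as kernel
-/

set_option autoImplicit false
set_option maxHeartbeats 400000

namespace H34.MK

open Subgroup H35.Stem H35.TC H35.Net
open scoped commutatorElement

theorem pow_val_add {H : Type*} [Group H] {z : H} (hz : z * z = 1) (a b : ZMod 2) :
    z ^ (a + b).val = z ^ a.val * z ^ b.val := by
  have h : ∀ a : ZMod 2, a = 0 ∨ a = 1 := by decide
  have e1 : (1 + 1 : ZMod 2) = 0 := by decide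
  have e2 : (1 : ZMod 2).val = 1 := rfl
  have e3 : (0 : ZMod 2).val = 0 := rfl
  rcases h a with rfl | rfl <;> rcases h b with rfl | rfl
  · rw [add_zero, e3, pow_zero, one_mul]
  · rw [zero_add, e3, pow_zero, one_mul]
  · rw [add_zero, e3, pow_zero, mul_one]
  · rw [e1, e3, e2, pow_zero, pow_one, hz]

/-- four-group from two commuting involutions -/
def psi2 {H : Type*} [Group H] {z t : H} (hz : z * z = 1) (ht : t * t = 1) (hzt : z * t = t * z) :
    Multiplicative (ZMod 2 × ZMod 2) →* H where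
  toFun a := z ^ (Multiplicative.toAdd a).1.val * t ^ (Multiplicative.toAdd a).2.val
  map_one' := by
    change z ^ (0 : ZMod 2).val * t ^ (0 : ZMod 2).val = 1
    rw [show (0 : ZMod 2).val = 0 from rfl, pow_zero, pow_zero, one_mul]
  map_mul' a b := by
    change z ^ ((Multiplicative.toAdd a).1 + (Multiplicative.toAdd b).1).val *
      t ^ ((Multiplicative.toAdd a).2 + (Multiplicative.toAdd b).2).val = _
    rw [pow_val_add hz, pow_val_add ht]
    have h : Commute (z ^ (Multiplicative.toAdd b).1.val) (t ^ (Multiplicative.toAdd a).2.val) :=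
      Commute.pow_pow hzt _ _
    rw [mul_assoc, ← mul_assoc (z ^ (Multiplicative.toAdd b).1.val), h.eq, mul_assoc, ← mul_assoc]

theorem psi2_inj {H : Type*} [Group H] {z t : H} (hz : z * z = 1) (ht : t * t = 1) (hzt : z * t = t * z)
    (n1 : z ≠ 1) (n2 : t ≠ 1) (n3 : z ≠ t) : Function.Injective (psi2 hz ht hzt) := by
  rw [injective_iff_map_eq_one]
  intro a ha
  have h0 : ∀ a : ZMod 2, a = 0 ∨ a = 1 := by decide
  have e2 : (1 : ZMod 2).val = 1 := rfl
  have e3 : (0 : ZMod 2).val = 0 := rfl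
  revert ha
  obtain ⟨⟨b1, b2⟩, rfl⟩ : ∃ b : ZMod 2 × ZMod 2, Multiplicative.ofAdd b = a := ⟨Multiplicative.toAdd a, rfl⟩
  intro ha
  change z ^ b1.val * t ^ b2.val = 1 at ha
  rcases h0 b1 with rfl | rfl <;> rcases h0 b2 with rfl | rfl
  · rfl
  · rw [e3, e2, pow_zero, pow_one, one_mul] at ha
    exact absurd ha n2
  · rw [e3, e2, pow_zero, pow_one, mul_one] at ha
    exact absurd ha n1
  · rw [e2, pow_one, pow_one] at ha
    exfalso
    apply n3
    rw [mul_eq_one_iff_eq_inv] at ha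
    rw [ha]
    exact inv_eq_of_mul_eq_one_left ht

section cover

variable {X P G : Type} [Group P] [Group G]

/-- **existence of a cover with a four-group as kernel** -/
theorem exists_cover_klein [Finite P] [Finite G] {p : X → P} {g : X → G} (hgen : closure (Set.range g) = ⊤)
    (u v u' v' : W X) (h1 : ev g (cmw u v) = 1) (h2 : ev g (cmw u' v') = 1)
    (s1 : ev p (cmw u v) * ev p (cmw u v) = 1) (s2 : ev p (cmw u' v') * ev p (cmw u' v') = 1)
    (n1 : ev p (cmw u v) ≠ 1) (n2 : ev p (cmw u' v') ≠ 1) (n3 : ev p (cmw u v) ≠ ev p (cmw u' v'))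
    (hc1 : ∀ x, p x * ev p (cmw u v) = ev p (cmw u v) * p x) (hc2 : ∀ x, p x * ev p (cmw u' v') = ev p (cmw u' v') * p x)
    (hb : Nat.card (EP p g) ≤ 4 * Nat.card G) :
    ∃ (Γ : Type) (_ : Group Γ) (_ : Finite Γ) (σ : Γ →* G), Cfsg.IsStemExtension σ ∧
      Nonempty (σ.ker ≃* Multiplicative (ZMod 2 × ZMod 2)) := by
  obtain ⟨z, hz⟩ : ∃ z, z = ev p (cmw u v) := ⟨_, rfl⟩
  obtain ⟨t, ht⟩ : ∃ t, t = ev p (cmw u' v') := ⟨_, rfl⟩
  rw [← hz] at s1 n1 n3 hc1
  rw [← ht] at s2 n2 n3 hc2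
  have hcw : ∀ w : W X, z * ev p w = ev p w * z := by
    intro w
    induction w with
    | nil => rw [ev_nil, mul_one, one_mul]
    | cons a w ih =>
      rcases a with ⟨x, b⟩
      rw [ev_cons]
      have h3 : z * el p (x, b) = el p (x, b) * z := by
        have h4 : Commute z (p x) := (hc1 x).symm
        cases b
        · exact (h4.inv_right).eq
        · exact h4.eq
      rw [← mul_assoc, h3, mul_assoc, ih, mul_assoc]
  have hzt : z * t = t * z := by rw [ht]; exact hcw _
  have S1 : ((z, 1) : P × G) * (z, 1) = 1 := Prod.ext s1 (one_mul _)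
  have S2 : ((t, 1) : P × G) * (t, 1) = 1 := Prod.ext s2 (one_mul _)
  have S3 : ((z, 1) : P × G) * (t, 1) = (t, 1) * (z, 1) := Prod.ext hzt rfl
  have hcard : Nat.card (Multiplicative (ZMod 2 × ZMod 2)) = 4 := by
    rw [Nat.card_congr Multiplicative.toAdd, Nat.card_prod, Nat.card_zmod]
  have hval : ∀ a, psi2 S1 S2 S3 a = (z ^ (Multiplicative.toAdd a).1.val * t ^ (Multiplicative.toAdd a).2.val, 1) := by
    intro a
    change ((z, 1) : P × G) ^ _ * (t, 1) ^ _ = _
    rw [Prod.pow_mk, Prod.pow_mk, one_pow, one_pow, Prod.mk_mul_mk, one_mul]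
  refine exists_cover_gen (p := p) (g := g) hgen (psi2 S1 S2 S3) (psi2_inj S1 S2 S3 ?_ ?_ ?_) ?_ ?_
    {Multiplicative.ofAdd (1, 0), Multiplicative.ofAdd (0, 1)} ?_ ?_ (by rw [hcard]; exact hb)
  · intro h; exact n1 (congrArg Prod.fst h)
  · intro h; exact n2 (congrArg Prod.fst h)
  · intro h; exact n3 (congrArg Prod.fst h)
  · intro a
    rw [hval]
  · intro a x
    rw [hval]
    refine Prod.ext ?_ ?_
    · change z ^ _ * t ^ _ * p x = p x * (z ^ _ * t ^ _)
      have c1 : Commute z (p x) := (hc1 x).symm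
      have c2 : Commute t (p x) := (hc2 x).symm
      exact ((c1.pow_left _).mul_left (c2.pow_left _)).eq
    · change 1 * g x = g x * 1
      rw [one_mul, mul_one]
  · rw [eq_top_iff]
    intro a _
    obtain ⟨⟨b1, b2⟩, rfl⟩ : ∃ b : ZMod 2 × ZMod 2, Multiplicative.ofAdd b = a := ⟨Multiplicative.toAdd a, rfl⟩
    have h0 : ∀ a : ZMod 2, a = 0 ∨ a = 1 := by decide
    have m1 : (Multiplicative.ofAdd ((1, 0) : ZMod 2 × ZMod 2)) ∈ Subgroup.closure ({Multiplicative.ofAdd (1, 0), Multiplicative.ofAdd (0, 1)} : Set (Multiplicative (ZMod 2 × ZMod 2))) :=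
      subset_closure (Set.mem_insert _ _)
    have m2 : (Multiplicative.ofAdd ((0, 1) : ZMod 2 × ZMod 2)) ∈ Subgroup.closure ({Multiplicative.ofAdd (1, 0), Multiplicative.ofAdd (0, 1)} : Set (Multiplicative (ZMod 2 × ZMod 2))) :=
      subset_closure (Set.mem_insert_of_mem _ rfl)
    rcases h0 b1 with rfl | rfl <;> rcases h0 b2 with rfl | rfl
    · exact Subgroup.one_mem _
    · exact m2
    · exact m1
    · exact Subgroup.mul_mem _ m1 m2
  · rintro a (rfl | rfl)
    · refine ⟨u, v, ?_⟩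
      rw [hval, ev_pr, h1, ← hz]
      change (z ^ 1 * t ^ 0, (1 : G)) = _
      rw [pow_one, pow_zero, mul_one]
    · refine ⟨u', v', ?_⟩
      rw [hval, ev_pr, h2, ← ht]
      change (z ^ 0 * t ^ 1, (1 : G)) = _
      rw [pow_one, pow_zero, one_mul]

end cover

end H34.MK
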