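import Mathlib
import Cfsg.Agent.Lib.H34.MPt

/-!
# Pointwise check of words in coded permutations commuting with a four-group of translations
-/

set_option autoImplicit false
set_option maxHeartbeats 400000

namespace H34.MK

open Subgroup H35.Stem H40.PermCode H35.TC

section pt4

variable {X : Type}

/-- the coded permutation commutes with `i ↦ i xor s` -/
noncomputable def chkX (wd mk n K s C : ℕ) : Bool :=
  allB (fun i => Bool.rec (motive := fun _ => Bool)
    (Nat.blt (Nat.xor i s) n && Nat.beq (Nat.land (Nat.shiftRight C (Nat.mul wd (Nat.xor i s))) mk)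
      (Nat.xor (Nat.land (Nat.shiftRight C (Nat.mul wd i)) mk) s)) true (Nat.ble n i)) K 0

/-- points are `4 b xor t` -/
noncomputable def chkD (n K : ℕ) : Bool :=
  allB (fun i => Bool.rec (motive := fun _ => Bool) (Nat.beq (Nat.xor (Nat.mul 4 (Nat.div i 4)) (Nat.mod i 4)) i) true (Nat.ble n i)) K 0

/-- all points `4 b` are fixed -/
noncomputable def chk4 (wd mk m K : ℕ) (l : List ℕ) : Bool :=
  allB (fun b => Bool.rec (motive := fun _ => Bool) (Nat.beq (imp wd mk l (Nat.mul 4 b)) (Nat.mul 4 b)) true (Nat.ble m b)) K 0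

theorem ble_false {n i : ℕ} (h : i < n) : Nat.ble n i = false := by
  rw [← Bool.not_eq_true, Nat.ble_eq]
  omega

theorem chkX_spec {wd mk n K s C : ℕ} (hK : n ≤ 2 ^ K) (h : chkX wd mk n K s C = true) {i : ℕ} (hi : i < n) :
    i ^^^ s < n ∧ (C >>> (wd * (i ^^^ s))) &&& mk = ((C >>> (wd * i)) &&& mk) ^^^ s := by
  have h1 := allB_spec _ _ _ h i (Nat.zero_le _) (by omega)
  rw [ble_false hi] at h1
  have h2 : (Nat.blt (Nat.xor i s) n && Nat.beq (Nat.land (Nat.shiftRight C (Nat.mul wd (Nat.xor i s))) mk)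
      (Nat.xor (Nat.land (Nat.shiftRight C (Nat.mul wd i)) mk) s)) = true := h1
  rw [Bool.and_eq_true] at h2
  exact ⟨by simpa using h2.1, Nat.eq_of_beq_eq_true h2.2⟩

theorem chkD_spec {n K : ℕ} (hK : n ≤ 2 ^ K) (h : chkD n K = true) {i : ℕ} (hi : i < n) : (4 * (i / 4)) ^^^ (i % 4) = i := by
  have h1 := allB_spec _ _ _ h i (Nat.zero_le _) (by omega)
  rw [ble_false hi] at h1
  exact Nat.eq_of_beq_eq_true h1

theorem imp_lt {α : Type} {n wd mk : ℕ} (hmk : mk = 2 ^ wd - 1) {E : Coding α n} {g : X → Equiv.Perm α} {c ci : X → ℕ}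
    (hc : ∀ x, Rep E wd (g x) (c x)) (hci : ∀ x, Rep E wd (g x)⁻¹ (ci x)) (w : W X) {i : ℕ} (hi : i < n) :
    imp wd mk (cw c ci w) i < n := by
  have h2 := imp_eq hmk hc hci w (E.pt i)
  rw [E.idx_pt i hi] at h2
  rw [h2]
  exact E.idx_lt _

theorem imp_xor {α : Type} {n wd mk K s : ℕ} (hmk : mk = 2 ^ wd - 1) {E : Coding α n} {g : X → Equiv.Perm α} {c ci : X → ℕ}
    (hc : ∀ x, Rep E wd (g x) (c x)) (hci : ∀ x, Rep E wd (g x)⁻¹ (ci x)) (hK : n ≤ 2 ^ K)
    (h1 : ∀ x, chkX wd mk n K s (c x) = true) (h2 : ∀ x, chkX wd mk n K s (ci x) = true) (w : W X) {i : ℕ} (hi : i < n) :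
    imp wd mk (cw c ci w) (i ^^^ s) = imp wd mk (cw c ci w) i ^^^ s := by
  induction w with
  | nil => rfl
  | cons a w ih =>
    rcases a with ⟨x, b⟩
    have h0 : cw c ci ((x, b) :: w) = (bif b then c x else ci x) :: cw c ci w := rfl
    rw [h0, imp_cons, imp_cons, ih]
    have h3 := imp_lt hmk hc hci w hi
    cases b
    · exact (chkX_spec hK (h2 x) h3).2
    · exact (chkX_spec hK (h1 x) h3).2

theorem ev_one_of_chk4 {α : Type} {n m wd mk K K' : ℕ} (hmk : mk = 2 ^ wd - 1) {E : Coding α n} {g : X → Equiv.Perm α} {c ci : X → ℕ}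
    (hc : ∀ x, Rep E wd (g x) (c x)) (hci : ∀ x, Rep E wd (g x)⁻¹ (ci x)) (hK : n ≤ 2 ^ K) (hn : n = 4 * m) (hK' : m ≤ 2 ^ K')
    (hD : chkD n K = true)
    (h1 : ∀ x, chkX wd mk n K 1 (c x) = true) (h2 : ∀ x, chkX wd mk n K 1 (ci x) = true)
    (h3 : ∀ x, chkX wd mk n K 2 (c x) = true) (h4 : ∀ x, chkX wd mk n K 2 (ci x) = true) {w : W X}
    (h : chk4 wd mk m K' (cw c ci w) = true) : ev g w = 1 := by
  have e1 : ∀ {i : ℕ}, i < n → imp wd mk (cw c ci w) (i ^^^ 1) = imp wd mk (cw c ci w) i ^^^ 1 := fun hi =>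
    imp_xor hmk hc hci hK h1 h2 w hi
  have e2 : ∀ {i : ℕ}, i < n → imp wd mk (cw c ci w) (i ^^^ 2) = imp wd mk (cw c ci w) i ^^^ 2 := fun hi =>
    imp_xor hmk hc hci hK h3 h4 w hi
  by_cases hX : Nonempty X
  swap
  · cases w with
    | nil => rfl
    | cons a w => exact absurd ⟨a.1⟩ hX
  obtain ⟨x0⟩ := hX
  have key : ∀ i, i < n → imp wd mk (cw c ci w) i = i := by
    intro i hi
    have hb : i / 4 < m := by omega
    have hb4 : 4 * (i / 4) < n := by omega
    have h5 := allB_spec _ _ _ h (i / 4) (Nat.zero_le _) (by omega)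
    rw [ble_false hb] at h5
    have h6 : imp wd mk (cw c ci w) (4 * (i / 4)) = 4 * (i / 4) := Nat.eq_of_beq_eq_true h5
    have hd := chkD_spec hK hD hi
    have hm : i % 4 = 0 ∨ i % 4 = 1 ∨ i % 4 = 2 ∨ i % 4 = 3 := by omega
    rcases hm with hm | hm | hm | hm
    · rw [hm, Nat.xor_zero] at hd
      rw [← hd]
      have : 4 * (4 * (i / 4) / 4) = 4 * (i / 4) := by omega
      rw [h6]
    · rw [hm] at hd
      have h7 := e1 hb4
      rw [h6, hd] at h7
      exact h7
    · rw [hm] at hd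
      have h7 := e2 hb4
      rw [h6, hd] at h7
      exact h7
    · rw [hm, show (3 : ℕ) = 1 ^^^ 2 from rfl, ← Nat.xor_assoc] at hd
      have h7 := e1 hb4
      rw [h6] at h7
      have h8 := e2 (chkX_spec hK (h1 x0) hb4).1
      rw [h7, hd] at h8
      exact h8
  ext1 p
  apply E.idx_injective
  rw [Equiv.Perm.one_apply, ← imp_eq hmk hc hci]
  exact key _ (E.idx_lt p)

end pt4

end H34.MK
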