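import Mathlib
import Cfsg.Agent.Lib.H34.O73Fin
import Cfsg.Agent.Lib.H34.O73Chain
import Cfsg.Agent.Lib.H34.MRule
import Cfsg.Agent.Lib.H17.SmallOrth
import Cfsg.Agent.Lib.H50.OrthEven
import Cfsg.Agent.S0292
import Cfsg.Agent.S0295

/-!
# The group generated by the eight negated reflections: order, perfectness, words, isomorphism with `PΩ₇(3)`
-/

set_option autoImplicit false
set_option maxRecDepth 100000
set_option linter.all false

namespace H34.O73

open H35.TCFi22C (Lt mm extra inv lt)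
open H34.IsoRow H35.TC H35.Net H35.Stem
open scoped commutatorElement

/-- the group -/
abbrev GO : Type := KK

/-- letters -/
def L8 : Fin 8 → Lt := ![.b, .c, .d, .e, .f, .g, .h, .i]

/-- generators -/
def g8 (x : Fin 8) : GO := ⟨TT (L8 x), Subgroup.subset_closure ⟨L8 x, rfl⟩⟩

theorem gen8 : Subgroup.closure (Set.range g8) = ⊤ := by
  have h := Subgroup.closure_closure_coe_preimage (k := Set.range TT)
  rw [← h]
  congr 1
  ext ⟨y, hy⟩
  constructor
  · rintro ⟨x, hx⟩
    exact ⟨L8 x, congrArg Subtype.val hx⟩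
  · rintro ⟨x, hx⟩
    have h8 : ∃ i, L8 i = x := by
      cases x
      · exact ⟨0, rfl⟩
      · exact ⟨1, rfl⟩
      · exact ⟨2, rfl⟩
      · exact ⟨3, rfl⟩
      · exact ⟨4, rfl⟩
      · exact ⟨5, rfl⟩
      · exact ⟨6, rfl⟩
      · exact ⟨7, rfl⟩
    obtain ⟨i, hi⟩ := h8
    refine ⟨i, Subtype.ext ?_⟩
    change TT (L8 i) = y
    rw [hi]
    exact hx

theorem iso_surj : ∃ θ : GO →* Cfsg.POmega (ZMod 3) (Cfsg.quadFormOdd 3 (ZMod 3)), Function.Bijective θ ∧ Nat.card GO = 4585351680 ∧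
    IsSimpleGroup GO := by
  have hP := card_chain (g := gen mm extra) gen_hp gen_he
  rw [gen_top] at hP
  have e : Nat.card (⊤ : Subgroup (PG mm extra)) = Nat.card (PG mm extra) := Nat.card_congr Subgroup.topEquiv.toEquiv
  rw [e] at hP
  have hodd : Odd (Fintype.card (ZMod 3)) := by rw [ZMod.card]; decide
  have hsimp := Cfsg.Agent.S0295.result (F := ZMod 3) hodd 3 le_rfl
  have hcard := Cfsg.Agent.S0292.result (F := ZMod 3) (q := 3) (ZMod.card 3) (by decide) 3 le_rfl
  have h9 : (3 : ℕ) ^ (3 ^ 2) * ∏ i ∈ Finset.range 3, (3 ^ (2 * (i + 1)) - 1) = 2 * 4585351680 := by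
    simp only [Finset.prod_range_succ, Finset.prod_range_zero, one_mul]
    norm_num
  have hcard' : Nat.card (Cfsg.POmega (ZMod 3) (Cfsg.quadFormOdd 3 (ZMod 3))) = 4585351680 := by
    rw [h9] at hcard
    omega
  obtain ⟨Φ, hΦ⟩ := exists_hom (mm := mm) (ex := extra) TT hpT heT
  have hrange : Φ.range = KK := by
    have h1 : (⊤ : Subgroup (PG mm extra)).map Φ = KK := by
      rw [← gen_top, MonoidHom.map_closure, ← Set.range_comp]
      congr 1
      ext y
      constructor
      · rintro ⟨x, rfl⟩; exact ⟨x, (hΦ x).symm⟩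
      · rintro ⟨x, rfl⟩; exact ⟨x, hΦ x⟩
    rw [← h1, ← MonoidHom.range_eq_map]
  have hKK : KK ≤ commutator I := by
    rw [Subgroup.closure_le]
    rintro _ ⟨y, rfl⟩
    exact TT_mem y
  -- the map from `KK`
  let ι : KK →* I := KK.subtype
  have hιr : ι.range = KK := Subgroup.range_subtype KK
  have hcomm : ∀ x, ι x ∈ commutator I := fun x => hKK x.2
  have hsurj := surj_of_normal_image ι hcomm (by
    intro g x
    rw [hιr]
    exact conj_mem g x.2) ⟨⟨TT .b, Subgroup.subset_closure ⟨.b, rfl⟩⟩, ⟨TT .c, Subgroup.subset_closure ⟨.c, rfl⟩⟩, TT_ncomm⟩ hsimp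
  have hPf : Finite (PG mm extra) := Nat.finite_of_card_ne_zero hP.2
  have hKf : Finite Φ.range := Finite.of_surjective _ Φ.rangeRestrict_surjective
  have hc1 : Nat.card Φ.range ≤ 4585351680 := (Nat.card_le_card_of_surjective _ Φ.rangeRestrict_surjective).trans hP.1
  rw [hrange] at hc1
  have hKf' : Finite KK := by rw [← hrange]; exact hKf
  have hc0 : Nat.card KK ≠ 0 := Nat.card_pos.ne'
  have hb := bij_of_surj _ hsurj hc1 hc0 hcard'.ge
  refine ⟨_, hb, ?_, ?_⟩
  · rw [Nat.card_eq_of_bijective _ hb]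
    exact hcard'
  · exact (MulEquiv.isSimpleGroup_congr (MulEquiv.ofBijective _ hb)).2 hsimp

theorem card_GO : Nat.card GO = 4585351680 := iso_surj.choose_spec.2.1
instance : Finite GO := Nat.finite_of_card_ne_zero (by rw [card_GO]; norm_num)

theorem perf_GO : commutator GO = ⊤ := by
  have hs : IsSimpleGroup GO := iso_surj.choose_spec.2.2
  rcases hs.eq_bot_or_eq_top_of_normal (commutator GO) inferInstance with h | h
  · exfalso
    have h1 : ∀ x y : GO, x * y = y * x := by
      intro x y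
      have h2 : ⁅x, y⁆ ∈ commutator GO := Subgroup.commutator_mem_commutator (Subgroup.mem_top _) (Subgroup.mem_top _)
      rw [h, Subgroup.mem_bot, commutatorElement_eq_one_iff_mul_comm] at h2
      exact h2
    exact TT_ncomm (congrArg Subtype.val (h1 (g8 0) (g8 1)))
  · exact h

/-- `PΩ₇` over any field with three elements -/
theorem iso {F : Type*} [Field F] [Fintype F] (hF : Fintype.card F = 3) :
    Nonempty (Cfsg.POmega F (Cfsg.quadFormOdd 3 F) ≃* GO) := by
  have : Fact (Nat.Prime 3) := ⟨Nat.prime_three⟩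
  obtain ⟨σ⟩ := H17.SmallOrth.exists_ringEquiv_zmod (F := F) 3 hF
  obtain ⟨e⟩ := H17.SmallOrth.equiv_isometryGroup σ (Cfsg.quadFormOdd 3 (ZMod 3)) (Cfsg.quadFormOdd 3 F) (by
    intro v
    simp [Cfsg.quadFormOdd])
  have e1 : Cfsg.POmega (ZMod 3) (Cfsg.quadFormOdd 3 (ZMod 3)) ≃* Cfsg.POmega F (Cfsg.quadFormOdd 3 F) :=
    H7.OmegaIso.quotCenterCongr (H50.OrthEven.comE e)
  obtain ⟨θ, hθ, -⟩ := iso_surj
  exact ⟨((MulEquiv.ofBijective θ hθ).trans e1).symm⟩

/-- check of a word on the basis -/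
noncomputable def chkW (w : W (Fin 8)) : Bool :=
  [0, 1, 2, 3, 4, 5, 6].all fun k : Fin 7 => Nat.beq (w.foldr (fun a => PP (L8 a.1)) (B7 k)) (B7 k)

theorem tr8 {w : W (Fin 8)} (h : chkW w = true) : ev g8 w = 1 := by
  apply Subtype.ext
  have h1 : ((ev g8 w : GO) : I) = ((w.map fun a => L8 a.1).map TT).prod := by
    rw [List.map_map]
    have h2 : ((ev g8 w : GO) : I) = ev (fun x => TT (L8 x)) w := ev_hom KK.subtype g8 w
    rw [h2, ev]
    congr 1
    apply List.map_congr_left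
    rintro ⟨x, b⟩ _
    have h3 : (TT (L8 x))⁻¹ = TT (L8 x) := inv_eq_of_mul_eq_one_left (TT_sq _)
    cases b
    · change (TT (L8 x))⁻¹ = TT (L8 x)
      exact h3
    · rfl
  rw [h1]
  change _ = (1 : I)
  apply rel_of_fold
  intro k
  rw [List.foldr_map]
  rw [chkW, List.all_eq_true] at h
  have := h k (by fin_cases k <;> simp)
  exact Nat.eq_of_beq_eq_true this

end H34.O73
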