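import Mathlib
import Cfsg.Agent.Lib.H40.Sieg21
import Cfsg.Agent.Lib.H50.OrthFam
import Cfsg.Agent.Lib.H35.StemKit
import Cfsg.Agent.Lib.H40.StemFibre

/-!
# A stem cover of `PΩ_{2m+1}(q)`, `q` odd, with kernel of even order; products of covers

The first part follows helper40's `Cl.exists_cover` and keeps the order of the central element.
-/
set_option autoImplicit false
set_option linter.all false
set_option maxHeartbeats 1000000

namespace H40.Sieg.Cl

open H7.Hyp H7.Omega QuadraticMap H17.OrthSiegel H50.OrthE CliffordAlgebra H40.Ext H50.OrthModel H50.OrthMat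
open scoped commutatorElement

variable {F : Type*} [Field F] {V : Type*} [AddCommGroup V] [Module F V] {Q : QuadraticForm F V}

section S
variable {Ω : Subgroup (V ≃ₗ[F] V)} (S : Su Q Ω)
include S

theorem exists_neg_one_h34 (hT : HT Q) (h2 : (2 : F) ≠ 0) {u w e f : V} (h : HP4 Q u w e f) :
    ∃ z ∈ commutator (Gam Q Ω), pr Q Ω z = 1 ∧ z ≠ 1 ∧ z * z = 1 := by
  haveI : Invertible (2 : F) := invertibleOfNonzero h2
  have n1 : gn S u f h.h1.qu h.uf * gn S w e h.h1.qw h.we * gn S u f h.h1.qu h.uf ∈ commutator (Gam Q Ω) :=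
    Subgroup.mul_mem _ (Subgroup.mul_mem _ (gn_mem S hT _ h.h2.qw _) (gn_mem S hT _ h.h2.qu _)) (gn_mem S hT _ h.h2.qw _)
  have n2 : gn S u e h.h1.qu h.ue * gn S w f h.h1.qw h.wf * gn S u e h.h1.qu h.ue ∈ commutator (Gam Q Ω) :=
    Subgroup.mul_mem _ (Subgroup.mul_mem _ (gn_mem S hT _ h.h2.qu _) (gn_mem S hT _ h.h2.qw _)) (gn_mem S hT _ h.h2.qu _)
  set n := gn S u f h.h1.qu h.uf * gn S w e h.h1.qw h.we * gn S u f h.h1.qu h.uf with hn
  set n' := gn S u e h.h1.qu h.ue * gn S w f h.h1.qw h.wf * gn S u e h.h1.qu h.ue with hn'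
  have hz : (((n * n * (n' * n') : Gam Q Ω).1.1 : (CliffordAlgebra Q)ˣ) : CliffordAlgebra Q) = -1 := by
    change ((1 - ι Q u * ι Q f) * (1 - ι Q w * ι Q e) * (1 - ι Q u * ι Q f)) *
      ((1 - ι Q u * ι Q f) * (1 - ι Q w * ι Q e) * (1 - ι Q u * ι Q f)) *
      (((1 - ι Q u * ι Q e) * (1 - ι Q w * ι Q f) * (1 - ι Q u * ι Q e)) *
      ((1 - ι Q u * ι Q e) * (1 - ι Q w * ι Q f) * (1 - ι Q u * ι Q e))) = -1
    have a1 := alg_n (un_sq h.h1.qu h.uf) (un_sq h.h1.qw h.we) (rel_PR h).1 (rel_PR h).2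
    have a2 := alg_n (un_sq h.h1.qu h.ue) (un_sq h.h1.qw h.wf) (rel_PR h.swap).1 (rel_PR h.swap).2
    rw [a1.1, a2.1]
    exact alg_z a1.2 (rel_sum h)
  have hp1 : pr Q Ω (n * n * (n' * n')) = 1 := by
    apply om_ext
    intro x
    set z := n * n * (n' * n') with hzdef
    have h3 := z.2 x
    rw [hz] at h3
    have h4 : ι Q ((pr Q Ω z : V ≃ₗ[F] V) x - x) = 0 := by
      change (-1 : CliffordAlgebra Q) * ι Q x = ι Q ((pr Q Ω z : V ≃ₗ[F] V) x) * (-1) at h3
      rw [map_sub, sub_eq_zero]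
      rw [neg_one_mul, mul_neg_one, neg_inj] at h3
      exact h3.symm
    have h5 : (pr Q Ω z : V ≃ₗ[F] V) x - x = 0 := by
      apply S.nd
      intro y
      have h6 := ι_mul_ι_add_swap (Q := Q) ((pr Q Ω z : V ≃ₗ[F] V) x - x) y
      rw [h4, zero_mul, mul_zero, add_zero] at h6
      exact (algebraMap F (CliffordAlgebra Q)).injective (by rw [← h6, map_zero])
    change (pr Q Ω z : V ≃ₗ[F] V) x = x
    exact sub_eq_zero.mp h5
  refine ⟨n * n * (n' * n'), Subgroup.mul_mem _ (Subgroup.mul_mem _ n1 n1) (Subgroup.mul_mem _ n2 n2), hp1, ?_, ?_⟩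
  · intro h3
    rw [h3] at hz
    have h4 : (1 : CliffordAlgebra Q) = -1 := hz
    have h5 : algebraMap F (CliffordAlgebra Q) 2 = 0 := by
      rw [map_ofNat, ← one_add_one_eq_two]
      nth_rewrite 1 [h4]
      simp
    exact h2 ((algebraMap F (CliffordAlgebra Q)).injective (by rw [h5, map_zero]))
  · set z := n * n * (n' * n') with hzdef
    apply Subtype.ext
    apply Prod.ext
    · apply Units.ext
      change ((z.1.1 : (CliffordAlgebra Q)ˣ) : CliffordAlgebra Q) * ((z.1.1 : (CliffordAlgebra Q)ˣ) : CliffordAlgebra Q) = 1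
      rw [hz, neg_mul_neg, one_mul]
    · change z.1.2 * z.1.2 = 1
      have h3 : z.1.2 = 1 := hp1
      rw [h3, one_mul]

end S

theorem cover_of_h34.{u} {Γ G : Type u} [Group Γ] [Group G] [Finite G] (p : Γ →* G) (hs : Function.Surjective p)
    (hc : p.ker ≤ Subgroup.center Γ) (hG : Group.IsPerfect G) {z : Γ} (hz : z ∈ commutator Γ) (hz1 : p z = 1) (hz2 : z ≠ 1)
    (hz3 : z * z = 1) :
    ∃ (E : Type u) (_ : Group E) (_ : Finite E) (π : E →* G), CE π ∧ commutator E = ⊤ ∧ ∃ z ∈ π.ker, z ≠ 1 ∧ z * z = 1 := by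
  have hP := H69.SchurPerfect.perfect_commutator hG p hs hc
  haveI := H69.SchurUniv.finite_commutator p hc
  refine ⟨↥(commutator Γ), inferInstance, inferInstance, p.comp (Subgroup.subtype _), ⟨?_, ?_⟩, hP.commutator_eq_top,
    ⟨z, hz⟩, hz1, ?_, ?_⟩
  · intro g
    obtain ⟨a, ha, ha'⟩ := H69.SchurPerfect.exists_mem_commutator hG p hs g
    exact ⟨⟨a, ha⟩, ha'⟩
  · intro a ha
    rw [Subgroup.mem_center_iff]
    intro b
    apply Subtype.ext
    exact Subgroup.mem_center_iff.mp (hc (show (a : Γ) ∈ p.ker from ha)) _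
  · intro h
    exact hz2 (congrArg Subtype.val h)
  · exact Subtype.ext hz3

theorem exists_cover_h34.{u} {F : Type u} [Field F] [Finite F] {X : Type u} [AddCommGroup X] [Module F X] [FiniteDimensional F X]
    {q₀ : QuadraticForm F X} (hq : ND q₀) (hd : 1 ≤ Module.finrank F X) (h2 : (2 : F) ≠ 0) :
    ∃ (E : Type u) (_ : Group E) (_ : Finite E) (π : E →* Om (hyp (hyp q₀))), CE π ∧ commutator E = ⊤ ∧
      ∃ z ∈ π.ker, z ≠ 1 ∧ z * z = 1 := by
  let S : Su (H3 q₀) (Om (hyp (hyp q₀))) := su hq.hyp.hyp (by rw [hfr, hfr]; omega)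
  haveI : Nontrivial X := Module.finrank_pos_iff.mp (by omega : 0 < Module.finrank F X)
  haveI : Finite (Om (hyp (hyp q₀))) := by
    haveI : Finite X := Module.finite_of_finite F
    haveI : Finite ((F × F × (F × F × (F × F × X))) ≃ₗ[F] (F × F × (F × F × (F × F × X)))) :=
      Finite.of_injective (fun e => (e : _ → _)) DFunLike.coe_injective
    infer_instance
  have hT := ht_three q₀
  -- surjectivity
  have hsurj : Function.Surjective (pr (H3 q₀) (Om (hyp (hyp q₀)))) := by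
    have h1 : Om (hyp (hyp q₀)) ≤ (pr (H3 q₀) (Om (hyp (hyp q₀)))).range.map (Om (hyp (hyp q₀))).subtype := by
      conv_lhs => rw [Om]
      rw [Subgroup.closure_le]
      rintro g (⟨x, rfl⟩ | ⟨x, rfl⟩)
      · refine ⟨_, ⟨gn S (e1 F _) ((topEmb _).j x) (topEmb _).hp.qu ((topEmb _).pu x), rfl⟩, ?_⟩
        rw [pr_gn]
        apply LinearEquiv.ext
        intro v
        change ((sg S (e1 F _) ((topEmb (hyp (hyp q₀))).j x) : Om (hyp (hyp q₀))) :
          (F × F × (F × F × (F × F × X))) ≃ₗ[F] (F × F × (F × F × (F × F × X)))) v = _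
        rw [sg_apply S (topEmb _).hp.qu ((topEmb _).pu x)]
        exact sl_e1 x v
      · refine ⟨_, ⟨gn S (e2 F _) ((topEmb _).j x) (topEmb _).hp.qw ((topEmb _).pw x), rfl⟩, ?_⟩
        rw [pr_gn]
        apply LinearEquiv.ext
        intro v
        change ((sg S (e2 F _) ((topEmb (hyp (hyp q₀))).j x) : Om (hyp (hyp q₀))) :
          (F × F × (F × F × (F × F × X))) ≃ₗ[F] (F × F × (F × F × (F × F × X)))) v = _
        rw [sg_apply S (topEmb _).hp.qw ((topEmb _).pw x)]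
        exact sl_e2 x v
    intro g
    obtain ⟨g', ⟨y, hy⟩, h3⟩ := h1 g.2
    exact ⟨y, by rw [hy]; exact Subtype.ext h3⟩
  have hperf : Group.IsPerfect (Om (hyp (hyp q₀))) := by
    rw [Subgroup.isPerfect_iff]
    exact le_antisymm (Subgroup.commutator_le_self _) (H7.Omega.perfect hq.hyp)
  have hc := ker_pr (H3 q₀) (Om (hyp (hyp q₀)))
  have h4 : HP4 (H3 q₀) (e1 F _) (e2 F _) ((topEmb (hyp (hyp q₀))).j (1, 0, 0)) ((topEmb (hyp (hyp q₀))).j (0, 1, 0)) :=
    ⟨(topEmb _).hp, (topEmb _).inner.hp, (topEmb _).pu _, (topEmb _).pu _, (topEmb _).pw _, (topEmb _).pw _⟩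
  obtain ⟨z, hz, hz1, hz2, hz3⟩ := exists_neg_one_h34 S hT h2 h4
  exact cover_of_h34 _ hsurj hc hperf hz hz1 hz2 hz3

end H40.Sieg.Cl

namespace H34.Spin

open H7.Hyp H7.Omega QuadraticMap H17.OrthSiegel H50.OrthE H40.Ext H50.OrthModel H7.HypStd H7.HypOrd H7.MinusOrd
open H48.QuadStd H7.AnisoPlane H50.OrthMat Cfsg H40.Sieg

universe u

/-- a stem cover with kernel of even order -/
theorem exists_two {F : Type u} [Field F] [Fintype F] (hq : Odd (Fintype.card F)) (k : ℕ) :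
    ∃ (E : Type u) (_ : Group E) (_ : Finite E) (π : E →* Cfsg.POmega F (Cfsg.quadFormOdd (k + 3) F)),
      Cfsg.IsStemExtension π ∧ 2 ∣ Nat.card π.ker := by
  have h2 : (2 : F) ≠ 0 := H7.OmegaIso.two_ne_zero_of_odd hq
  obtain ⟨L⟩ := H50.OrthFam.eq3_odd (F := F) k 1
  have hd : 1 ≤ Module.finrank F (Unit ⊕ (Fin k ⊕ Fin k) → F) := by rw [fr_odd]; omega
  have hnd := nd_odd k h2 (one_ne_zero : (1 : F) ≠ 0)
  have hneg := not_neg_odd hnd hd h2 (by rw [fr_odd]; exact ⟨k, rfl⟩)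
  obtain ⟨E, _, _, π, hπ, hE, z, hz, hz1, hz2⟩ := Cl.exists_cover_h34 hnd hd h2
  obtain ⟨θ, hθ, hk⟩ := exists_quo hnd hd L
  have hc : Subgroup.center (Om (hyp (hyp (qOdd k F 1)))) = ⊥ := by
    rw [eq_bot_iff]
    intro g hg
    rw [Subgroup.mem_bot]
    rcases (cen_iff hnd hd g).mp hg with h | h
    · exact om_ext h
    · exact absurd ⟨g, h⟩ hneg
  have hce : CE (θ.comp π) := ce_comp hπ.surj hπ.cen hE ⟨hθ, by rw [hk]⟩
  have hstem : IsStemExtension (θ.comp π) := ⟨hce.surj, hce.cen, by rw [hE]; exact le_top⟩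
  have hdvd : 2 ∣ Nat.card (θ.comp π).ker := by
    have hzk : z ∈ (θ.comp π).ker := by
      rw [MonoidHom.mem_ker, MonoidHom.comp_apply, (MonoidHom.mem_ker).1 hz, map_one]
    have ho : orderOf (⟨z, hzk⟩ : (θ.comp π).ker) = 2 := by
      have : Fact (Nat.Prime 2) := ⟨Nat.prime_two⟩
      apply orderOf_eq_prime
      · apply Subtype.ext
        change z ^ 2 = 1
        rw [pow_two, hz2]
      · intro h
        exact hz1 (congrArg Subtype.val h)
    rw [← ho]
    exact orderOf_dvd_natCard _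
  have key : ∃ (E : Type u) (_ : Group E) (_ : Finite E) (π : E →* Cfsg.POmega F (qOdd (k + 3) F 1)),
      Cfsg.IsStemExtension π ∧ 2 ∣ Nat.card π.ker := ⟨E, inferInstance, inferInstance, θ.comp π, hstem, hdvd⟩
  rw [coe_qOdd] at key
  exact key

/-- composing with an isomorphism of the quotient -/
theorem stem_comp {E : Type*} {G : Type*} {H : Type*} [Group E] [Group G] [Group H] {π : E →* G} (h : Cfsg.IsStemExtension π)
    (e : G ≃* H) : Cfsg.IsStemExtension (e.toMonoidHom.comp π) ∧ (e.toMonoidHom.comp π).ker = π.ker := by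
  have hk : (e.toMonoidHom.comp π).ker = π.ker := MonoidHom.ker_comp_of_injective _ _ e.injective
  refine ⟨⟨?_, ?_, ?_⟩, hk⟩
  · exact e.surjective.comp h.1
  · rw [hk]; exact h.2.1
  · rw [hk]; exact h.2.2

end H34.Spin
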