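import Mathlib
import Cfsg.Agent.Lib.H34.MulO7a
import Cfsg.Agent.Lib.H34.MulO7b
import Cfsg.Agent.Lib.H34.SpinTwo

/-!
# The multiplier of `PΩ₇(3)`
-/

set_option autoImplicit false
set_option maxHeartbeats 400000

namespace H34.MulO7

open H34.O73 H35.Stem H34.Spin H40.StemFibre

theorem ex6 : ∃ (Γ : Type) (_ : Group Γ) (_ : Finite Γ) (σ : Γ →* GO), Cfsg.IsStemExtension σ ∧
      Nonempty (σ.ker ≃* Multiplicative (ZMod 6)) := by
  obtain ⟨E2, _, _, π2, hπ2, hd⟩ := exists_two (F := ZMod 3) (by rw [ZMod.card]; decide) 0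
  obtain ⟨e⟩ := iso (F := ZMod 3) (ZMod.card 3)
  obtain ⟨h2, hk2⟩ := stem_comp hπ2 e
  rw [← hk2] at hd
  obtain ⟨Γ2, _, _, σ2, hσ2, hc2⟩ := exists_stem_card h2 (p := 2) (k := 1) Nat.prime_two (by rw [pow_one]; exact hd)
  obtain ⟨Γ3, _, _, σ3, hσ3, ⟨e3⟩⟩ := H34.MulO7b.ex3
  have hc3 : Nat.card σ3.ker = 3 := by
    rw [Nat.card_congr e3.toEquiv, Nat.card_congr Multiplicative.toAdd, Nat.card_zmod]
  rw [pow_one] at hc2
  obtain ⟨hst, ⟨f⟩⟩ := isStem_fib hσ2 hσ3 (by rw [hc2, hc3]; decide)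
  refine ⟨_, inferInstance, inferInstance, fibMap σ2 σ3, hst, ⟨f.trans ?_⟩⟩
  have : Fact (Nat.Prime 2) := ⟨Nat.prime_two⟩
  have : Fact (Nat.Prime 3) := ⟨Nat.prime_three⟩
  have c2 : IsCyclic σ2.ker := isCyclic_of_prime_card hc2
  have c3 : IsCyclic σ3.ker := isCyclic_of_prime_card hc3
  have f2 : σ2.ker ≃* Multiplicative (ZMod 2) := mulEquivOfCyclicCardEq (by
    rw [hc2, Nat.card_congr Multiplicative.toAdd, Nat.card_zmod])
  have f3 : σ3.ker ≃* Multiplicative (ZMod 3) := mulEquivOfCyclicCardEq (by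
    rw [hc3, Nat.card_congr Multiplicative.toAdd, Nat.card_zmod])
  have f6 : Multiplicative (ZMod 2 × ZMod 3) ≃* Multiplicative (ZMod 6) :=
    AddEquiv.toMultiplicative (ZMod.chineseRemainder (m := 2) (n := 3) (by decide)).symm.toAddEquiv
  exact (f2.prodCongr f3).trans ((MulEquiv.prodMultiplicative (ZMod 2) (ZMod 3)).symm.trans f6)

theorem mult : Cfsg.HasCyclicSchurMultiplier GO 6 := by
  refine hasCyclic_list (by norm_num) ex6 [(2, 9), (3, 9), (5, 1), (7, 1), (13, 1)] (by decide +kernel)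
    (by rw [card_GO]; norm_num) ?_
  intro a ha
  fin_cases ha
  · exact Or.inr (Or.inr ⟨H34.MulO7a.noExt4, by decide +kernel⟩)
  · exact Or.inr (Or.inr ⟨H34.MulO7b.noExt9, by decide +kernel⟩)
  all_goals exact Or.inr (Or.inl (by rw [card_GO]; norm_num))

end H34.MulO7
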