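import Mathlib
import Cfsg.Agent.Lib.H34.O8Mod
import Cfsg.Agent.Lib.H34.MLev
import Cfsg.Agent.Lib.H34.TCO8A
import Cfsg.Agent.Lib.H34.TCS6A
import Cfsg.Agent.Lib.H34.TCS6B
import Cfsg.Agent.Lib.H34.TCS6C

/-! # The 2-part of the multiplier of `Ω₈⁺(2)` -/
set_option autoImplicit false
set_option maxRecDepth 100000
set_option linter.all false

namespace H34.MulO8
open Subgroup H35.Stem H35.TC H34.MK H34.O8
abbrev X := Fin 8
abbrev g : X → GO := g8
def nn : X → ℕ := fun _ => 2
def iv : X → Bool := fun _ => true
def tr' : X → Bool := fun x => decide (x ≠ 0)
def par : X → X := ![0, 0, 1, 2, 1, 4, 5, 5]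
def uw : X → W X := ![[], [(0, true), (1, true)], [(1, true), (2, true)], [(2, true), (3, true)], [(1, true), (4, true)], [(4, true), (5, true)], [(5, true), (6, true)], [(5, true), (7, true)]]
def Gv : List (W X) := [tword par uw 1, tword par uw 2, tword par uw 3, tword par uw 4, tword par uw 5, tword par uw 6, tword par uw 7]

/-- letters of level A -/
def SA : X → Bool := ![true, true, true, true, true, true, true, true]

/-- lower letters of level A -/
def TA : X → Bool := ![true, true, true, true, true, true, true, false]

def wdA : H34.TCO8A.Lt → W X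
  | .t0 => [(0, true)]
  | .t1 => [(1, true)]
  | .t2 => [(2, true)]
  | .t3 => [(3, true)]
  | .t4 => [(4, true)]
  | .t5 => [(5, true)]
  | .t6 => [(6, true)]
  | .t7 => [(7, true)]
  | .w => [(2, true), (0, true), (2, true), (0, true)]
  | .v => [(0, true), (1, true), (2, true), (3, true), (4, true), (5, true), (6, true), (0, true), (1, true), (2, true), (3, true), (4, true), (5, true), (6, true), (0, true), (1, true), (2, true), (3, true), (4, true), (5, true), (6, true), (0, true), (1, true), (2, true), (3, true), (4, true), (5, true), (6, true), (0, true), (1, true), (2, true), (3, true), (4, true), (5, true), (6, true), (0, true), (1, true), (2, true), (3, true), (4, true), (5, true), (6, true), (0, true), (1, true), (2, true), (3, true), (4, true), (5, true), (6, true), (0, true), (1, true), (2, true), (3, true), (4, true), (5, true), (6, true), (0, true), (1, true), (2, true), (3, true), (4, true), (5, true), (6, true)]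
  | .vi => [(6, true), (5, true), (4, true), (3, true), (2, true), (1, true), (0, true), (6, true), (5, true), (4, true), (3, true), (2, true), (1, true), (0, true), (6, true), (5, true), (4, true), (3, true), (2, true), (1, true), (0, true), (6, true), (5, true), (4, true), (3, true), (2, true), (1, true), (0, true), (6, true), (5, true), (4, true), (3, true), (2, true), (1, true), (0, true), (6, true), (5, true), (4, true), (3, true), (2, true), (1, true), (0, true), (6, true), (5, true), (4, true), (3, true), (2, true), (1, true), (0, true), (6, true), (5, true), (4, true), (3, true), (2, true), (1, true), (0, true), (6, true), (5, true), (4, true), (3, true), (2, true), (1, true), (0, true)]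
  | .u0 => [(1, true), (6, true), (7, true), (1, true), (6, true), (7, true), (6, true), (1, true), (7, true)]
  | .u0i => [(7, true), (1, true), (6, true), (7, true), (6, true), (1, true), (7, true), (6, true), (1, true)]
  | .u1 => [(0, true), (1, true), (0, true), (4, true), (7, true), (0, true), (1, true), (2, true), (0, true), (7, true)]
  | .u1i => [(7, true), (0, true), (2, true), (1, true), (0, true), (7, true), (4, true), (0, true), (1, true), (0, true)]
  | .s => [(1, true), (2, true), (7, true), (2, true), (1, true), (3, true), (7, true), (2, true), (7, true), (3, true)]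

def rulesA : List (RR X) := [
  .given [(0, true), (1, true), (0, true), (1, false), (0, false), (1, false)],
  .given [(1, true), (2, true), (1, true), (2, false), (1, false), (2, false)],
  .given [(2, true), (3, true), (2, true), (3, false), (2, false), (3, false)],
  .given [(1, true), (4, true), (1, true), (4, false), (1, false), (4, false)],
  .given [(4, true), (5, true), (4, true), (5, false), (4, false), (5, false)],
  .given [(5, true), (6, true), (5, true), (6, false), (5, false), (6, false)],
  .given [(5, true), (7, true), (5, true), (7, false), (5, false), (7, false)],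
  .csq [(2, true)] [(0, true)],
  .dih [(1, true), (2, true), (7, true), (2, true), (1, true)] [(3, true), (7, true), (2, true), (7, true), (3, true)] 1,
  .cc [(3, true), (2, true)] [(0, true)] [(3, true)] [(0, true)] [(2, true)],
  .cc [(3, true), (2, true), (1, true), (4, true), (5, true), (0, true), (1, true), (4, true), (2, true), (3, true), (1, true), (2, true), (0, true), (1, true), (4, true), (5, true)] [(4, true)] [(0, true)] [(0, true)] [(2, true)],
  .cc [(3, true), (2, true), (1, true), (4, true), (5, true), (0, true), (1, true), (4, true), (2, true), (3, true), (1, true), (2, true), (0, true), (1, true)] [(5, true)] [(0, true)] [(0, true)] [(2, true)],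
  .cc [(3, true), (2, true), (1, true), (4, true), (5, true), (6, true), (0, true), (1, true), (4, true), (5, true), (2, true), (3, true), (1, true), (2, true), (0, true), (1, true)] [(6, true)] [(0, true)] [(0, true)] [(2, true)],
  .cc [(3, true), (2, true), (1, true), (0, true)] [(1, true)] [(3, true)] [(0, true)] [(2, true)],
  .cc [(3, true), (2, true), (1, true), (4, true), (5, true), (0, true), (1, true), (4, true), (2, true), (3, true), (1, true), (2, true)] [(5, true)] [(1, true)] [(0, true)] [(2, true)],
  .cc [(3, true), (2, true), (1, true), (4, true), (5, true), (6, true), (0, true), (1, true), (4, true), (5, true), (2, true), (3, true), (1, true), (2, true)] [(6, true)] [(1, true)] [(0, true)] [(2, true)],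
  .cc [(3, true), (2, true), (1, true), (4, true), (0, true), (1, true), (2, true), (3, true)] [(4, true)] [(2, true)] [(0, true)] [(2, true)],
  .cc [(3, true), (2, true), (1, true), (4, true), (5, true), (0, true), (1, true), (4, true), (2, true), (3, true)] [(5, true)] [(2, true)] [(0, true)] [(2, true)],
  .cc [(3, true), (2, true), (1, true), (4, true), (5, true), (6, true), (0, true), (1, true), (4, true), (5, true), (2, true), (3, true)] [(6, true)] [(2, true)] [(0, true)] [(2, true)],
  .cc [(3, true), (2, true), (1, true), (4, true), (0, true), (1, true)] [(4, true)] [(3, true)] [(0, true)] [(2, true)],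
  .cc [(3, true), (2, true), (1, true), (4, true), (5, true), (0, true), (1, true), (4, true)] [(5, true)] [(3, true)] [(0, true)] [(2, true)],
  .cc [(3, true), (2, true), (1, true), (4, true), (5, true), (6, true), (0, true), (1, true), (4, true), (5, true)] [(6, true)] [(3, true)] [(0, true)] [(2, true)],
  .cc [(3, true), (2, true), (1, true), (4, true), (5, true), (6, true), (0, true), (1, true), (4, true), (5, true), (2, true), (1, true), (4, true), (3, true), (2, true), (1, true)] [(6, true)] [(4, true)] [(0, true)] [(2, true)]]

def cenA : H34.TCO8A.Lt → Bool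
  | .w => true
  | .v => true
  | .vi => true
  | .u0 => true
  | .u0i => true
  | .u1 => true
  | .u1i => true
  | .s => true
  | _ => false

def CA : CQ X H34.TCO8A.Lt where
  iv := iv
  wd := wdA
  cen := cenA
  exact := rulesA.map fun r => nred iv (r.word 16 nn)

theorem lvA {P' : Type} [Group P'] [Finite P'] {f : X → P'} (hh : CA.Holds f) :
    Nat.card (Kl f SA) ≤ 240 * Nat.card (Kl f TA) := by
  obtain ⟨hinv, hrel⟩ := CQ.relOK hh (inv := H34.TCO8A.inv) (mm := H34.TCO8A.mm) (ex := H34.TCO8A.extra) (by intro x; cases x <;> decide +kernel)
    (by intro x y; cases x <;> cases y <;> decide +kernel) (by decide +kernel)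
  exact level (subs := H34.TCO8A.subs) (fun H hH => H34.TCO8A.main hinv hrel.1 hrel.2 hH) (by decide +kernel) (by
    intro x hx
    fin_cases x
    · exact ⟨.t0, rfl⟩
    · exact ⟨.t1, rfl⟩
    · exact ⟨.t2, rfl⟩
    · exact ⟨.t3, rfl⟩
    · exact ⟨.t4, rfl⟩
    · exact ⟨.t5, rfl⟩
    · exact ⟨.t6, rfl⟩
    · exact ⟨.t7, rfl⟩)

theorem htA : ∀ r ∈ rulesA, ∀ w ∈ r.needs, ev g w = 1 := by
  have h : ((rulesA.flatMap RR.needs).all fun w => chkW w) = true := by decide +kernel
  intro r hr w hw
  exact tr8 (List.all_eq_true.1 h w (List.mem_flatMap.2 ⟨r, hr, hw⟩))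
theorem hcA : ∀ z, CA.cen z = true → ev g (CA.wd z) = 1 := by
  intro z hz
  refine tr8 ?_
  cases z <;> first | (exact absurd hz (by decide)) | decide +kernel

/-- letters of level B -/
def SB : X → Bool := ![true, true, true, true, true, true, true, false]

/-- lower letters of level B -/
def TB : X → Bool := ![true, true, true, true, true, true, false, false]

def wdB : H34.TCS6A.Lt → W X
  | .t0 => [(0, true)]
  | .t1 => [(1, true)]
  | .t2 => [(2, true)]
  | .t3 => [(3, true)]
  | .t4 => [(4, true)]
  | .t5 => [(5, true)]
  | .t6 => [(6, true)]
  | .w => [(2, true), (0, true), (2, true), (0, true)]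
  | .v => [(0, true), (1, true), (2, true), (3, true), (4, true), (5, true), (6, true), (0, true), (1, true), (2, true), (3, true), (4, true), (5, true), (6, true), (0, true), (1, true), (2, true), (3, true), (4, true), (5, true), (6, true), (0, true), (1, true), (2, true), (3, true), (4, true), (5, true), (6, true), (0, true), (1, true), (2, true), (3, true), (4, true), (5, true), (6, true), (0, true), (1, true), (2, true), (3, true), (4, true), (5, true), (6, true), (0, true), (1, true), (2, true), (3, true), (4, true), (5, true), (6, true), (0, true), (1, true), (2, true), (3, true), (4, true), (5, true), (6, true), (0, true), (1, true), (2, true), (3, true), (4, true), (5, true), (6, true)]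
  | .vi => [(6, true), (5, true), (4, true), (3, true), (2, true), (1, true), (0, true), (6, true), (5, true), (4, true), (3, true), (2, true), (1, true), (0, true), (6, true), (5, true), (4, true), (3, true), (2, true), (1, true), (0, true), (6, true), (5, true), (4, true), (3, true), (2, true), (1, true), (0, true), (6, true), (5, true), (4, true), (3, true), (2, true), (1, true), (0, true), (6, true), (5, true), (4, true), (3, true), (2, true), (1, true), (0, true), (6, true), (5, true), (4, true), (3, true), (2, true), (1, true), (0, true), (6, true), (5, true), (4, true), (3, true), (2, true), (1, true), (0, true), (6, true), (5, true), (4, true), (3, true), (2, true), (1, true), (0, true)]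

def rulesB : List (RR X) := [
  .given [(0, true), (1, true), (0, true), (1, false), (0, false), (1, false)],
  .given [(1, true), (2, true), (1, true), (2, false), (1, false), (2, false)],
  .given [(2, true), (3, true), (2, true), (3, false), (2, false), (3, false)],
  .given [(1, true), (4, true), (1, true), (4, false), (1, false), (4, false)],
  .given [(4, true), (5, true), (4, true), (5, false), (4, false), (5, false)],
  .given [(5, true), (6, true), (5, true), (6, false), (5, false), (6, false)],
  .csq [(2, true)] [(0, true)],
  .cc [(3, true), (2, true)] [(0, true)] [(3, true)] [(0, true)] [(2, true)],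
  .cc [(3, true), (2, true), (1, true), (4, true), (5, true), (0, true), (1, true), (4, true), (2, true), (3, true), (1, true), (2, true), (0, true), (1, true), (4, true), (5, true)] [(4, true)] [(0, true)] [(0, true)] [(2, true)],
  .cc [(3, true), (2, true), (1, true), (4, true), (5, true), (0, true), (1, true), (4, true), (2, true), (3, true), (1, true), (2, true), (0, true), (1, true)] [(5, true)] [(0, true)] [(0, true)] [(2, true)],
  .cc [(3, true), (2, true), (1, true), (4, true), (5, true), (6, true), (0, true), (1, true), (4, true), (5, true), (2, true), (3, true), (1, true), (2, true), (0, true), (1, true)] [(6, true)] [(0, true)] [(0, true)] [(2, true)],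
  .cc [(3, true), (2, true), (1, true), (0, true)] [(1, true)] [(3, true)] [(0, true)] [(2, true)],
  .cc [(3, true), (2, true), (1, true), (4, true), (5, true), (0, true), (1, true), (4, true), (2, true), (3, true), (1, true), (2, true)] [(5, true)] [(1, true)] [(0, true)] [(2, true)],
  .cc [(3, true), (2, true), (1, true), (4, true), (5, true), (6, true), (0, true), (1, true), (4, true), (5, true), (2, true), (3, true), (1, true), (2, true)] [(6, true)] [(1, true)] [(0, true)] [(2, true)],
  .cc [(3, true), (2, true), (1, true), (4, true), (0, true), (1, true), (2, true), (3, true)] [(4, true)] [(2, true)] [(0, true)] [(2, true)],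
  .cc [(3, true), (2, true), (1, true), (4, true), (5, true), (0, true), (1, true), (4, true), (2, true), (3, true)] [(5, true)] [(2, true)] [(0, true)] [(2, true)],
  .cc [(3, true), (2, true), (1, true), (4, true), (5, true), (6, true), (0, true), (1, true), (4, true), (5, true), (2, true), (3, true)] [(6, true)] [(2, true)] [(0, true)] [(2, true)],
  .cc [(3, true), (2, true), (1, true), (4, true), (0, true), (1, true)] [(4, true)] [(3, true)] [(0, true)] [(2, true)],
  .cc [(3, true), (2, true), (1, true), (4, true), (5, true), (0, true), (1, true), (4, true)] [(5, true)] [(3, true)] [(0, true)] [(2, true)],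
  .cc [(3, true), (2, true), (1, true), (4, true), (5, true), (6, true), (0, true), (1, true), (4, true), (5, true)] [(6, true)] [(3, true)] [(0, true)] [(2, true)],
  .cc [(3, true), (2, true), (1, true), (4, true), (5, true), (6, true), (0, true), (1, true), (4, true), (5, true), (2, true), (1, true), (4, true), (3, true), (2, true), (1, true)] [(6, true)] [(4, true)] [(0, true)] [(2, true)]]

def cenB : H34.TCS6A.Lt → Bool
  | .w => true
  | .v => true
  | .vi => true
  | _ => false

def CB : CQ X H34.TCS6A.Lt where
  iv := iv
  wd := wdB
  cen := cenB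
  exact := rulesB.map fun r => nred iv (r.word 16 nn)

theorem lvB {P' : Type} [Group P'] [Finite P'] {f : X → P'} (hh : CB.Holds f) :
    Nat.card (Kl f SB) ≤ 56 * Nat.card (Kl f TB) := by
  obtain ⟨hinv, hrel⟩ := CQ.relOK hh (inv := H34.TCS6A.inv) (mm := H34.TCS6A.mm) (ex := H34.TCS6A.extra) (by intro x; cases x <;> decide +kernel)
    (by intro x y; cases x <;> cases y <;> decide +kernel) (by decide +kernel)
  exact level (subs := H34.TCS6A.subs) (fun H hH => H34.TCS6A.main hinv hrel.1 hrel.2 hH) (by decide +kernel) (by
    intro x hx
    fin_cases x
    · exact ⟨.t0, rfl⟩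
    · exact ⟨.t1, rfl⟩
    · exact ⟨.t2, rfl⟩
    · exact ⟨.t3, rfl⟩
    · exact ⟨.t4, rfl⟩
    · exact ⟨.t5, rfl⟩
    · exact ⟨.t6, rfl⟩
    · exact absurd hx (by decide))

theorem htB : ∀ r ∈ rulesB, ∀ w ∈ r.needs, ev g w = 1 := by
  have h : ((rulesB.flatMap RR.needs).all fun w => chkW w) = true := by decide +kernel
  intro r hr w hw
  exact tr8 (List.all_eq_true.1 h w (List.mem_flatMap.2 ⟨r, hr, hw⟩))
theorem hcB : ∀ z, CB.cen z = true → ev g (CB.wd z) = 1 := by
  intro z hz
  refine tr8 ?_
  cases z <;> first | (exact absurd hz (by decide)) | decide +kernel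

/-- letters of level C -/
def SC : X → Bool := ![true, true, true, true, true, true, false, false]

/-- lower letters of level C -/
def TC : X → Bool := ![true, true, true, true, true, false, false, false]

def wdC : H34.TCS6B.Lt → W X
  | .t0 => [(0, true)]
  | .t1 => [(1, true)]
  | .t2 => [(2, true)]
  | .t3 => [(3, true)]
  | .t4 => [(4, true)]
  | .t5 => [(5, true)]
  | .w => [(2, true), (0, true), (2, true), (0, true)]

def rulesC : List (RR X) := [
  .given [(0, true), (1, true), (0, true), (1, false), (0, false), (1, false)],
  .given [(1, true), (2, true), (1, true), (2, false), (1, false), (2, false)],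
  .given [(2, true), (3, true), (2, true), (3, false), (2, false), (3, false)],
  .given [(1, true), (4, true), (1, true), (4, false), (1, false), (4, false)],
  .given [(4, true), (5, true), (4, true), (5, false), (4, false), (5, false)],
  .csq [(2, true)] [(0, true)],
  .cc [(3, true), (2, true)] [(0, true)] [(3, true)] [(0, true)] [(2, true)],
  .cc [(3, true), (2, true), (1, true), (4, true), (5, true), (0, true), (1, true), (4, true), (2, true), (3, true), (1, true), (2, true), (0, true), (1, true), (4, true), (5, true)] [(4, true)] [(0, true)] [(0, true)] [(2, true)],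
  .cc [(3, true), (2, true), (1, true), (4, true), (5, true), (0, true), (1, true), (4, true), (2, true), (3, true), (1, true), (2, true), (0, true), (1, true)] [(5, true)] [(0, true)] [(0, true)] [(2, true)],
  .cc [(3, true), (2, true), (1, true), (0, true)] [(1, true)] [(3, true)] [(0, true)] [(2, true)],
  .cc [(3, true), (2, true), (1, true), (4, true), (5, true), (0, true), (1, true), (4, true), (2, true), (3, true), (1, true), (2, true)] [(5, true)] [(1, true)] [(0, true)] [(2, true)],
  .cc [(3, true), (2, true), (1, true), (4, true), (0, true), (1, true), (2, true), (3, true)] [(4, true)] [(2, true)] [(0, true)] [(2, true)],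
  .cc [(3, true), (2, true), (1, true), (4, true), (5, true), (0, true), (1, true), (4, true), (2, true), (3, true)] [(5, true)] [(2, true)] [(0, true)] [(2, true)],
  .cc [(3, true), (2, true), (1, true), (4, true), (0, true), (1, true)] [(4, true)] [(3, true)] [(0, true)] [(2, true)],
  .cc [(3, true), (2, true), (1, true), (4, true), (5, true), (0, true), (1, true), (4, true)] [(5, true)] [(3, true)] [(0, true)] [(2, true)]]

def cenC : H34.TCS6B.Lt → Bool
  | .w => true
  | _ => false

def CC : CQ X H34.TCS6B.Lt where
  iv := iv
  wd := wdC
  cen := cenC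
  exact := rulesC.map fun r => nred iv (r.word 16 nn)

theorem lvC {P' : Type} [Group P'] [Finite P'] {f : X → P'} (hh : CC.Holds f) :
    Nat.card (Kl f SC) ≤ 27 * Nat.card (Kl f TC) := by
  obtain ⟨hinv, hrel⟩ := CQ.relOK hh (inv := H34.TCS6B.inv) (mm := H34.TCS6B.mm) (ex := H34.TCS6B.extra) (by intro x; cases x <;> decide +kernel)
    (by intro x y; cases x <;> cases y <;> decide +kernel) (by decide +kernel)
  exact level (subs := H34.TCS6B.subs) (fun H hH => H34.TCS6B.main hinv hrel.1 hrel.2 hH) (by decide +kernel) (by
    intro x hx
    fin_cases x
    · exact ⟨.t0, rfl⟩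
    · exact ⟨.t1, rfl⟩
    · exact ⟨.t2, rfl⟩
    · exact ⟨.t3, rfl⟩
    · exact ⟨.t4, rfl⟩
    · exact ⟨.t5, rfl⟩
    · exact absurd hx (by decide)
    · exact absurd hx (by decide))

theorem htC : ∀ r ∈ rulesC, ∀ w ∈ r.needs, ev g w = 1 := by
  have h : ((rulesC.flatMap RR.needs).all fun w => chkW w) = true := by decide +kernel
  intro r hr w hw
  exact tr8 (List.all_eq_true.1 h w (List.mem_flatMap.2 ⟨r, hr, hw⟩))
theorem hcC : ∀ z, CC.cen z = true → ev g (CC.wd z) = 1 := by
  intro z hz
  refine tr8 ?_
  cases z <;> first | (exact absurd hz (by decide)) | decide +kernel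

/-- letters of level D -/
def SD : X → Bool := ![true, true, true, true, true, false, false, false]

/-- lower letters of level D -/
def TD : X → Bool := ![false, true, false, false, false, false, false, false]

def wdD : H34.TCS6C.Lt → W X
  | .t0 => [(0, true)]
  | .t1 => [(1, true)]
  | .t2 => [(2, true)]
  | .t3 => [(3, true)]
  | .t4 => [(4, true)]
  | .w => [(2, true), (0, true), (2, true), (0, true)]

def rulesD : List (RR X) := [
  .given [(0, true), (1, true), (0, true), (1, false), (0, false), (1, false)],
  .given [(1, true), (2, true), (1, true), (2, false), (1, false), (2, false)],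
  .given [(2, true), (3, true), (2, true), (3, false), (2, false), (3, false)],
  .given [(1, true), (4, true), (1, true), (4, false), (1, false), (4, false)],
  .csq [(2, true)] [(0, true)],
  .cc [(3, true), (2, true)] [(0, true)] [(3, true)] [(0, true)] [(2, true)],
  .cc [(3, true), (2, true), (1, true), (4, true), (5, true), (0, true), (1, true), (4, true), (2, true), (3, true), (1, true), (2, true), (0, true), (1, true), (4, true), (5, true)] [(4, true)] [(0, true)] [(0, true)] [(2, true)],
  .cc [(3, true), (2, true), (1, true), (0, true)] [(1, true)] [(3, true)] [(0, true)] [(2, true)],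
  .cc [(3, true), (2, true), (1, true), (4, true), (0, true), (1, true), (2, true), (3, true)] [(4, true)] [(2, true)] [(0, true)] [(2, true)],
  .cc [(3, true), (2, true), (1, true), (4, true), (0, true), (1, true)] [(4, true)] [(3, true)] [(0, true)] [(2, true)]]

def cenD : H34.TCS6C.Lt → Bool
  | .w => true
  | _ => false

def CD : CQ X H34.TCS6C.Lt where
  iv := iv
  wd := wdD
  cen := cenD
  exact := rulesD.map fun r => nred iv (r.word 16 nn)

theorem lvD {P' : Type} [Group P'] [Finite P'] {f : X → P'} (hh : CD.Holds f) :
    Nat.card (Kl f SD) ≤ 1920 * Nat.card (Kl f TD) := by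
  obtain ⟨hinv, hrel⟩ := CQ.relOK hh (inv := H34.TCS6C.inv) (mm := H34.TCS6C.mm) (ex := H34.TCS6C.extra) (by intro x; cases x <;> decide +kernel)
    (by intro x y; cases x <;> cases y <;> decide +kernel) (by decide +kernel)
  exact level (subs := H34.TCS6C.subs) (fun H hH => H34.TCS6C.main hinv hrel.1 hrel.2 hH) (by decide +kernel) (by
    intro x hx
    fin_cases x
    · exact ⟨.t0, rfl⟩
    · exact ⟨.t1, rfl⟩
    · exact ⟨.t2, rfl⟩
    · exact ⟨.t3, rfl⟩
    · exact ⟨.t4, rfl⟩
    · exact absurd hx (by decide)
    · exact absurd hx (by decide)
    · exact absurd hx (by decide))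

theorem htD : ∀ r ∈ rulesD, ∀ w ∈ r.needs, ev g w = 1 := by
  have h : ((rulesD.flatMap RR.needs).all fun w => chkW w) = true := by decide +kernel
  intro r hr w hw
  exact tr8 (List.all_eq_true.1 h w (List.mem_flatMap.2 ⟨r, hr, hw⟩))
theorem hcD : ∀ z, CD.cen z = true → ev g (CD.wd z) = 1 := by
  intro z hz
  refine tr8 ?_
  cases z <;> first | (exact absurd hz (by decide)) | decide +kernel

theorem chain {P' : Type} [Group P'] [Finite P'] {f : X → P'} (hA : CA.Holds f) (hB : CB.Holds f) (hC : CC.Holds f) (hD : CD.Holds f) :
    Nat.card (Subgroup.closure (Set.range f)) ≤ 2 * 696729600 := by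
  have e0 : Kl f SA = Subgroup.closure (Set.range f) := Kl_all_of (by decide)
  have e1 : Kl f TA = Kl f SB := by congr 1
  have e2 : Kl f TB = Kl f SC := by congr 1
  have e3 : Kl f TC = Kl f SD := by congr 1
  have a := lvA hA
  have b := lvB hB
  have c := lvC hC
  have d := lvD hD
  have e : Nat.card (Kl f TD) ≤ 2 := card_Kl_one (x0 := 1) (by decide) (by norm_num) (by rw [pow_two]; exact hA.iv 1 rfl)
  rw [e1] at a
  rw [e2] at b
  rw [e3] at c
  rw [← e0]
  omega
theorem ht0 : ∀ x, tr' x = true → ev g (tword par uw x) = 1 := by
  intro x _
  refine tr8 ?_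
  revert x
  decide +kernel
theorem g0 : g 0 * g 0 = 1 := by
  have h : ev g [(0, true), (0, true)] = 1 := tr8 (by decide +kernel)
  change g 0 * (g 0 * 1) = 1 at h
  rwa [mul_one] at h
theorem noExt8 : NoExt GO 8 := by
  refine noExt_root perf_GO nn (iv := iv) (tr := tr') (par := par) (uw := uw) (g := g) (by decide) ht0 (x0 := 0) rfl g0 (by decide)
    (by decide) (by decide) (fun x hx => absurd (show true = false from hx) (by decide)) gen8 (B := 2 * 696729600) ?_ (by rw [card_GO]; norm_num)
  intro P' _ _ π f h hf
  have hG : ∀ w ∈ Gv, ev f w = 1 := by
    intro w hw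
    simp only [Gv, List.mem_cons, List.not_mem_nil, or_false] at hw
    rcases hw with rfl | rfl | rfl | rfl | rfl | rfl | rfl <;> exact hf _ rfl
  exact chain (PL.holdsQ (C := CA) (rules := rulesA) h hG (Inj.none _ (fun _ => rfl)) rfl (by decide +kernel) htA hcA)
    (PL.holdsQ (C := CB) (rules := rulesB) h hG (Inj.none _ (fun _ => rfl)) rfl (by decide +kernel) htB hcB)
    (PL.holdsQ (C := CC) (rules := rulesC) h hG (Inj.none _ (fun _ => rfl)) rfl (by decide +kernel) htC hcC)
    (PL.holdsQ (C := CD) (rules := rulesD) h hG (Inj.none _ (fun _ => rfl)) rfl (by decide +kernel) htD hcD)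
end H34.MulO8
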