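import Mathlib
import Cfsg.Agent.Lib.H34.O8Mod
import Cfsg.Agent.Lib.H34.MLev
import Cfsg.Agent.Lib.H34.TCO8B
import Cfsg.Agent.Lib.H35.TCE7E6
import Cfsg.Agent.Lib.H35.TCE6D5
import Cfsg.Agent.Lib.H35.TCD5A2
import Cfsg.Agent.Lib.H35.TCDih3

/-! # The odd part of the multiplier of `Ω₈⁺(2)` -/
set_option autoImplicit false
set_option maxRecDepth 100000
set_option linter.all false

namespace H34.MulO8o
open Subgroup H35.Stem H35.TC H34.MK H34.O8
abbrev X := Fin 8
abbrev g : X → GO := g8
def nn : X → ℕ := fun _ => 2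
def iv : X → Bool := fun _ => true

/-- letters of level A -/
def SA : X → Bool := ![true, true, true, true, true, true, true, true]

/-- lower letters of level A -/
def TA : X → Bool := ![true, true, true, true, true, true, true, false]

def wdA : H34.TCO8B.Lt → W X
  | .t0 => [(0, true)]
  | .t1 => [(1, true)]
  | .t2 => [(2, true)]
  | .t3 => [(3, true)]
  | .t4 => [(4, true)]
  | .t5 => [(5, true)]
  | .t6 => [(6, true)]
  | .t7 => [(7, true)]
  | .v => [(0, true), (1, true), (2, true), (3, true), (4, true), (5, true), (6, true), (0, true), (1, true), (2, true), (3, true), (4, true), (5, true), (6, true), (0, true), (1, true), (2, true), (3, true), (4, true), (5, true), (6, true), (0, true), (1, true), (2, true), (3, true), (4, true), (5, true), (6, true), (0, true), (1, true), (2, true), (3, true), (4, true), (5, true), (6, true), (0, true), (1, true), (2, true), (3, true), (4, true), (5, true), (6, true), (0, true), (1, true), (2, true), (3, true), (4, true), (5, true), (6, true), (0, true), (1, true), (2, true),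 (3, true), (4, true), (5, true), (6, true), (0, true), (1, true), (2, true), (3, true), (4, true), (5, true), (6, true)]
  | .vi => [(6, true), (5, true), (4, true), (3, true), (2, true), (1, true), (0, true), (6, true), (5, true), (4, true), (3, true), (2, true), (1, true), (0, true), (6, true), (5, true), (4, true), (3, true), (2, true), (1, true), (0, true), (6, true), (5, true), (4, true), (3, true), (2, true), (1, true), (0, true), (6, true), (5, true), (4, true), (3, true), (2, true), (1, true), (0, true), (6, true), (5, true), (4, true), (3, true), (2, true), (1, true), (0, true), (6, true), (5, true), (4, true), (3, true), (2, true), (1, true), (0, true), (6, true), (5, true), (4, true), (3, true), (2, true), (1, true), (0, true), (6, true), (5, true), (4, true), (3, true), (2, true), (1, true), (0, true)]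
  | .u0 => [(0, true), (1, true), (4, true), (1, true), (7, true), (4, true), (2, true), (1, true), (4, true), (7, true)]
  | .u0i => [(7, true), (4, true), (1, true), (2, true), (4, true), (7, true), (1, true), (4, true), (1, true), (0, true)]
  | .u1 => [(1, true), (6, true), (7, true), (6, true), (7, true), (1, true), (7, true), (6, true), (7, true)]
  | .u1i => [(7, true), (6, true), (7, true), (1, true), (7, true), (6, true), (7, true), (6, true), (1, true)]

def rulesA : List (RR X) := [
  .dihx [(0, true)] [(1, true)] 3,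
  .dihx [(0, true)] [(2, true)] 2,
  .dihx [(0, true)] [(3, true)] 2,
  .dihx [(0, true)] [(4, true)] 2,
  .dihx [(0, true)] [(5, true)] 2,
  .dihx [(0, true)] [(6, true)] 2,
  .dihx [(0, true)] [(7, true)] 3,
  .dihx [(1, true)] [(2, true)] 3,
  .dihx [(1, true)] [(3, true)] 2,
  .dihx [(1, true)] [(4, true)] 3,
  .dihx [(1, true)] [(5, true)] 2,
  .dihx [(1, true)] [(6, true)] 2,
  .dihx [(1, true)] [(7, true)] 3,
  .dihx [(2, true)] [(3, true)] 3,
  .dihx [(2, true)] [(4, true)] 2,
  .dihx [(2, true)] [(5, true)] 2,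
  .dihx [(2, true)] [(6, true)] 2,
  .dihx [(2, true)] [(7, true)] 3,
  .dihx [(3, true)] [(4, true)] 2,
  .dihx [(3, true)] [(5, true)] 2,
  .dihx [(3, true)] [(6, true)] 2,
  .dihx [(3, true)] [(7, true)] 3,
  .dihx [(4, true)] [(5, true)] 3,
  .dihx [(4, true)] [(6, true)] 2,
  .dihx [(4, true)] [(7, true)] 3,
  .dihx [(5, true)] [(6, true)] 3,
  .dihx [(5, true)] [(7, true)] 3,
  .dihx [(6, true)] [(7, true)] 4,
  .kp [(1, true), (6, true), (7, true), (6, true), (7, true), (1, true), (7, true), (6, true), (7, true)]]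

def cenA : H34.TCO8B.Lt → Bool
  | .v => true
  | .vi => true
  | .u0 => true
  | .u0i => true
  | .u1 => true
  | .u1i => true
  | _ => false

def CA : CQ X H34.TCO8B.Lt where
  iv := iv
  wd := wdA
  cen := cenA
  exact := rulesA.map fun r => nred iv (r.word 15 nn)

theorem lvA {P' : Type} [Group P'] [Finite P'] {f : X → P'} (hh : CA.Holds f) :
    Nat.card (Kl f SA) ≤ 120 * Nat.card (Kl f TA) := by
  obtain ⟨hinv, hrel⟩ := CQ.relOK hh (inv := H34.TCO8B.inv) (mm := H34.TCO8B.mm) (ex := H34.TCO8B.extra) (by intro x; cases x <;> decide +kernel)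
    (by intro x y; cases x <;> cases y <;> decide +kernel) (by decide +kernel)
  exact level (subs := H34.TCO8B.subs) (fun H hH => H34.TCO8B.main hinv hrel.1 hrel.2 hH) (by decide +kernel) (by
    intro x hx
    fin_cases x
    · exact ⟨.t0, rfl⟩
    · exact ⟨.t1, rfl⟩
    · exact ⟨.t2, rfl⟩
    · exact ⟨.t3, rfl⟩
    · exact ⟨.t4, rfl⟩
    · exact ⟨.t5, rfl⟩
    · exact ⟨.t6, rfl⟩
    · exact ⟨.t7, rfl⟩)

theorem htA : ∀ r ∈ rulesA, ∀ w ∈ r.needs, ev g w = 1 := by
  have h : ((rulesA.flatMap RR.needs).all fun w => chkW w) = true := by decide +kernel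
  intro r hr w hw
  exact tr8 (List.all_eq_true.1 h w (List.mem_flatMap.2 ⟨r, hr, hw⟩))
theorem hcA : ∀ z, CA.cen z = true → ev g (CA.wd z) = 1 := by
  intro z hz
  refine tr8 ?_
  cases z <;> first | (exact absurd hz (by decide)) | decide +kernel

/-- letters of level B -/
def SB : X → Bool := ![true, true, true, true, true, true, true, false]

/-- lower letters of level B -/
def TB : X → Bool := ![true, true, true, true, true, true, false, false]

def wdB : H35.TCE7E6.Lt → W X
  | .h => [(0, true)]
  | .d => [(1, true)]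
  | .e => [(2, true)]
  | .f => [(3, true)]
  | .c => [(4, true)]
  | .b => [(5, true)]
  | .a => [(6, true)]

def rulesB : List (RR X) := [
  .dihx [(0, true)] [(1, true)] 3,
  .dihx [(0, true)] [(2, true)] 2,
  .dihx [(0, true)] [(3, true)] 2,
  .dihx [(0, true)] [(4, true)] 2,
  .dihx [(0, true)] [(5, true)] 2,
  .dihx [(0, true)] [(6, true)] 2,
  .dihx [(1, true)] [(2, true)] 3,
  .dihx [(1, true)] [(3, true)] 2,
  .dihx [(1, true)] [(4, true)] 3,
  .dihx [(1, true)] [(5, true)] 2,
  .dihx [(1, true)] [(6, true)] 2,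
  .dihx [(2, true)] [(3, true)] 3,
  .dihx [(2, true)] [(4, true)] 2,
  .dihx [(2, true)] [(5, true)] 2,
  .dihx [(2, true)] [(6, true)] 2,
  .dihx [(3, true)] [(4, true)] 2,
  .dihx [(3, true)] [(5, true)] 2,
  .dihx [(3, true)] [(6, true)] 2,
  .dihx [(4, true)] [(5, true)] 3,
  .dihx [(4, true)] [(6, true)] 2,
  .dihx [(5, true)] [(6, true)] 3]

def cenB : H35.TCE7E6.Lt → Bool
  | _ => false

def CB : CQ X H35.TCE7E6.Lt where
  iv := iv
  wd := wdB
  cen := cenB
  exact := rulesB.map fun r => nred iv (r.word 15 nn)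

theorem lvB {P' : Type} [Group P'] [Finite P'] {f : X → P'} (hh : CB.Holds f) :
    Nat.card (Kl f SB) ≤ 56 * Nat.card (Kl f TB) := by
  obtain ⟨hinv, hrel⟩ := CQ.relOK hh (inv := H35.TCE7E6.inv) (mm := H35.TCE7E6.mm) (ex := H35.TCE7E6.extra) (by intro x; cases x <;> decide +kernel)
    (by intro x y; cases x <;> cases y <;> decide +kernel) (by decide +kernel)
  exact level (subs := H35.TCE7E6.subs) (fun H hH => H35.TCE7E6.main hinv hrel.1 hrel.2 hH) (by decide +kernel) (by
    intro x hx
    fin_cases x
    · exact ⟨.h, rfl⟩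
    · exact ⟨.d, rfl⟩
    · exact ⟨.e, rfl⟩
    · exact ⟨.f, rfl⟩
    · exact ⟨.c, rfl⟩
    · exact ⟨.b, rfl⟩
    · exact ⟨.a, rfl⟩
    · exact absurd hx (by decide))

theorem htB : ∀ r ∈ rulesB, ∀ w ∈ r.needs, ev g w = 1 := by
  have h : ((rulesB.flatMap RR.needs).all fun w => chkW w) = true := by decide +kernel
  intro r hr w hw
  exact tr8 (List.all_eq_true.1 h w (List.mem_flatMap.2 ⟨r, hr, hw⟩))
theorem hcB : ∀ z, CB.cen z = true → ev g (CB.wd z) = 1 := by
  intro z hz
  refine tr8 ?_
  cases z <;> first | (exact absurd hz (by decide)) | decide +kernel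

/-- letters of level C -/
def SC : X → Bool := ![true, true, true, true, true, true, false, false]

/-- lower letters of level C -/
def TC : X → Bool := ![true, true, true, false, true, true, false, false]

def wdC : H35.TCE6D5.Lt → W X
  | .h => [(0, true)]
  | .d => [(1, true)]
  | .e => [(2, true)]
  | .f => [(3, true)]
  | .c => [(4, true)]
  | .b => [(5, true)]

def rulesC : List (RR X) := [
  .dihx [(0, true)] [(1, true)] 3,
  .dihx [(0, true)] [(2, true)] 2,
  .dihx [(0, true)] [(3, true)] 2,
  .dihx [(0, true)] [(4, true)] 2,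
  .dihx [(0, true)] [(5, true)] 2,
  .dihx [(1, true)] [(2, true)] 3,
  .dihx [(1, true)] [(3, true)] 2,
  .dihx [(1, true)] [(4, true)] 3,
  .dihx [(1, true)] [(5, true)] 2,
  .dihx [(2, true)] [(3, true)] 3,
  .dihx [(2, true)] [(4, true)] 2,
  .dihx [(2, true)] [(5, true)] 2,
  .dihx [(3, true)] [(4, true)] 2,
  .dihx [(3, true)] [(5, true)] 2,
  .dihx [(4, true)] [(5, true)] 3]

def cenC : H35.TCE6D5.Lt → Bool
  | _ => false

def CC : CQ X H35.TCE6D5.Lt where
  iv := iv
  wd := wdC
  cen := cenC
  exact := rulesC.map fun r => nred iv (r.word 15 nn)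

theorem lvC {P' : Type} [Group P'] [Finite P'] {f : X → P'} (hh : CC.Holds f) :
    Nat.card (Kl f SC) ≤ 27 * Nat.card (Kl f TC) := by
  obtain ⟨hinv, hrel⟩ := CQ.relOK hh (inv := H35.TCE6D5.inv) (mm := H35.TCE6D5.mm) (ex := H35.TCE6D5.extra) (by intro x; cases x <;> decide +kernel)
    (by intro x y; cases x <;> cases y <;> decide +kernel) (by decide +kernel)
  exact level (subs := H35.TCE6D5.subs) (fun H hH => H35.TCE6D5.main hinv hrel.1 hrel.2 hH) (by decide +kernel) (by
    intro x hx
    fin_cases x
    · exact ⟨.h, rfl⟩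
    · exact ⟨.d, rfl⟩
    · exact ⟨.e, rfl⟩
    · exact ⟨.f, rfl⟩
    · exact ⟨.c, rfl⟩
    · exact ⟨.b, rfl⟩
    · exact absurd hx (by decide)
    · exact absurd hx (by decide))

theorem htC : ∀ r ∈ rulesC, ∀ w ∈ r.needs, ev g w = 1 := by
  have h : ((rulesC.flatMap RR.needs).all fun w => chkW w) = true := by decide +kernel
  intro r hr w hw
  exact tr8 (List.all_eq_true.1 h w (List.mem_flatMap.2 ⟨r, hr, hw⟩))
theorem hcC : ∀ z, CC.cen z = true → ev g (CC.wd z) = 1 := by
  intro z hz
  refine tr8 ?_
  cases z <;> first | (exact absurd hz (by decide)) | decide +kernel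

/-- letters of level D -/
def SD : X → Bool := ![true, true, true, false, true, true, false, false]

/-- lower letters of level D -/
def TD : X → Bool := ![false, false, false, false, true, true, false, false]

def wdD : H35.TCD5A2.Lt → W X
  | .h => [(0, true)]
  | .d => [(1, true)]
  | .e => [(2, true)]
  | .c => [(4, true)]
  | .b => [(5, true)]

def rulesD : List (RR X) := [
  .dihx [(0, true)] [(1, true)] 3,
  .dihx [(0, true)] [(2, true)] 2,
  .dihx [(0, true)] [(4, true)] 2,
  .dihx [(0, true)] [(5, true)] 2,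
  .dihx [(1, true)] [(2, true)] 3,
  .dihx [(1, true)] [(4, true)] 3,
  .dihx [(1, true)] [(5, true)] 2,
  .dihx [(2, true)] [(4, true)] 2,
  .dihx [(2, true)] [(5, true)] 2,
  .dihx [(4, true)] [(5, true)] 3]

def cenD : H35.TCD5A2.Lt → Bool
  | _ => false

def CD : CQ X H35.TCD5A2.Lt where
  iv := iv
  wd := wdD
  cen := cenD
  exact := rulesD.map fun r => nred iv (r.word 15 nn)

theorem lvD {P' : Type} [Group P'] [Finite P'] {f : X → P'} (hh : CD.Holds f) :
    Nat.card (Kl f SD) ≤ 320 * Nat.card (Kl f TD) := by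
  obtain ⟨hinv, hrel⟩ := CQ.relOK hh (inv := H35.TCD5A2.inv) (mm := H35.TCD5A2.mm) (ex := H35.TCD5A2.extra) (by intro x; cases x <;> decide +kernel)
    (by intro x y; cases x <;> cases y <;> decide +kernel) (by decide +kernel)
  exact level (subs := H35.TCD5A2.subs) (fun H hH => H35.TCD5A2.main hinv hrel.1 hrel.2 hH) (by decide +kernel) (by
    intro x hx
    fin_cases x
    · exact ⟨.h, rfl⟩
    · exact ⟨.d, rfl⟩
    · exact ⟨.e, rfl⟩
    · exact absurd hx (by decide)
    · exact ⟨.c, rfl⟩
    · exact ⟨.b, rfl⟩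
    · exact absurd hx (by decide)
    · exact absurd hx (by decide))

theorem htD : ∀ r ∈ rulesD, ∀ w ∈ r.needs, ev g w = 1 := by
  have h : ((rulesD.flatMap RR.needs).all fun w => chkW w) = true := by decide +kernel
  intro r hr w hw
  exact tr8 (List.all_eq_true.1 h w (List.mem_flatMap.2 ⟨r, hr, hw⟩))
theorem hcD : ∀ z, CD.cen z = true → ev g (CD.wd z) = 1 := by
  intro z hz
  refine tr8 ?_
  cases z <;> first | (exact absurd hz (by decide)) | decide +kernel

/-- letters of level E -/
def SE : X → Bool := ![false, false, false, false, true, true, false, false]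

/-- lower letters of level E -/
def TE : X → Bool := ![false, false, false, false, false, false, false, false]

def wdE : H35.TCDih3.Lt → W X
  | .c => [(4, true)]
  | .b => [(5, true)]

def rulesE : List (RR X) := [
  .dihx [(4, true)] [(5, true)] 3]

def cenE : H35.TCDih3.Lt → Bool
  | _ => false

def CE : CQ X H35.TCDih3.Lt where
  iv := iv
  wd := wdE
  cen := cenE
  exact := rulesE.map fun r => nred iv (r.word 15 nn)

theorem lvE {P' : Type} [Group P'] [Finite P'] {f : X → P'} (hh : CE.Holds f) :
    Nat.card (Kl f SE) ≤ 6 * Nat.card (Kl f TE) := by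
  obtain ⟨hinv, hrel⟩ := CQ.relOK hh (inv := H35.TCDih3.inv) (mm := H35.TCDih3.mm) (ex := H35.TCDih3.extra) (by intro x; cases x <;> decide +kernel)
    (by intro x y; cases x <;> cases y <;> decide +kernel) (by decide +kernel)
  exact level (subs := H35.TCDih3.subs) (fun H hH => H35.TCDih3.main hinv hrel.1 hrel.2 hH) (by decide +kernel) (by
    intro x hx
    fin_cases x
    · exact absurd hx (by decide)
    · exact absurd hx (by decide)
    · exact absurd hx (by decide)
    · exact absurd hx (by decide)
    · exact ⟨.c, rfl⟩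
    · exact ⟨.b, rfl⟩
    · exact absurd hx (by decide)
    · exact absurd hx (by decide))

theorem htE : ∀ r ∈ rulesE, ∀ w ∈ r.needs, ev g w = 1 := by
  have h : ((rulesE.flatMap RR.needs).all fun w => chkW w) = true := by decide +kernel
  intro r hr w hw
  exact tr8 (List.all_eq_true.1 h w (List.mem_flatMap.2 ⟨r, hr, hw⟩))
theorem hcE : ∀ z, CE.cen z = true → ev g (CE.wd z) = 1 := by
  intro z hz
  refine tr8 ?_
  cases z <;> first | (exact absurd hz (by decide)) | decide +kernel

theorem ord2 (x : X) : g x ^ nn x = 1 := by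
  have h : ∀ x : X, chkW [(x, true), (x, true)] = true := by decide +kernel
  have h1 := tr8 (h x)
  change g x * (g x * 1) = 1 at h1
  rw [mul_one] at h1
  change g x ^ 2 = 1
  rw [pow_two, h1]
theorem genA : Kl g SA = ⊤ := by
  rw [Kl_all_of (by decide)]
  exact gen8
theorem bound15 (Γ : Type) [Group Γ] [Finite Γ] (σ : Γ →* GO) (f : X → Γ) (h : Lifts σ 15 nn g f) :
    Nat.card (Kl f SA) ≤ 348364800 := by
  have hp : PL σ 15 nn iv g f := PL.of_lifts h (fun _ _ => rfl)
  have e1 : Kl f TA = Kl f SB := by congr 1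
  have e2 : Kl f TB = Kl f SC := by congr 1
  have e3 : Kl f TC = Kl f SD := by congr 1
  have e4 : Kl f TD = Kl f SE := by congr 1
  have a := lvA (PL.holdsQ (C := CA) (rules := rulesA) (Gv := []) hp (by simp) (Inj.none _ (fun _ => rfl)) rfl (by decide +kernel) htA hcA)
  have b := lvB (PL.holdsQ (C := CB) (rules := rulesB) (Gv := []) hp (by simp) (Inj.none _ (fun _ => rfl)) rfl (by decide +kernel) htB hcB)
  have c := lvC (PL.holdsQ (C := CC) (rules := rulesC) (Gv := []) hp (by simp) (Inj.none _ (fun _ => rfl)) rfl (by decide +kernel) htC hcC)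
  have d := lvD (PL.holdsQ (C := CD) (rules := rulesD) (Gv := []) hp (by simp) (Inj.none _ (fun _ => rfl)) rfl (by decide +kernel) htD hcD)
  have e := lvE (PL.holdsQ (C := CE) (rules := rulesE) (Gv := []) hp (by simp) (Inj.none _ (fun _ => rfl)) rfl (by decide +kernel) htE hcE)
  have h0 : Kl f TE = ⊥ := by
    rw [eq_bot_iff, Kl, Subgroup.closure_le]
    rintro _ ⟨x, hx, rfl⟩
    exact absurd hx (by revert x; decide)
  rw [h0, Subgroup.card_bot] at e
  rw [e1] at a
  rw [e2] at b
  rw [e3] at c
  rw [e4] at d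
  omega
theorem noExt3 : NoExt GO 3 := noExt_of_bound (q := 15) (by norm_num) ord2 (by decide) genA bound15 (by rw [card_GO]; norm_num)
theorem noExt5 : NoExt GO 5 := noExt_of_bound (q := 15) (by norm_num) ord2 (by decide) genA bound15 (by rw [card_GO]; norm_num)
end H34.MulO8o
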