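import Mathlib
import Cfsg.Agent.Lib.H34.MulO8a
import Cfsg.Agent.Lib.H34.MulO8b
import Cfsg.Agent.Lib.H34.MulO8c
import Cfsg.Agent.Lib.H34.MFin

/-!
# The multiplier of `Ω₈⁺(2)`
-/

set_option autoImplicit false
set_option maxHeartbeats 400000

namespace H34.MulO8

open H34.O8 H35.Stem H34.MK

theorem mult : Cfsg.HasSchurMultiplier GO (Multiplicative (ZMod 2 × ZMod 2)) := by
  have hA : Nat.card (Multiplicative (ZMod 2 × ZMod 2)) = 4 := by
    rw [Nat.card_congr Multiplicative.toAdd, Nat.card_prod, Nat.card_zmod]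
  refine hasMult_list perf_GO ex22 [(2, 12), (3, 5), (5, 2), (7, 1)] (by decide +kernel) (by rw [card_GO]; norm_num) ?_
  intro a ha
  fin_cases ha
  · exact Or.inr ⟨2, noExt8, by rw [hA]; norm_num⟩
  · exact Or.inr ⟨0, H34.MulO8o.noExt3, by rw [hA]; norm_num⟩
  · exact Or.inr ⟨0, H34.MulO8o.noExt5, by rw [hA]; norm_num⟩
  · exact Or.inl (by rw [card_GO]; norm_num)

end H34.MulO8
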