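import Mathlib
import Cfsg.Agent.Lib.H34.U6Mod
import Cfsg.Agent.Lib.H34.MLev
import Cfsg.Agent.Lib.H34.TCU6A
import Cfsg.Agent.Lib.H34.TCU6B
import Cfsg.Agent.Lib.H34.TCU6C
import Cfsg.Agent.Lib.H34.TCU6D
import Cfsg.Agent.Lib.H35.TCDih3

/-! # The 2-part of the multiplier of `U₆(2)` -/
set_option autoImplicit false
set_option maxRecDepth 100000
set_option linter.all false

namespace H34.MulU6
open Subgroup H35.Stem H35.TC H34.MK H34.U6
abbrev X := Fin 7
noncomputable abbrev g : X → GP := gU
def nn : X → ℕ := fun _ => 2
def iv : X → Bool := fun _ => true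
def tr' : X → Bool := fun x => decide (x ≠ 0)
def par : X → X := ![0, 0, 1, 0, 1, 4, 2]
def uw : X → W X := ![[], [(0, true), (1, true)], [(1, true), (2, true)], [(0, true), (3, true)], [(1, true), (4, true)], [(4, true), (5, true)], [(2, true), (6, true)]]
def prs : List (W X × W X × W X) := [([(4, true), (1, true), (0, true), (3, true)], [(4, true)], [(0, true)]),
  ([(4, true), (5, true), (1, true), (4, true), (0, true), (3, true)], [(5, true)], [(0, true)]),
  ([(2, true), (6, true), (1, true), (2, true), (0, true), (3, true)], [(6, true)], [(0, true)]),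
  ([], [(1, true)], [(3, true)]),
  ([(4, true), (5, true), (1, true), (4, true), (0, true), (3, true), (1, true), (0, true)], [(5, true)], [(1, true)]),
  ([(2, true), (6, true), (1, true), (2, true), (0, true), (3, true), (1, true), (0, true)], [(6, true)], [(1, true)]),
  ([(2, true), (1, true)], [(2, true)], [(3, true)]),
  ([(4, true), (1, true), (0, true), (3, true), (2, true), (0, true)], [(4, true)], [(2, true)]),
  ([(4, true), (5, true), (1, true), (4, true), (0, true), (3, true), (2, true), (0, true)], [(5, true)], [(2, true)]),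
  ([(4, true), (1, true)], [(4, true)], [(3, true)]),
  ([(4, true), (5, true), (1, true), (4, true)], [(5, true)], [(3, true)]),
  ([(2, true), (6, true), (1, true), (2, true)], [(6, true)], [(3, true)]),
  ([(4, true), (5, true), (1, true), (4, true), (0, true), (2, true), (6, true), (3, true), (0, true), (2, true)], [(5, true)], [(6, true)])]
def Gv : List (W X) := [tword par uw 1, tword par uw 2, tword par uw 3, tword par uw 4, tword par uw 5, tword par uw 6] ++ prs.map fun p => cmw p.2.1 p.2.2

/-- letters of level A -/
def SA : X → Bool := ![true, true, true, true, true, true, true]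

/-- lower letters of level A -/
def TA : X → Bool := ![true, true, true, true, true, true, false]

def wdA : H34.TCU6A.Lt → W X
  | .t0 => [(0, true)]
  | .t1 => [(1, true)]
  | .t2 => [(2, true)]
  | .t3 => [(3, true)]
  | .t4 => [(4, true)]
  | .t5 => [(5, true)]
  | .t6 => [(6, true)]
  | .s1 => [(0, true), (2, true), (0, true), (2, true), (0, true), (2, true)]
  | .s2 => [(4, true), (6, true), (4, true), (6, true), (4, true), (6, true)]
  | .s3 => [(0, true), (1, true), (2, true), (1, true), (0, true), (1, true), (2, true), (1, true), (0, true), (1, true), (2, true), (1, true)]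
  | .c1 => [(0, true), (1, true), (4, true), (5, true), (6, true), (2, true), (0, true), (4, true), (6, true), (3, true), (1, true), (2, true), (0, true), (2, true), (1, true), (3, true), (6, true), (4, true), (0, true), (2, true), (6, true), (5, true), (4, true), (1, true)]

def rulesA : List (RR X) := [
  .dih [(0, true)] [(2, true)] 3,
  .dih [(4, true)] [(6, true)] 3,
  .dih [(0, true)] [(1, true), (2, true), (1, true)] 3,
  .dih [(0, true)] [(1, true), (4, true), (5, true), (6, true), (2, true), (0, true), (4, true), (6, true), (3, true), (1, true), (2, true), (0, true), (2, true), (1, true), (3, true), (6, true), (4, true), (0, true), (2, true), (6, true), (5, true), (4, true), (1, true)] 1,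
  .given [(0, true), (1, true), (0, true), (1, false), (0, false), (1, false)],
  .given [(1, true), (2, true), (1, true), (2, false), (1, false), (2, false)],
  .given [(0, true), (3, true), (0, true), (3, false), (0, false), (3, false)],
  .given [(1, true), (4, true), (1, true), (4, false), (1, false), (4, false)],
  .given [(4, true), (5, true), (4, true), (5, false), (4, false), (5, false)],
  .given [(2, true), (6, true), (2, true), (6, false), (2, false), (6, false)],
  .given [(4, true), (0, true), (4, false), (0, false)],
  .given [(5, true), (0, true), (5, false), (0, false)],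
  .given [(6, true), (0, true), (6, false), (0, false)],
  .given [(1, true), (3, true), (1, false), (3, false)],
  .given [(5, true), (1, true), (5, false), (1, false)],
  .given [(6, true), (1, true), (6, false), (1, false)],
  .given [(2, true), (3, true), (2, false), (3, false)],
  .given [(4, true), (2, true), (4, false), (2, false)],
  .given [(5, true), (2, true), (5, false), (2, false)],
  .given [(4, true), (3, true), (4, false), (3, false)],
  .given [(5, true), (3, true), (5, false), (3, false)],
  .given [(6, true), (3, true), (6, false), (3, false)],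
  .given [(5, true), (6, true), (5, false), (6, false)]]

def cenA : H34.TCU6A.Lt → Bool
  | .s1 => true
  | .s2 => true
  | .s3 => true
  | .c1 => true
  | _ => false

def CA : CQ X H34.TCU6A.Lt where
  iv := iv
  wd := wdA
  cen := cenA
  exact := rulesA.map fun r => nred iv (r.word 16 nn)

theorem lvA {P' : Type} [Group P'] [Finite P'] {f : X → P'} (hh : CA.Holds f) :
    Nat.card (Kl f SA) ≤ 5632 * Nat.card (Kl f TA) := by
  obtain ⟨hinv, hrel⟩ := CQ.relOK hh (inv := H34.TCU6A.inv) (mm := H34.TCU6A.mm) (ex := H34.TCU6A.extra) (by intro x; cases x <;> decide +kernel)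
    (by intro x y; cases x <;> cases y <;> decide +kernel) (by decide +kernel)
  exact level (subs := H34.TCU6A.subs) (fun H hH => H34.TCU6A.main hinv hrel.1 hrel.2 hH) (by decide +kernel) (by
    intro x hx
    fin_cases x
    · exact ⟨.t0, rfl⟩
    · exact ⟨.t1, rfl⟩
    · exact ⟨.t2, rfl⟩
    · exact ⟨.t3, rfl⟩
    · exact ⟨.t4, rfl⟩
    · exact ⟨.t5, rfl⟩
    · exact ⟨.t6, rfl⟩)

theorem htA : ∀ r ∈ rulesA, ∀ w ∈ r.needs, ev g w = 1 := by
  have h : ((rulesA.flatMap RR.needs).all fun w => chkW w) = true := by decide +kernel
  intro r hr w hw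
  exact tr6 (List.all_eq_true.1 h w (List.mem_flatMap.2 ⟨r, hr, hw⟩))
theorem hcA : ∀ z, CA.cen z = true → ev g (CA.wd z) = 1 := by
  intro z hz
  refine tr6 ?_
  cases z <;> first | (exact absurd hz (by decide)) | decide +kernel

/-- letters of level B -/
def SB : X → Bool := ![true, true, true, true, true, true, false]

/-- lower letters of level B -/
def TB : X → Bool := ![true, true, true, true, true, false, false]

def wdB : H34.TCU6B.Lt → W X
  | .t0 => [(0, true)]
  | .t1 => [(1, true)]
  | .t2 => [(2, true)]
  | .t3 => [(3, true)]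
  | .t4 => [(4, true)]
  | .t5 => [(5, true)]
  | .s1 => [(0, true), (2, true), (0, true), (2, true), (0, true), (2, true)]
  | .s3 => [(0, true), (1, true), (2, true), (1, true), (0, true), (1, true), (2, true), (1, true), (0, true), (1, true), (2, true), (1, true)]
  | .v => [(0, true), (1, true), (2, true), (0, true), (1, true), (5, true), (3, true), (4, true), (0, true), (1, true), (2, true), (0, true), (1, true), (5, true), (3, true), (4, true), (0, true), (1, true), (2, true), (0, true), (1, true), (5, true), (3, true), (4, true), (0, true), (1, true), (2, true), (0, true), (1, true), (5, true), (3, true), (4, true), (0, true), (1, true), (2, true), (0, true), (1, true), (5, true), (3, true), (4, true)]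
  | .vi => [(4, true), (3, true), (5, true), (1, true), (0, true), (2, true), (1, true), (0, true), (4, true), (3, true), (5, true), (1, true), (0, true), (2, true), (1, true), (0, true), (4, true), (3, true), (5, true), (1, true), (0, true), (2, true), (1, true), (0, true), (4, true), (3, true), (5, true), (1, true), (0, true), (2, true), (1, true), (0, true), (4, true), (3, true), (5, true), (1, true), (0, true), (2, true), (1, true), (0, true)]

def rulesB : List (RR X) := [
  .dih [(0, true)] [(2, true)] 3,
  .dih [(0, true)] [(1, true), (2, true), (1, true)] 3,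
  .kp [(0, true), (1, true), (2, true), (0, true), (1, true), (5, true), (3, true), (4, true), (0, true), (1, true), (2, true), (0, true), (1, true), (5, true), (3, true), (4, true), (0, true), (1, true), (2, true), (0, true), (1, true), (5, true), (3, true), (4, true), (0, true), (1, true), (2, true), (0, true), (1, true), (5, true), (3, true), (4, true), (0, true), (1, true), (2, true), (0, true), (1, true), (5, true), (3, true), (4, true)],
  .given [(0, true), (1, true), (0, true), (1, false), (0, false), (1, false)],
  .given [(1, true), (2, true), (1, true), (2, false), (1, false), (2, false)],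
  .given [(0, true), (3, true), (0, true), (3, false), (0, false), (3, false)],
  .given [(1, true), (4, true), (1, true), (4, false), (1, false), (4, false)],
  .given [(4, true), (5, true), (4, true), (5, false), (4, false), (5, false)],
  .given [(4, true), (0, true), (4, false), (0, false)],
  .given [(5, true), (0, true), (5, false), (0, false)],
  .given [(1, true), (3, true), (1, false), (3, false)],
  .given [(5, true), (1, true), (5, false), (1, false)],
  .given [(2, true), (3, true), (2, false), (3, false)],
  .given [(4, true), (2, true), (4, false), (2, false)],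
  .given [(5, true), (2, true), (5, false), (2, false)],
  .given [(4, true), (3, true), (4, false), (3, false)],
  .given [(5, true), (3, true), (5, false), (3, false)]]

def cenB : H34.TCU6B.Lt → Bool
  | .s1 => true
  | .s3 => true
  | .v => true
  | .vi => true
  | _ => false

def CB : CQ X H34.TCU6B.Lt where
  iv := iv
  wd := wdB
  cen := cenB
  exact := rulesB.map fun r => nred iv (r.word 16 nn)

theorem lvB {P' : Type} [Group P'] [Finite P'] {f : X → P'} (hh : CB.Holds f) :
    Nat.card (Kl f SB) ≤ 252 * Nat.card (Kl f TB) := by
  obtain ⟨hinv, hrel⟩ := CQ.relOK hh (inv := H34.TCU6B.inv) (mm := H34.TCU6B.mm) (ex := H34.TCU6B.extra) (by intro x; cases x <;> decide +kernel)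
    (by intro x y; cases x <;> cases y <;> decide +kernel) (by decide +kernel)
  exact level (subs := H34.TCU6B.subs) (fun H hH => H34.TCU6B.main hinv hrel.1 hrel.2 hH) (by decide +kernel) (by
    intro x hx
    fin_cases x
    · exact ⟨.t0, rfl⟩
    · exact ⟨.t1, rfl⟩
    · exact ⟨.t2, rfl⟩
    · exact ⟨.t3, rfl⟩
    · exact ⟨.t4, rfl⟩
    · exact ⟨.t5, rfl⟩
    · exact absurd hx (by decide))

theorem htB : ∀ r ∈ rulesB, ∀ w ∈ r.needs, ev g w = 1 := by
  have h : ((rulesB.flatMap RR.needs).all fun w => chkW w) = true := by decide +kernel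
  intro r hr w hw
  exact tr6 (List.all_eq_true.1 h w (List.mem_flatMap.2 ⟨r, hr, hw⟩))
theorem hcB : ∀ z, CB.cen z = true → ev g (CB.wd z) = 1 := by
  intro z hz
  refine tr6 ?_
  cases z <;> first | (exact absurd hz (by decide)) | decide +kernel

/-- letters of level C -/
def SC : X → Bool := ![true, true, true, true, true, false, false]

/-- lower letters of level C -/
def TC : X → Bool := ![true, true, true, true, false, false, false]

def wdC : H34.TCU6C.Lt → W X
  | .t0 => [(0, true)]
  | .t1 => [(1, true)]
  | .t2 => [(2, true)]
  | .t3 => [(3, true)]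
  | .t4 => [(4, true)]
  | .s1 => [(0, true), (2, true), (0, true), (2, true), (0, true), (2, true)]
  | .s3 => [(0, true), (1, true), (2, true), (1, true), (0, true), (1, true), (2, true), (1, true), (0, true), (1, true), (2, true), (1, true)]

def rulesC : List (RR X) := [
  .dih [(0, true)] [(2, true)] 3,
  .dih [(0, true)] [(1, true), (2, true), (1, true)] 3,
  .given [(0, true), (1, true), (0, true), (1, false), (0, false), (1, false)],
  .given [(1, true), (2, true), (1, true), (2, false), (1, false), (2, false)],
  .given [(0, true), (3, true), (0, true), (3, false), (0, false), (3, false)],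
  .given [(1, true), (4, true), (1, true), (4, false), (1, false), (4, false)],
  .given [(4, true), (0, true), (4, false), (0, false)],
  .given [(1, true), (3, true), (1, false), (3, false)],
  .given [(2, true), (3, true), (2, false), (3, false)],
  .given [(4, true), (2, true), (4, false), (2, false)],
  .given [(4, true), (3, true), (4, false), (3, false)]]

def cenC : H34.TCU6C.Lt → Bool
  | .s1 => true
  | .s3 => true
  | _ => false

def CC : CQ X H34.TCU6C.Lt where
  iv := iv
  wd := wdC
  cen := cenC
  exact := rulesC.map fun r => nred iv (r.word 16 nn)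

theorem lvC {P' : Type} [Group P'] [Finite P'] {f : X → P'} (hh : CC.Holds f) :
    Nat.card (Kl f SC) ≤ 80 * Nat.card (Kl f TC) := by
  obtain ⟨hinv, hrel⟩ := CQ.relOK hh (inv := H34.TCU6C.inv) (mm := H34.TCU6C.mm) (ex := H34.TCU6C.extra) (by intro x; cases x <;> decide +kernel)
    (by intro x y; cases x <;> cases y <;> decide +kernel) (by decide +kernel)
  exact level (subs := H34.TCU6C.subs) (fun H hH => H34.TCU6C.main hinv hrel.1 hrel.2 hH) (by decide +kernel) (by
    intro x hx
    fin_cases x
    · exact ⟨.t0, rfl⟩
    · exact ⟨.t1, rfl⟩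
    · exact ⟨.t2, rfl⟩
    · exact ⟨.t3, rfl⟩
    · exact ⟨.t4, rfl⟩
    · exact absurd hx (by decide)
    · exact absurd hx (by decide))

theorem htC : ∀ r ∈ rulesC, ∀ w ∈ r.needs, ev g w = 1 := by
  have h : ((rulesC.flatMap RR.needs).all fun w => chkW w) = true := by decide +kernel
  intro r hr w hw
  exact tr6 (List.all_eq_true.1 h w (List.mem_flatMap.2 ⟨r, hr, hw⟩))
theorem hcC : ∀ z, CC.cen z = true → ev g (CC.wd z) = 1 := by
  intro z hz
  refine tr6 ?_
  cases z <;> first | (exact absurd hz (by decide)) | decide +kernel

/-- letters of level D -/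
def SD : X → Bool := ![true, true, true, true, false, false, false]

/-- lower letters of level D -/
def TD : X → Bool := ![true, true, false, false, false, false, false]

def wdD : H34.TCU6D.Lt → W X
  | .t0 => [(0, true)]
  | .t1 => [(1, true)]
  | .t2 => [(2, true)]
  | .t3 => [(3, true)]
  | .s1 => [(0, true), (2, true), (0, true), (2, true), (0, true), (2, true)]
  | .s3 => [(0, true), (1, true), (2, true), (1, true), (0, true), (1, true), (2, true), (1, true), (0, true), (1, true), (2, true), (1, true)]

def rulesD : List (RR X) := [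
  .dih [(0, true)] [(2, true)] 3,
  .dih [(0, true)] [(1, true), (2, true), (1, true)] 3,
  .given [(0, true), (1, true), (0, true), (1, false), (0, false), (1, false)],
  .given [(1, true), (2, true), (1, true), (2, false), (1, false), (2, false)],
  .given [(0, true), (3, true), (0, true), (3, false), (0, false), (3, false)],
  .given [(1, true), (3, true), (1, false), (3, false)],
  .given [(2, true), (3, true), (2, false), (3, false)]]

def cenD : H34.TCU6D.Lt → Bool
  | .s1 => true
  | .s3 => true
  | _ => false

def CD : CQ X H34.TCU6D.Lt where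
  iv := iv
  wd := wdD
  cen := cenD
  exact := rulesD.map fun r => nred iv (r.word 16 nn)

theorem lvD {P' : Type} [Group P'] [Finite P'] {f : X → P'} (hh : CD.Holds f) :
    Nat.card (Kl f SD) ≤ 108 * Nat.card (Kl f TD) := by
  obtain ⟨hinv, hrel⟩ := CQ.relOK hh (inv := H34.TCU6D.inv) (mm := H34.TCU6D.mm) (ex := H34.TCU6D.extra) (by intro x; cases x <;> decide +kernel)
    (by intro x y; cases x <;> cases y <;> decide +kernel) (by decide +kernel)
  exact level (subs := H34.TCU6D.subs) (fun H hH => H34.TCU6D.main hinv hrel.1 hrel.2 hH) (by decide +kernel) (by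
    intro x hx
    fin_cases x
    · exact ⟨.t0, rfl⟩
    · exact ⟨.t1, rfl⟩
    · exact ⟨.t2, rfl⟩
    · exact ⟨.t3, rfl⟩
    · exact absurd hx (by decide)
    · exact absurd hx (by decide)
    · exact absurd hx (by decide))

theorem htD : ∀ r ∈ rulesD, ∀ w ∈ r.needs, ev g w = 1 := by
  have h : ((rulesD.flatMap RR.needs).all fun w => chkW w) = true := by decide +kernel
  intro r hr w hw
  exact tr6 (List.all_eq_true.1 h w (List.mem_flatMap.2 ⟨r, hr, hw⟩))
theorem hcD : ∀ z, CD.cen z = true → ev g (CD.wd z) = 1 := by
  intro z hz
  refine tr6 ?_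
  cases z <;> first | (exact absurd hz (by decide)) | decide +kernel

/-- letters of level E -/
def SE : X → Bool := ![true, true, false, false, false, false, false]

/-- lower letters of level E -/
def TE : X → Bool := ![false, false, false, false, false, false, false]

def wdE : H35.TCDih3.Lt → W X
  | .b => [(0, true)]
  | .c => [(1, true)]

def rulesE : List (RR X) := [
  .given [(0, true), (1, true), (0, true), (1, false), (0, false), (1, false)]]

def cenE : H35.TCDih3.Lt → Bool
  | _ => false

def CE : CQ X H35.TCDih3.Lt where
  iv := iv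
  wd := wdE
  cen := cenE
  exact := rulesE.map fun r => nred iv (r.word 16 nn)

theorem lvE {P' : Type} [Group P'] [Finite P'] {f : X → P'} (hh : CE.Holds f) :
    Nat.card (Kl f SE) ≤ 6 * Nat.card (Kl f TE) := by
  obtain ⟨hinv, hrel⟩ := CQ.relOK hh (inv := H35.TCDih3.inv) (mm := H35.TCDih3.mm) (ex := H35.TCDih3.extra) (by intro x; cases x <;> decide +kernel)
    (by intro x y; cases x <;> cases y <;> decide +kernel) (by decide +kernel)
  exact level (subs := H35.TCDih3.subs) (fun H hH => H35.TCDih3.main hinv hrel.1 hrel.2 hH) (by decide +kernel) (by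
    intro x hx
    fin_cases x
    · exact ⟨.b, rfl⟩
    · exact ⟨.c, rfl⟩
    · exact absurd hx (by decide)
    · exact absurd hx (by decide)
    · exact absurd hx (by decide)
    · exact absurd hx (by decide)
    · exact absurd hx (by decide))

theorem htE : ∀ r ∈ rulesE, ∀ w ∈ r.needs, ev g w = 1 := by
  have h : ((rulesE.flatMap RR.needs).all fun w => chkW w) = true := by decide +kernel
  intro r hr w hw
  exact tr6 (List.all_eq_true.1 h w (List.mem_flatMap.2 ⟨r, hr, hw⟩))
theorem hcE : ∀ z, CE.cen z = true → ev g (CE.wd z) = 1 := by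
  intro z hz
  refine tr6 ?_
  cases z <;> first | (exact absurd hz (by decide)) | decide +kernel

theorem chain {P' : Type} [Group P'] [Finite P'] {f : X → P'} (hA : CA.Holds f) (hB : CB.Holds f) (hC : CC.Holds f) (hD : CD.Holds f)
    (hE : CE.Holds f) : Nat.card (Subgroup.closure (Set.range f)) ≤ 2 * 36787322880 := by
  have e0 : Kl f SA = Subgroup.closure (Set.range f) := Kl_all_of (by decide)
  have e1 : Kl f TA = Kl f SB := by congr 1
  have e2 : Kl f TB = Kl f SC := by congr 1
  have e3 : Kl f TC = Kl f SD := by congr 1
  have e4 : Kl f TD = Kl f SE := by congr 1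
  have a := lvA hA
  have b := lvB hB
  have c := lvC hC
  have d := lvD hD
  have e := lvE hE
  have h0 : Kl f TE = ⊥ := by
    rw [eq_bot_iff, Kl, Subgroup.closure_le]
    rintro _ ⟨x, hx, rfl⟩
    exact absurd hx (by revert x; decide)
  rw [h0, Subgroup.card_bot] at e
  rw [e1] at a
  rw [e2] at b
  rw [e3] at c
  rw [e4] at d
  rw [← e0]
  omega
theorem ht0 : ∀ x, tr' x = true → ev g (tword par uw x) = 1 := by
  intro x _
  refine tr6 ?_
  revert x
  decide +kernel
theorem g0 : g 0 * g 0 = 1 := by
  have h : ev g [(0, true), (0, true)] = 1 := tr6 (by decide +kernel)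
  change g 0 * (g 0 * 1) = 1 at h
  rwa [mul_one] at h

/-- line words -/
def lb1 : W X := [(6, true)]
def lb2 : W X := [(4, true), (1, true), (2, true), (0, true), (1, true), (4, true), (6, true), (2, true), (6, true), (4, true), (1, true), (0, true), (2, true), (1, true), (4, true)]
def lb3 : W X := [(4, true), (2, true), (1, true), (0, true), (2, true), (6, true), (4, true), (1, true), (4, true), (6, true), (2, true), (0, true), (1, true), (2, true), (4, true)]
def lb4 : W X := [(1, true), (2, true), (6, true), (4, true), (0, true), (2, true), (6, true), (1, true), (4, true), (2, true), (1, true), (0, true), (1, true), (2, true), (4, true), (1, true), (6, true), (2, true), (0, true), (4, true), (6, true), (2, true), (1, true)]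
def W0 : W X := cmw [(1, true)] [(3, true)]
def rulesW : List (RR X) := [
  .cc [(4, true), (5, true), (1, true), (4, true), (0, true), (3, true)] [(5, true)] [(0, true)] [(1, true)] [(3, true)],
  .cc [(4, true), (5, true), (1, true), (4, true), (0, true), (2, true), (6, true), (3, true), (0, true), (2, true)] [(5, true)] lb1 [(1, true)] [(3, true)],
  .cc [(0, true), (2, true), (1, true), (0, true), (2, true), (6, true), (4, true), (5, true), (1, true), (4, true), (0, true), (2, true)] [(5, true)] lb2 [(1, true)] [(3, true)],
  .cc [(0, true), (2, true), (1, true), (0, true), (2, true), (6, true), (4, true), (5, true), (1, true), (4, true), (6, true), (2, true)] [(5, true)] lb3 [(1, true)] [(3, true)],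
  .cc [(2, true), (0, true), (1, true), (4, true), (5, true), (2, true), (0, true), (1, true), (4, true), (0, true), (1, true), (2, true), (0, true), (3, true)] [(5, true)] lb4 [(1, true)] [(3, true)],
  .cc [] [(5, true)] [(0, true)] [(5, true)] (lb1 ++ (lb2 ++ (lb3 ++ lb4))),
  .csq [(1, true)] [(3, true)]]
theorem htW : ∀ r ∈ rulesW, ∀ w ∈ r.needs, ev g w = 1 := by
  have h : ((rulesW.flatMap RR.needs).all fun w => chkW w) = true := by decide +kernel
  intro r hr w hw
  exact tr6 (List.all_eq_true.1 h w (List.mem_flatMap.2 ⟨r, hr, hw⟩))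
theorem htP : ∀ p ∈ prs, ∀ w ∈ (RR.cc p.1 p.2.1 p.2.2 [(1, true)] [(3, true)] : RR X).needs, ev g w = 1 := by
  have h : ((prs.flatMap fun p => (RR.cc p.1 p.2.1 p.2.2 [(1, true)] [(3, true)] : RR X).needs).all fun w => chkW w) = true := by decide +kernel
  intro r hr w hw
  exact tr6 (List.all_eq_true.1 h w (List.mem_flatMap.2 ⟨r, hr, hw⟩))

theorem pair_mul {P' : Type} [Group P'] {z : P'} (hc : ∀ y, z * y = y * z) (hz : z * z = 1) (x y : P') : (z * x) * (z * y) = x * y := by
  calc (z * x) * (z * y) = z * (x * z) * y := by simp only [mul_assoc]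
    _ = z * (z * x) * y := by rw [hc x]
    _ = (z * z) * (x * y) := by simp only [mul_assoc]
    _ = x * y := by rw [hz, one_mul]

theorem five {P' : Type} [Group P'] {z A B1 B2 B3 B4 : P'} (hc : ∀ y, z * y = y * z) (hz : z * z = 1) (h1 : A * B1 * A⁻¹ = z * B1)
    (h2 : A * B2 * A⁻¹ = z * B2) (h3 : A * B3 * A⁻¹ = z * B3) (h4 : A * B4 * A⁻¹ = z * B4) :
    A * (B1 * (B2 * (B3 * B4))) * A⁻¹ = B1 * (B2 * (B3 * B4)) := by
  calc A * (B1 * (B2 * (B3 * B4))) * A⁻¹ = (A * B1 * A⁻¹) * (A * B2 * A⁻¹) * ((A * B3 * A⁻¹) * (A * B4 * A⁻¹)) := by group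
    _ = B1 * B2 * (B3 * B4) := by rw [h1, h2, h3, h4, pair_mul hc hz, pair_mul hc hz]
    _ = _ := by simp only [mul_assoc]

/-- commuting transvections have commuting lifts -/
theorem W_one {P' : Type} [Group P'] {π : P' →* GP} {f : X → P'} (h : PL π 16 nn iv g f) : ev f W0 = 1 := by
  have hr : ∀ r ∈ rulesW, ev f (r.word 16 nn) = 1 := by
    intro r hr
    have hok : (rulesW.all fun r => r.ok 16 nn iv [] (fun _ => false)) = true := by decide +kernel
    exact RR.holds h (Gv := []) (by simp) (Inj.none _ (fun _ => rfl)) (List.all_eq_true.1 hok r hr) (htW r hr)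
  have hc : ∀ y, ev f W0 * y = y * ev f W0 := h.cent (tr6 (by decide +kernel))
  have hz : ev f W0 * ev f W0 = 1 := by
    have h1 := hr _ (show (RR.csq [(1, true)] [(3, true)] : RR X) ∈ rulesW by simp [rulesW])
    rw [RR.word, ev_append] at h1
    exact h1
  have key : ∀ k b : W X, (RR.cc k [(5, true)] b [(1, true)] [(3, true)] : RR X) ∈ rulesW →
      ev f [(5, true)] * ev f b * (ev f [(5, true)])⁻¹ = ev f W0 * ev f b := by
    intro k b hm
    have h1 := hr _ hm
    rw [RR.word, ev_append, ev_winv, mul_inv_eq_one, ev_cmw, mul_inv_eq_iff_eq_mul] at h1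
    exact h1
  have k0 := key _ [(0, true)] (by
    rw [rulesW]
    exact List.mem_cons_self)
  have k1 := key _ lb1 (by
    rw [rulesW]
    exact List.mem_cons_of_mem _ List.mem_cons_self)
  have k2 := key _ lb2 (by
    rw [rulesW]
    exact List.mem_cons_of_mem _ (List.mem_cons_of_mem _ List.mem_cons_self))
  have k3 := key _ lb3 (by
    rw [rulesW]
    exact List.mem_cons_of_mem _ (List.mem_cons_of_mem _ (List.mem_cons_of_mem _ List.mem_cons_self)))
  have k4 := key _ lb4 (by
    rw [rulesW]
    exact List.mem_cons_of_mem _ (List.mem_cons_of_mem _ (List.mem_cons_of_mem _ (List.mem_cons_of_mem _ List.mem_cons_self))))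
  have k5 := five hc hz k1 k2 k3 k4
  have h6 := hr _ (show (RR.cc [] [(5, true)] [(0, true)] [(5, true)] (lb1 ++ (lb2 ++ (lb3 ++ lb4))) : RR X) ∈ rulesW by
    rw [rulesW]
    exact List.mem_cons_of_mem _ (List.mem_cons_of_mem _ (List.mem_cons_of_mem _ (List.mem_cons_of_mem _ (List.mem_cons_of_mem _ List.mem_cons_self)))))
  rw [RR.word, ev_append, ev_winv, mul_inv_eq_one, ev_cmw, ev_cmw, k0, ev_append, ev_append, ev_append, k5, mul_inv_cancel,
    mul_inv_eq_one] at h6
  exact (mul_eq_right.1 h6)

theorem hG {P' : Type} [Group P'] {π : P' →* GP} {f : X → P'} (h : PL π 16 nn iv g f)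
    (hf : ∀ x, tr' x = true → ev f (tword par uw x) = 1) : ∀ w ∈ Gv, ev f w = 1 := by
  intro w hw
  rw [Gv, List.mem_append] at hw
  rcases hw with hw | hw
  · simp only [List.mem_cons, List.not_mem_nil, or_false] at hw
    rcases hw with rfl | rfl | rfl | rfl | rfl | rfl <;> exact hf _ rfl
  · rw [List.mem_map] at hw
    obtain ⟨p, hp, rfl⟩ := hw
    have h1 := RR.holds h (Gv := []) (by simp) (S := fun _ => false) (Inj.none _ (fun _ => rfl))
      (r := .cc p.1 p.2.1 p.2.2 [(1, true)] [(3, true)]) rfl (htP p hp)
    rw [RR.word, ev_append, ev_winv, mul_inv_eq_one] at h1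
    rw [h1]
    exact W_one h

theorem noExt8 : NoExt GP 8 := by
  refine noExt_root perf_GP nn (iv := iv) (tr := tr') (par := par) (uw := uw) (g := g) (by decide) ht0 (x0 := 0) rfl g0 (by decide)
    (by decide) (by decide) (fun x hx => absurd (show true = false from hx) (by decide)) gen6 (B := 2 * 36787322880) ?_ (by rw [card_GP]; norm_num)
  intro P' _ _ π f h hf
  have hG := hG h hf
  exact chain (PL.holdsQ (C := CA) (rules := rulesA) h hG (Inj.none _ (fun _ => rfl)) rfl (by decide +kernel) htA hcA)
    (PL.holdsQ (C := CB) (rules := rulesB) h hG (Inj.none _ (fun _ => rfl)) rfl (by decide +kernel) htB hcB)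
    (PL.holdsQ (C := CC) (rules := rulesC) h hG (Inj.none _ (fun _ => rfl)) rfl (by decide +kernel) htC hcC)
    (PL.holdsQ (C := CD) (rules := rulesD) h hG (Inj.none _ (fun _ => rfl)) rfl (by decide +kernel) htD hcD)
    (PL.holdsQ (C := CE) (rules := rulesE) h hG (Inj.none _ (fun _ => rfl)) rfl (by decide +kernel) htE hcE)
end H34.MulU6
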