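import Mathlib
import Cfsg.Agent.Lib.H34.MulU6p
import Cfsg.Agent.Lib.H34.MKlein

/-! # A cover of `U₆(2)` with a four-group as kernel -/
set_option autoImplicit false
set_option maxRecDepth 100000
set_option linter.all false

namespace H34.MulU6
open Subgroup H35.Stem H35.TC H34.MK H34.U6 H40.PermCode
def u1 : W X := [(0, true), (5, true), (6, true)]
def v1 : W X := [(1, true), (4, true), (6, true), (1, true), (4, true), (5, true), (3, true), (0, true), (1, true), (4, true), (3, true), (1, true)]
def u2 : W X := [(2, true), (3, true), (4, true)]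
def v2 : W X := [(6, true), (5, true), (0, true), (1, true), (4, true), (1, true), (2, true), (6, true), (0, true), (1, true), (4, true), (5, true), (3, true), (1, true), (2, true), (0, true), (1, true), (0, true)]
theorem cc {u v : W X} (h : ∀ x : X, chp (cmw [(x, true)] (cmw u v)) = true) (x : X) :
    pp x * ev pp (cmw u v) = ev pp (cmw u v) * pp x := by
  have h1 := ptr (h x)
  rw [ev_cmw] at h1
  change pp x * 1 * _ * (pp x * 1)⁻¹ * _ = 1 at h1
  rw [mul_one, mul_inv_eq_one, mul_inv_eq_iff_eq_mul] at h1
  exact h1
theorem ex22 : ∃ (Γ : Type) (_ : Group Γ) (_ : Finite Γ) (σ : Γ →* GP), Cfsg.IsStemExtension σ ∧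
      Nonempty (σ.ker ≃* Multiplicative (ZMod 2 × ZMod 2)) := by
  refine exists_cover_klein (p := pp) (g := g) gen6 u1 v1 u2 v2 (tr6 (by decide +kernel)) (tr6 (by decide +kernel))
    ?_ ?_ ?_ ?_ ?_ (cc (by intro x; fin_cases x <;> decide +kernel)) (cc (by intro x; fin_cases x <;> decide +kernel))
    (card_E.trans (by rw [card_GP]))
  · rw [← ev_append]
    exact ptr (by decide +kernel)
  · rw [← ev_append]
    exact ptr (by decide +kernel)
  · exact ev_ne_one_of_pt (mk := 4095) (by norm_num) prep prepi (i := 0) (by norm_num) (by decide +kernel)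
  · exact ev_ne_one_of_pt (mk := 4095) (by norm_num) prep prepi (i := 0) (by norm_num) (by decide +kernel)
  · intro h
    have h1 : ev pp (cmw u1 v1 ++ winv (cmw u2 v2)) = 1 := by
      rw [ev_append, ev_winv, h, mul_inv_cancel]
    exact ev_ne_one_of_pt (mk := 4095) (by norm_num) prep prepi (i := 0) (by norm_num) (by decide +kernel) h1
end H34.MulU6
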