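import Mathlib
import Cfsg.Agent.Lib.H34.MulU6a
import Cfsg.Agent.Lib.H34.MulU6b
import Cfsg.Agent.Lib.H34.MulU6q
import Cfsg.Agent.Lib.H34.MFin
import Cfsg.Agent.Lib.H40.StemFibre
import Cfsg.Agent.Lib.H7.UnitSU

/-!
# The multiplier of `U₆(2)`
-/

set_option autoImplicit false
set_option maxHeartbeats 400000

namespace H34.MulU6

open H17 H34.U6 H34.U62 H35.Stem H34.MK H40.StemFibre

/-- `SU₆(2)` is a triple cover -/
theorem ex3 : ∃ (Γ : Type) (_ : Group Γ) (_ : Finite Γ) (σ : Γ →* GP), Cfsg.IsStemExtension σ ∧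
      Nonempty (σ.ker ≃* Multiplicative (ZMod 3)) := by
  have hc : Nat.card (QuotientGroup.mk' (Subgroup.center S)).ker = 3 := by
    rw [QuotientGroup.ker_mk', H7.UnitSU.card_center (K := F4) (q := 2) (n := 6) (by rw [hK]; rfl) (by norm_num)]
    decide
  refine ⟨S, inferInstance, inferInstance, QuotientGroup.mk' (Subgroup.center S), ⟨QuotientGroup.mk'_surjective _, ?_, ?_⟩, ⟨?_⟩⟩
  · rw [QuotientGroup.ker_mk']
  · rw [perfS]
    exact le_top
  · have : Fact (Nat.Prime 3) := ⟨Nat.prime_three⟩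
    have c3 : IsCyclic (QuotientGroup.mk' (Subgroup.center S)).ker := isCyclic_of_prime_card hc
    exact mulEquivOfCyclicCardEq (by
      rw [hc, Nat.card_congr Multiplicative.toAdd, Nat.card_zmod])

theorem ex12 : ∃ (Γ : Type) (_ : Group Γ) (_ : Finite Γ) (σ : Γ →* GP), Cfsg.IsStemExtension σ ∧
      Nonempty (σ.ker ≃* Multiplicative (ZMod 3 × ZMod 2 × ZMod 2)) := by
  obtain ⟨Γ3, _, _, σ3, hσ3, ⟨e3⟩⟩ := ex3
  obtain ⟨Γ2, _, _, σ2, hσ2, ⟨e2⟩⟩ := ex22
  have c3 : Nat.card σ3.ker = 3 := by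
    rw [Nat.card_congr e3.toEquiv, Nat.card_congr Multiplicative.toAdd, Nat.card_zmod]
  have c2 : Nat.card σ2.ker = 4 := by
    rw [Nat.card_congr e2.toEquiv, Nat.card_congr Multiplicative.toAdd, Nat.card_prod, Nat.card_zmod]
  obtain ⟨hst, ⟨f⟩⟩ := isStem_fib hσ3 hσ2 (by rw [c3, c2]; decide)
  exact ⟨_, inferInstance, inferInstance, fibMap σ3 σ2, hst,
    ⟨f.trans ((e3.prodCongr e2).trans (MulEquiv.prodMultiplicative (ZMod 3) (ZMod 2 × ZMod 2)).symm)⟩⟩

theorem mult : Cfsg.HasSchurMultiplier GP (Multiplicative (ZMod 3 × ZMod 2 × ZMod 2)) := by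
  have hA : Nat.card (Multiplicative (ZMod 3 × ZMod 2 × ZMod 2)) = 12 := by
    rw [Nat.card_congr Multiplicative.toAdd, Nat.card_prod, Nat.card_prod, Nat.card_zmod, Nat.card_zmod]
  refine hasMult_list perf_GP ex12 [(2, 15), (3, 6), (5, 1), (7, 1), (11, 1)] (by decide +kernel) (by rw [card_GP]; norm_num) ?_
  intro a ha
  fin_cases ha
  · exact Or.inr ⟨2, noExt8, by rw [hA]; norm_num⟩
  · exact Or.inr ⟨1, H34.MulU6o.noExt9, by rw [hA]; norm_num⟩
  · exact Or.inl (by rw [card_GP]; norm_num)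
  · exact Or.inl (by rw [card_GP]; norm_num)
  · exact Or.inl (by rw [card_GP]; norm_num)

end H34.MulU6
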