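import Mathlib
import Cfsg.Agent.Lib.H34.MCode
import Cfsg.Agent.Lib.H16.SympTransv
import Cfsg.Agent.Lib.H6.SympCard
import Cfsg.Agent.Lib.H6.SympPerfect
import Cfsg.Agent.Lib.H6.SmallIsoC

/-!
# `Sp₆(2)`: seven generating transvections, codes of the action on the 64 vectors
-/

set_option autoImplicit false
set_option maxHeartbeats 400000
set_option maxRecDepth 100000

namespace H34.Sp6

open Matrix H16.Symp H16.SympTransv H40.PermCode H35.Stem H34.MK Cfsg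

instance : Fact (Nat.Prime 2) := ⟨Nat.prime_two⟩

abbrev V := Fin 3 ⊕ Fin 3 → ZMod 2
abbrev S := symplecticGroup (Fin 3) (ZMod 2)

/-- the action on vectors -/
def act : S →* Equiv.Perm V where
  toFun A := ⟨fun v => A.1 *ᵥ v, fun v => (A⁻¹).1 *ᵥ v, fun v => inv_mulVec_coe A rfl, fun v => by
    have := inv_mulVec_coe A⁻¹ (x := v) rfl
    rwa [inv_inv] at this⟩
  map_one' := by
    ext1 v
    exact one_mulVec_coe v
  map_mul' A B := by
    ext1 v
    exact mulVec_mul_coe A B v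

theorem act_inj : Function.Injective act := by
  intro A B h
  apply Subtype.ext
  apply mat_ext_single
  intro j
  exact congrArg (fun p : Equiv.Perm V => p (Pi.single j 1)) h

def ix (v : V) : ℕ := (v (Sum.inl 0)).val + 2 * (v (Sum.inl 1)).val + 4 * (v (Sum.inl 2)).val +
  8 * (v (Sum.inr 0)).val + 16 * (v (Sum.inr 1)).val + 32 * (v (Sum.inr 2)).val
def vt (n : ℕ) : V := Sum.elim ![((n % 2 : ℕ) : ZMod 2), ((n / 2 % 2 : ℕ) : ZMod 2), ((n / 4 % 2 : ℕ) : ZMod 2)]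
  ![((n / 8 % 2 : ℕ) : ZMod 2), ((n / 16 % 2 : ℕ) : ZMod 2), ((n / 32 % 2 : ℕ) : ZMod 2)]

def E64 : Coding V 64 where
  idx := ix
  pt := vt
  idx_lt := by decide +kernel
  pt_idx := by decide +kernel
  idx_pt := by decide +kernel

def uv : Fin 7 → V := ![vt 16, vt 34, vt 4, vt 32, vt 24, vt 1, vt 8]

/-- the generators -/
def g (x : Fin 7) : S := tv (uv x) 1

theorem act_apply (A : S) (v : V) : act A v = A.1 *ᵥ v := rfl

theorem act_tv (u v : V) (c : ZMod 2) : act (tv u c) v = v + (c * sympForm 3 (ZMod 2) v u) • u := by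
  rw [act_apply, coe_tv]
  exact sympTransvection_mulVec u c v

/-- codes of the generators -/
def code : Fin 7 → ℕ := ![0xbeef7caeae789e6d748e2c70ffeb6cefaa68df6964cf28603ce75c2ca6581c65540c24507de34c6da2485d61444d2040, 0xffef7c6586dadf6d744504d234c3ceaeaa681441c68e28607de75ce78efa5d6554c70cf2b6cbee2ca2489649e60c2040, 0xefae78ffef7ccf2c70df6d74aeaa68beeb6c8e28609e69647de75c6da6585d65544d24503ce34c2ca2481c61440c2040, 0x7de75cefae785d6554cf2c703ce34caeaa681c61448e2860ffef7c6da658df6d744d2450beeb6c2ca2489e69640c2040, 0xfe697cee2878deeb74ceaa70bf6d6caf2c689fef648fae607c615c6c20585ce3544ca2503d654c2d24481de7440da640, 0xfbff3debbe39df6d74cf2c70bafb2daaba299e69648e286079f71d69b6195d65544d245038f30d28b2091c61440c2040, 0xdfed7ccfac78ff6f74ef2e709ee96c8ea868be6b64ae2a605de55c4da4587d67546d26501ce14c0ca0483c63442c2240]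

theorem okk : ∀ x, okc 6 64 (code x) (code x) = true := by intro x; fin_cases x <;> decide +kernel

theorem rep_c (x : Fin 7) : Rep E64 6 (act (g x)) (code x) := by
  have h : ∀ x : Fin 7, ∀ v : V, ix (v + (1 * sympForm 3 (ZMod 2) v (uv x)) • uv x) = tab 6 (code x) (ix v) := by
    intro x; fin_cases x <;> decide +kernel
  intro v
  change ix (act (tv (uv x) 1) v) = _
  rw [act_tv]
  exact h x v

theorem rep_ci (x : Fin 7) : Rep E64 6 (act (g x))⁻¹ (code x) := rep_inv_self (rep_c x) (okk x)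

theorem tr {w : W (Fin 7)} (h : isOne 6 64 (evc 6 64 code code w) = true) : ev g w = 1 :=
  ev_one_of_inj (by norm_num) act_inj rep_c rep_ci h

/-- paths to all vectors -/
def path : Fin 64 → List (Fin 7) := ![[], [4, 5, 1, 4, 0, 1], [4, 5, 6, 1, 4, 5, 2, 1, 4, 3, 2, 1], [0, 1, 4, 5, 2, 1, 4, 3, 2, 1], [1, 2, 0, 1], [6, 5, 1, 4, 2, 1], [3, 2, 0, 1], [6, 5, 4, 3, 2, 1], [5, 6, 4, 5, 1, 4, 0, 1], [6, 4, 5, 1, 4, 0, 1], [5, 6, 0, 1, 4, 5, 2, 1, 4, 3, 2, 1], [6, 0, 1, 4, 5, 2, 1, 4, 3, 2, 1], [1, 4, 2, 1], [5, 1, 4, 2, 1], [4, 3, 2, 1], [5, 4, 3, 2, 1], [], [6, 5, 1, 4, 0, 1], [4, 5, 6, 0, 1, 4, 5, 2, 1, 4, 3, 2, 1], [1, 4, 5, 2, 1, 4, 3, 2, 1], [3, 2, 1, 4, 5, 6, 0, 1, 4, 5, 2, 1, 4, 3, 2, 1], [4, 5, 1, 4, 2, 1], [3, 2, 1], [6, 5, 4, 3, 2, 0, 1], [1, 4, 0, 1], [5, 1, 4, 0, 1], [5, 6, 1, 4, 5, 2, 1, 4, 3, 2, 1], [6, 1, 4, 5, 2, 1, 4, 3, 2, 1], [5, 6, 4, 5, 1, 4, 2, 1], [6, 4, 5, 1, 4, 2, 1], [4, 3, 2, 0,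 1], [5, 4, 3, 2, 0, 1], [2, 3, 1, 2, 0, 1], [6, 5, 2, 1, 4, 3, 2, 1], [0, 1], [6, 5, 4, 1], [3, 1, 2, 0, 1], [6, 5, 1, 4, 3, 2, 1], [2, 0, 1], [6, 5, 4, 2, 1], [2, 1, 4, 3, 2, 1], [5, 2, 1, 4, 3, 2, 1], [4, 1], [5, 4, 1], [1, 4, 3, 2, 1], [5, 1, 4, 3, 2, 1], [4, 2, 1], [5, 4, 2, 1], [1, 4, 5, 6, 0, 1, 4, 5, 2, 1, 4, 3, 2, 1], [4, 5, 2, 1, 4, 3, 2, 1], [1], [6, 5, 4, 0, 1], [2, 1, 4, 5, 6, 0, 1, 4, 5, 2, 1, 4, 3, 2, 1], [4, 5, 1, 4, 3, 2, 1], [2, 1], [6, 5, 4, 2, 0, 1], [5, 6, 4, 5, 2, 1, 4, 3, 2, 1], [6, 4, 5, 2, 1, 4, 3, 2, 1], [4, 0, 1], [5, 4, 0, 1], [5, 6, 4, 5, 1, 4, 3, 2, 1], [6, 4, 5, 1, 4, 3, 2, 1], [4, 2, 0, 1], [5, 4, 2, 0, 1]]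

def tvx (x : Fin 7) (v : V) : V := v + (1 * sympForm 3 (ZMod 2) v (uv x)) • uv x

theorem path_spec : ∀ v : V, v ≠ 0 → (path (Fin.ofNat 64 (ix v))).foldr tvx (uv 0) = v := by decide +kernel

theorem gen : Subgroup.closure (Set.range g) = ⊤ := by
  set K := Subgroup.closure (Set.range g) with hK
  have hg : ∀ x, g x ∈ K := fun x => Subgroup.subset_closure ⟨x, rfl⟩
  have hstep : ∀ (x : Fin 7) (v : V), tv v 1 ∈ K → tv (tvx x v) 1 ∈ K := by
    intro x v hv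
    have h1 : g x * tv v 1 * (g x)⁻¹ = tv (tvx x v) 1 := by
      rw [mul_inv_eq_iff_eq_mul]
      apply Subtype.ext
      have h2 := mul_sympTransvection (g x).1 (g x).2 v 1
      have h3 : (g x).1 *ᵥ v = tvx x v := sympTransvection_mulVec (uv x) 1 v
      rw [h3] at h2
      exact h2
    rw [← h1]
    exact K.mul_mem (K.mul_mem (hg x) hv) (K.inv_mem (hg x))
  have hall : ∀ l : List (Fin 7), tv (l.foldr tvx (uv 0)) 1 ∈ K := by
    intro l
    induction l with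
    | nil => exact hg 0
    | cons x l ih => exact hstep x _ ih
  have hv : ∀ v : V, v ≠ 0 → tv v 1 ∈ K := by
    intro v hv
    rw [← path_spec v hv]
    exact hall _
  rw [eq_top_iff, ← tvGroup_eq_top, tvGroup, Subgroup.closure_le]
  rintro _ ⟨w, _, c, rfl⟩
  have h0 : ∀ (w : V) (c : ZMod 2), w = 0 ∨ c = 0 → tv w c = 1 := by
    intro w c h
    apply act_inj
    ext1 y
    rw [act_tv, map_one]
    rcases h with h | h
    · rw [h]; simp
    · rw [h]; simp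
  by_cases hw : w = 0
  · rw [h0 w c (Or.inl hw)]; exact K.one_mem
  · have hc : c = 0 ∨ c = 1 := by revert c; decide
    rcases hc with hc | hc
    · rw [h0 w c (Or.inr hc)]; exact K.one_mem
    · rw [hc]; exact hv w hw

theorem card_S : Nat.card S = 1451520 := by
  rw [H6.SympCard.card_symplecticGroup, Nat.card_zmod, Fintype.card_fin]
  decide

theorem perf : commutator S = ⊤ := H6.SympPerfect.commutator_eq_top (Or.inl (by simp))

instance : Finite S := Nat.finite_of_card_ne_zero (by rw [card_S]; norm_num)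

theorem center_S : Subgroup.center S = ⊥ := by
  rw [Subgroup.eq_bot_iff_forall]
  intro A hA
  obtain ⟨c, hc, h⟩ := H6.SympPerfect.mem_center_iff.1 hA
  apply act_inj
  ext1 v
  rw [act_apply, h v, map_one]
  have h2 : ∀ c : ZMod 2, c ^ 2 = 1 → c = 1 := by decide
  rw [h2 c hc, one_smul]
  rfl

/-- `PSp₆` over any field with two elements -/
theorem iso {F : Type*} [Field F] [Fintype F] (hF : Fintype.card F = 2) : Nonempty (PSp 3 F ≃* S) := by
  have e0 : F ≃+* ZMod 2 := FiniteField.ringEquivOfCardEq (by rw [hF]; rfl)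
  let e : symplecticGroup (Fin 3) F ≃* S := H6.SmallIsoC.spCongr e0
  have hc : Subgroup.center (symplecticGroup (Fin 3) F) = ⊥ := by
    rw [Subgroup.eq_bot_iff_forall]
    intro z hz
    have h1 : e z ∈ Subgroup.center S := by
      rw [Subgroup.mem_center_iff]
      intro y
      have h2 := Subgroup.mem_center_iff.1 hz (e.symm y)
      have h3 := congrArg e h2
      simpa using h3
    rw [center_S, Subgroup.mem_bot] at h1
    exact e.injective (by rw [h1, map_one])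
  exact ⟨((QuotientGroup.quotientMulEquivOfEq hc).trans QuotientGroup.quotientBot).trans e⟩

end H34.Sp6
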