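import Cfsg.Agent.Lib.H34.SpWDefs

/-!
# S5707: quadratic form facts in characteristic 2
-/

set_option autoImplicit false
set_option linter.all false

namespace H34.SpW

open Matrix Cfsg.Geo

variable {F : Type*} [Field F] {ι : Type} [Fintype ι] [DecidableEq ι]

theorem two_v (h2 : (2 : F) = 0) {V : Type*} [AddCommGroup V] [Module F V] (v : V) : v + v = 0 := by
  rw [← two_smul F v, h2, zero_smul]

theorem neg_v (h2 : (2 : F) = 0) {V : Type*} [AddCommGroup V] [Module F V] (v : V) : -v = v :=
  neg_eq_of_add_eq_zero_left (two_v h2 v)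

section
variable {Q : (ι → F) → F} (hQ : IsNondegenerateQuadraticForm Q)

theorem Q_add (Q : (ι → F) → F) (u v : ι → F) : Q (u + v) = Q u + Q v + QuadraticMap.polar Q u v := by
  unfold QuadraticMap.polar; ring

include hQ

theorem Q_zero : Q 0 = 0 := by
  have := hQ.smul 0 0
  simpa using this

theorem B_self (h2 : (2 : F) = 0) (v : ι → F) : QuadraticMap.polar Q v v = 0 := by
  unfold QuadraticMap.polar
  rw [two_v h2 v, Q_zero hQ]
  linear_combination (-(Q v)) * h2

/-- double span induction for the polar form -/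
theorem B_adj {R : Set (ι → F)} (hR : Submodule.span F R = ⊤) (M N : Matrix ι ι F)
    (h : ∀ r ∈ R, ∀ s ∈ R, QuadraticMap.polar Q (M *ᵥ r) s = QuadraticMap.polar Q r (N *ᵥ s)) :
    ∀ u v, QuadraticMap.polar Q (M *ᵥ u) v = QuadraticMap.polar Q u (N *ᵥ v) := by
  have hB := hQ.polar_bilinear
  have z1 : ∀ v, QuadraticMap.polar Q 0 v = 0 := by
    intro v
    have := hB.smul_left 0 0 v
    simpa using this
  have z2 : ∀ v, QuadraticMap.polar Q v 0 = 0 := by
    intro v
    have := hB.smul_right 0 v 0
    simpa using this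
  have step1 : ∀ r ∈ R, ∀ v, QuadraticMap.polar Q (M *ᵥ r) v = QuadraticMap.polar Q r (N *ᵥ v) := by
    intro r hr v
    have hv : v ∈ Submodule.span F R := by rw [hR]; trivial
    induction hv using Submodule.span_induction with
    | mem s hs => exact h r hr s hs
    | zero => rw [mulVec_zero, z2, z2]
    | add a b _ _ ha hb => rw [hB.add_right, ha, hb, mulVec_add, hB.add_right]
    | smul c a _ ha => rw [hB.smul_right, ha, mulVec_smul, hB.smul_right]
  intro u v
  have hu : u ∈ Submodule.span F R := by rw [hR]; trivial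
  induction hu using Submodule.span_induction with
  | mem s hs => exact step1 s hs v
  | zero => rw [mulVec_zero, z1, z1]
  | add a b _ _ ha hb => rw [mulVec_add, hB.add_left, ha, hb, hB.add_left]
  | smul c a _ ha => rw [mulVec_smul, hB.smul_left, ha, hB.smul_left]

theorem iso_of {R : Set (ι → F)} (hR : Submodule.span F R = ⊤) (M : Matrix ι ι F)
    (h1 : ∀ r ∈ R, Q (M *ᵥ r) = Q r)
    (h3 : ∀ u v, QuadraticMap.polar Q (M *ᵥ u) (M *ᵥ v) = QuadraticMap.polar Q u v) : ∀ v, Q (M *ᵥ v) = Q v := by
  intro v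
  have hv : v ∈ Submodule.span F R := by rw [hR]; trivial
  induction hv using Submodule.span_induction with
  | mem s hs => exact h1 s hs
  | zero => rw [mulVec_zero]
  | add a b _ _ ha hb => rw [mulVec_add, Q_add Q, Q_add Q, ha, hb, h3]
  | smul c a _ ha => rw [mulVec_smul, hQ.smul, hQ.smul, ha]

/-- `1 + Z` with `Z` self-adjoint and `Z² = 0` preserves the polar form -/
theorem B_one_add (h2 : (2 : F) = 0) (Z : Matrix ι ι F) (hZ : Z * Z = 0)
    (hadj : ∀ u v, QuadraticMap.polar Q (Z *ᵥ u) v = QuadraticMap.polar Q u (Z *ᵥ v)) (u v : ι → F) :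
    QuadraticMap.polar Q ((1 + Z) *ᵥ u) ((1 + Z) *ᵥ v) = QuadraticMap.polar Q u v := by
  have hB := hQ.polar_bilinear
  have z2 : ∀ v, QuadraticMap.polar Q v 0 = 0 := by
    intro v
    have := hB.smul_right 0 v 0
    simpa using this
  rw [add_mulVec, add_mulVec, one_mulVec, one_mulVec, hB.add_left, hB.add_right, hB.add_right, hadj u v, hadj u (Z *ᵥ v),
    mulVec_mulVec, hZ, zero_mulVec, z2]
  linear_combination (QuadraticMap.polar Q u (Z *ᵥ v)) * h2

end

/-- the transformation `u_{x,y}` -/
def N (Q : (ι → F) → F) (x y w : ι → F) : ι → F := w + (QuadraticMap.polar Q w x • y + QuadraticMap.polar Q w y • x)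

theorem N_iso {Q : (ι → F) → F} (hQ : IsNondegenerateQuadraticForm Q) (h2 : (2 : F) = 0) {x y : ι → F} (hx : Q x = 0) (hy : Q y = 0)
    (hxy : QuadraticMap.polar Q x y = 0) (w : ι → F) : Q (N Q x y w) = Q w := by
  have hB := hQ.polar_bilinear
  have hyx : QuadraticMap.polar Q y x = 0 := by rw [QuadraticMap.polar_comm]; exact hxy
  unfold N
  rw [Q_add Q, Q_add Q, hQ.smul, hQ.smul, hx, hy, hB.add_right, hB.smul_right, hB.smul_right, hB.smul_left, hB.smul_right, hyx]
  linear_combination (QuadraticMap.polar Q w x * QuadraticMap.polar Q w y) * h2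

theorem N_comm {Q : (ι → F) → F} (hQ : IsNondegenerateQuadraticForm Q) (h2 : (2 : F) = 0) {x y v z : ι → F}
    (hxy : QuadraticMap.polar Q x y = 0) (hxv : QuadraticMap.polar Q x v = 0) (hxz : QuadraticMap.polar Q x z = 0)
    (hyv : QuadraticMap.polar Q y v = 0) (hyz : QuadraticMap.polar Q y z = 0) (w : ι → F) :
    N Q y z (N Q x v (N Q y z (N Q x v w))) = N Q x (QuadraticMap.polar Q v z • y) w := by
  have hB := hQ.polar_bilinear
  have c1 := fun u w : ι → F => QuadraticMap.polar_comm Q u w
  have hyx : QuadraticMap.polar Q y x = 0 := by rw [c1]; exact hxy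
  have hvx : QuadraticMap.polar Q v x = 0 := by rw [c1]; exact hxv
  have hzx : QuadraticMap.polar Q z x = 0 := by rw [c1]; exact hxz
  have hvy : QuadraticMap.polar Q v y = 0 := by rw [c1]; exact hyv
  have hzy : QuadraticMap.polar Q z y = 0 := by rw [c1]; exact hyz
  have hzv : QuadraticMap.polar Q z v = QuadraticMap.polar Q v z := c1 _ _
  have hxx := B_self hQ h2 x
  have hyy := B_self hQ h2 y
  have hvv := B_self hQ h2 v
  have hzz := B_self hQ h2 z
  funext i
  simp only [N, hB.add_left, hB.smul_left, hB.smul_right, hxy, hxv, hxz, hyv, hyz, hyx, hvx, hzx, hvy, hzy, hzv, hxx, hyy, hvv, hzz,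
    Pi.add_apply, Pi.smul_apply, smul_eq_mul, mul_zero, add_zero, zero_add]
  generalize QuadraticMap.polar Q w x = a
  generalize QuadraticMap.polar Q w y = b
  generalize QuadraticMap.polar Q w v = c
  generalize QuadraticMap.polar Q w z = d
  generalize QuadraticMap.polar Q v z = m
  linear_combination (a * v i + c * x i + b * z i + d * y i + a * m * y i) * h2

end H34.SpW
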