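import Cfsg.Agent.Lib.H34.SpWA

/-!
# S5707: the Clifford space and its normaliser
-/

set_option autoImplicit false
set_option linter.all false

namespace H34.SpW

open Matrix Cfsg.Geo

variable {F : Type*} [Field F] {ι : Type} [Fintype ι] [DecidableEq ι]
variable {k t : ℕ} {Q : (ι → F) → F} {f : (Fin k → F) → (Fin k → F) → F} {H : Subgroup (GL ι F)}

/-- the Clifford space -/
def W (S : TS k t Q f H) (D : KD k t f) : Submodule F (Matrix ι ι F) :=
  Submodule.span F {Y | ∃ i, ∃ X ∈ D.Wk, Y = S.φ i X}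

theorem ext_T (S : TS k t Q f H) (M N : Matrix ι ι F) (h : ∀ x, M *ᵥ S.T x = N *ᵥ S.T x) : M = N := by
  have key : M.mulVecLin = N.mulVecLin := by
    refine LinearMap.ext_on S.span ?_
    rintro _ ⟨x, rfl⟩
    exact h x
  exact Matrix.mulVec_injective (by
    funext v
    exact congrArg (fun l : (ι → F) →ₗ[F] (ι → F) => l v) key)

theorem φ_comm (S : TS k t Q f H) {i j : Fin t} (hij : i ≠ j) (X Y : Matrix (Fin k) (Fin k) F) :
    S.φ i X * S.φ j Y = S.φ j Y * S.φ i X := by
  apply ext_T S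
  intro x
  rw [← mulVec_mulVec, ← mulVec_mulVec, S.hφ, S.hφ, S.hφ, S.hφ, Function.update_of_ne hij, Function.update_of_ne hij.symm,
    Function.update_comm hij]

theorem mem_W (S : TS k t Q f H) (D : KD k t f) (i : Fin t) {X : Matrix (Fin k) (Fin k) F} (hX : X ∈ D.Wk) : S.φ i X ∈ W S D :=
  Submodule.subset_span ⟨i, X, hX, rfl⟩

theorem W_one (S : TS k t Q f H) (D : KD k t f) : (1 : Matrix ι ι F) ∈ W S D := by
  have := mem_W S D D.i₀ D.one
  rwa [map_one] at this

theorem W_anti (h2 : (2 : F) = 0) (S : TS k t Q f H) (D : KD k t f) {x y : Matrix ι ι F} (hx : x ∈ W S D) (hy : y ∈ W S D) :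
    ∃ a : F, x * y + y * x = a • (1 : Matrix ι ι F) := by
  unfold W at hx hy
  induction hx using Submodule.span_induction with
  | mem x hx =>
    obtain ⟨i, X, hX, rfl⟩ := hx
    induction hy using Submodule.span_induction with
    | mem y hy =>
      obtain ⟨j, Y, hY, rfl⟩ := hy
      by_cases hij : i = j
      · subst hij
        obtain ⟨a, ha⟩ := D.sq _ (D.Wk.add_mem hX hY)
        obtain ⟨b, hb⟩ := D.sq _ hX
        obtain ⟨c, hc⟩ := D.sq _ hY
        refine ⟨a - b - c, ?_⟩
        have e1 : X * Y + Y * X = (a - b - c) • (1 : Matrix (Fin k) (Fin k) F) := by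
          rw [sub_smul, sub_smul, ← ha, ← hb, ← hc]
          noncomm_ring
        rw [← map_mul, ← map_mul, ← map_add, e1, map_smul, map_one]
      · refine ⟨0, ?_⟩
        rw [φ_comm S hij, zero_smul]
        exact two_v h2 _
    | zero => exact ⟨0, by simp⟩
    | add y z _ _ h1 h3 =>
      obtain ⟨a, ha⟩ := h1
      obtain ⟨b, hb⟩ := h3
      refine ⟨a + b, ?_⟩
      rw [add_smul, ← ha, ← hb]
      noncomm_ring
    | smul c y _ h1 =>
      obtain ⟨a, ha⟩ := h1
      refine ⟨c * a, ?_⟩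
      rw [mul_smul, ← ha, smul_add, mul_smul_comm, smul_mul_assoc]
  | zero => exact ⟨0, by simp⟩
  | add x z _ _ h1 h3 =>
    obtain ⟨a, ha⟩ := h1
    obtain ⟨b, hb⟩ := h3
    refine ⟨a + b, ?_⟩
    rw [add_smul, ← ha, ← hb]
    noncomm_ring
  | smul c x _ h1 =>
    obtain ⟨a, ha⟩ := h1
    refine ⟨c * a, ?_⟩
    rw [mul_smul, ← ha, smul_add, mul_smul_comm, smul_mul_assoc]

theorem W_sq (h2 : (2 : F) = 0) (S : TS k t Q f H) (D : KD k t f) {x : Matrix ι ι F} (hx : x ∈ W S D) :
    ∃ a : F, x * x = a • (1 : Matrix ι ι F) := by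
  have hx' := hx
  unfold W at hx
  induction hx using Submodule.span_induction with
  | mem x hx =>
    obtain ⟨i, X, hX, rfl⟩ := hx
    obtain ⟨b, hb⟩ := D.sq _ hX
    exact ⟨b, by rw [← map_mul, hb, map_smul, map_one]⟩
  | zero => exact ⟨0, by simp⟩
  | add x z hx hz h1 h3 =>
    obtain ⟨a, ha⟩ := h1 hx
    obtain ⟨b, hb⟩ := h3 hz
    obtain ⟨c, hc⟩ := W_anti h2 S D hx hz
    refine ⟨a + b + c, ?_⟩
    rw [add_smul, add_smul, ← ha, ← hb, ← hc]
    noncomm_ring
  | smul c x hx h1 =>
    obtain ⟨a, ha⟩ := h1 hx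
    refine ⟨c * c * a, ?_⟩
    rw [smul_mul_smul_comm, ha, smul_smul]

/-- the normaliser of the Clifford space -/
def NW (S : TS k t Q f H) (D : KD k t f) : Subgroup (GL ι F) where
  carrier := {g | (∀ X ∈ W S D, (g : Matrix ι ι F) * X * ((g⁻¹ : GL ι F) : Matrix ι ι F) ∈ W S D) ∧
    (∀ X ∈ W S D, ((g⁻¹ : GL ι F) : Matrix ι ι F) * X * (g : Matrix ι ι F) ∈ W S D)}
  mul_mem' {a b} ha hb := by
    constructor
    · intro X hX
      have := ha.1 _ (hb.1 X hX)
      rw [_root_.mul_inv_rev, Units.val_mul, Units.val_mul]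
      simpa only [mul_assoc] using this
    · intro X hX
      have := hb.2 _ (ha.2 X hX)
      rw [_root_.mul_inv_rev, Units.val_mul, Units.val_mul]
      simpa only [mul_assoc] using this
  one_mem' := by
    constructor <;> intro X hX <;> simpa using hX
  inv_mem' {a} ha := by
    constructor
    · intro X hX
      have := ha.2 X hX
      rwa [inv_inv]
    · intro X hX
      have := ha.1 X hX
      rwa [inv_inv]

/-- the unit of an involution -/
def unit (w : Matrix ι ι F) (hw : w * w = 1) : GL ι F := ⟨w, w, hw, hw⟩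

theorem unit_mem (h2 : (2 : F) = 0) (S : TS k t Q f H) (D : KD k t f) {w : Matrix ι ι F} (hw : w ∈ W S D) (hww : w * w = 1) :
    unit w hww ∈ NW S D := by
  have key : ∀ X ∈ W S D, w * X * w ∈ W S D := by
    intro X hX
    obtain ⟨a, ha⟩ := W_anti h2 S D hw hX
    have e1 : w * X * w = a • w - X := by
      have e2 : w * X = a • (1 : Matrix ι ι F) - X * w := by rw [← ha]; noncomm_ring
      rw [e2, sub_mul, smul_mul_assoc, one_mul, mul_assoc, hww, mul_one]
    rw [e1]
    exact Submodule.sub_mem _ (Submodule.smul_mem _ _ hw) hX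
  exact ⟨key, key⟩

theorem iso_polar {g : GL ι F} (hg : g ∈ Cfsg.isometryGroup F Q) (u v : ι → F) :
    QuadraticMap.polar Q ((g : Matrix ι ι F) *ᵥ u) ((g : Matrix ι ι F) *ᵥ v) = QuadraticMap.polar Q u v := by
  have h1 : ∀ u, Q ((g : Matrix ι ι F) *ᵥ u) = Q u := fun u => hg u u
  unfold QuadraticMap.polar
  rw [← mulVec_add, h1, h1, h1]

theorem similar (S : TS k t Q f H) (D : KD k t f) {A : Fin t → GL (Fin k) F} {σ : Equiv.Perm (Fin t)}
    (h : ∀ x y : Fin t → Fin k → F, ∏ l, f ((A l : Matrix (Fin k) (Fin k) F) *ᵥ x (σ l)) ((A l : Matrix (Fin k) (Fin k) F) *ᵥ y (σ l)) =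
      ∏ l, f (x l) (y l)) (j : Fin t) :
    ∃ c : F, c ≠ 0 ∧ ∀ u v, f ((A j : Matrix (Fin k) (Fin k) F) *ᵥ u) ((A j : Matrix (Fin k) (Fin k) F) *ᵥ v) = c * f u v := by
  let d : F := ∏ l ∈ Finset.univ.erase j, f ((A l : Matrix (Fin k) (Fin k) F) *ᵥ D.p) ((A l : Matrix (Fin k) (Fin k) F) *ᵥ D.a)
  have key : ∀ u v, f ((A j : Matrix (Fin k) (Fin k) F) *ᵥ u) ((A j : Matrix (Fin k) (Fin k) F) *ᵥ v) * d = f u v := by
    intro u v
    have h1 := h (Function.update (fun _ => D.p) (σ j) u) (Function.update (fun _ => D.a) (σ j) v)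
    rw [← Finset.mul_prod_erase _ _ (Finset.mem_univ j), ← Finset.mul_prod_erase _ (fun l => f (Function.update (fun _ => D.p) (σ j) u l)
      (Function.update (fun _ => D.a) (σ j) v l)) (Finset.mem_univ (σ j)), Function.update_self, Function.update_self] at h1
    have e1 : ∏ l ∈ Finset.univ.erase (σ j), f (Function.update (fun _ => D.p) (σ j) u l) (Function.update (fun _ => D.a) (σ j) v l) = 1 := by
      apply Finset.prod_eq_one
      intro l hl
      rw [Function.update_of_ne (Finset.ne_of_mem_erase hl), Function.update_of_ne (Finset.ne_of_mem_erase hl), D.fpa]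
    have e2 : ∏ l ∈ Finset.univ.erase j, f ((A l : Matrix (Fin k) (Fin k) F) *ᵥ Function.update (fun _ => D.p) (σ j) u (σ l))
        ((A l : Matrix (Fin k) (Fin k) F) *ᵥ Function.update (fun _ => D.a) (σ j) v (σ l)) = d := by
      apply Finset.prod_congr rfl
      intro l hl
      have hne : σ l ≠ σ j := fun e => Finset.ne_of_mem_erase hl (σ.injective e)
      rw [Function.update_of_ne hne, Function.update_of_ne hne]
    rw [e1, e2, mul_one] at h1
    exact h1
  have hd : d ≠ 0 := by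
    intro h0
    have := key D.p D.a
    rw [h0, mul_zero, D.fpa] at this
    exact zero_ne_one this
  refine ⟨d⁻¹, inv_ne_zero hd, fun u v => ?_⟩
  rw [← key u v]
  field_simp

theorem tw_mem (S : TS k t Q f H) (D : KD k t f) {g : GL ι F} (hg : g ∈ H) (hi : g ∈ Cfsg.isometryGroup F Q) : g ∈ NW S D := by
  have key : ∀ g ∈ H, g ∈ Cfsg.isometryGroup F Q → ∀ X ∈ W S D, (g : Matrix ι ι F) * X * ((g⁻¹ : GL ι F) : Matrix ι ι F) ∈ W S D := by
    intro g hg hi X hX
    obtain ⟨A, σ, hA⟩ := S.wr g hg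
    have hsim : ∀ x y : Fin t → Fin k → F, ∏ l, f ((A l : Matrix (Fin k) (Fin k) F) *ᵥ x (σ l)) ((A l : Matrix (Fin k) (Fin k) F) *ᵥ y (σ l)) =
        ∏ l, f (x l) (y l) := by
      intro x y
      have h1 := iso_polar hi (S.T x) (S.T y)
      rw [hA, hA, S.pol, S.pol] at h1
      exact mul_left_cancel₀ S.hc h1
    unfold W at hX
    induction hX using Submodule.span_induction with
    | mem X hX =>
      obtain ⟨i, X, hX, rfl⟩ := hX
      obtain ⟨j, rfl⟩ := σ.surjective i
      obtain ⟨c, hc, hcs⟩ := similar S D hsim j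
      have h1 := mem_W S D j (D.sim (A j) c hc hcs X hX)
      have e1 : (g : Matrix ι ι F) * S.φ (σ j) X = S.φ j ((A j : Matrix (Fin k) (Fin k) F) * X * (((A j)⁻¹ : GL (Fin k) F) : Matrix (Fin k) (Fin k) F)) * (g : Matrix ι ι F) := by
        apply ext_T S
        intro x
        rw [← mulVec_mulVec, ← mulVec_mulVec, S.hφ, hA, hA, S.hφ]
        congr 1
        funext l
        by_cases hl : l = j
        · subst hl
          rw [Function.update_self, Function.update_self, mulVec_mulVec, mulVec_mulVec, mul_assoc _ _ (A l : Matrix (Fin k) (Fin k) F),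
            ← Units.val_mul, inv_mul_cancel, Units.val_one, mul_one]
        · rw [Function.update_of_ne (fun e => hl (σ.injective e)), Function.update_of_ne hl]
      rw [e1, mul_assoc, ← Units.val_mul, mul_inv_cancel, Units.val_one, mul_one]
      exact h1
    | zero => rw [mul_zero, zero_mul]; exact Submodule.zero_mem _
    | add a b _ _ ha hb => rw [mul_add, add_mul]; exact Submodule.add_mem _ ha hb
    | smul c a _ ha => rw [mul_smul_comm, smul_mul_assoc]; exact Submodule.smul_mem _ _ ha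
  refine ⟨key g hg hi, ?_⟩
  have := key g⁻¹ (inv_mem hg) (inv_mem hi)
  rwa [inv_inv] at this

end H34.SpW
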