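import Cfsg.Agent.Lib.H34.T2Core

/-!
Checks of table entries (version 2) and their soundness.
-/

set_option autoImplicit false

noncomputable section

namespace H34.T2

open H34.TC (actW actW_append actW_injective brec nbeq nble)

/-- follow a list of functions -/
def runAF (lim : Nat) (fs : List (Nat → Nat)) : Nat → Nat :=
  List.rec (motive := fun _ => Nat → Nat) (fun x => x)
    (fun f _ ih x => ih (Nat.land (Nat.sub (f x) lim) 1048575)) fs

/-- follow a list of functions, using equalities -/
def runEF (E : Nat → Nat) (lim : Nat) (fs : List (Nat → Nat)) : Nat → Nat :=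
  List.rec (motive := fun _ => Nat → Nat) (fun x => x)
    (fun f _ ih x => ih (rep E lim 20 (Nat.land (Nat.sub (f x) lim) 1048575))) fs

theorem runAF_map (en : Nat → Nat → Nat) (lim : Nat) (w : List Nat) (x : Nat) :
    runAF lim (w.map en) x = runA en lim w x := by
  induction w generalizing x with
  | nil => rfl
  | cons g w ih => exact ih _

theorem runEF_map (en : Nat → Nat → Nat) (E : Nat → Nat) (lim : Nat) (w : List Nat) (x : Nat) :
    runEF E lim (w.map en) x = runE en E lim w x := by
  induction w generalizing x with
  | nil => rfl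
  | cons g w ih => exact ih _

/-- `k`-th element, with a default -/
def nthL (ws : List (List (Nat → Nat))) (d : List (Nat → Nat)) (k : Nat) : List (Nat → Nat) :=
  List.rec (motive := fun _ => Nat → List (Nat → Nat)) (fun _ => d)
    (fun a _ ih k => Nat.rec (motive := fun _ => List (Nat → Nat)) a (fun k' _ => ih k') k) ws k

theorem nthL_map (en : Nat → Nat → Nat) (ws : List (List Nat)) (d : List Nat) (k : Nat) :
    nthL (ws.map (List.map en)) (d.map en) k = (ws.getD k d).map en := by
  induction ws generalizing k with
  | nil => rfl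
  | cons a ws ih =>
    cases k with
    | zero => rfl
    | succ k => rw [List.getD_cons_succ, ← ih]; rfl

/-- empty entries are allowed only for the name 0, names beyond `nr`, and names with an equality -/
def chkEmp (E : Nat → Nat) (nr i e : Nat) : Bool :=
  Bool.rec (motive := fun _ => Bool) false
    (Bool.rec (motive := fun _ => Bool) (Nat.ble 1 (E i)) true (Nat.ble (Nat.succ nr) (Nat.add i (Nat.mul (Nat.sub 1 i) (Nat.succ nr))))) (Nat.beq e 0)

/-- `y` is a name -/
def isN (nr y : Nat) : Bool := Nat.ble y nr && Nat.ble 1 y

/-- less frequent justifications -/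
def chkOth (en : Nat → Nat → Nat) (E D : Nat → Nat) (wl : List (List (Nat → Nat))) (dl : List (Nat → Nat))
    (subs : List (List Nat × Nat × List Nat)) (nr g i e y J : Nat) : Bool :=
  Bool.rec (motive := fun _ => Bool)
    (Bool.rec (motive := fun _ => Bool)
      (Bool.rec (motive := fun _ => Bool)
        -- inherited
        (isN nr (Nat.sub J 4096) && (Nat.beq (rep E (lm e) 20 (Nat.sub J 4096)) i && Nat.beq (stp (lm e) (en g) (Nat.sub J 4096)) y))
        -- word with equalities
        (Nat.beq (runEF E (lm e) (nthL wl dl (Nat.sub J 2048)) y) i)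
        (Nat.ble J 4095))
      -- subgroup word
      (match subs[Nat.sub J 1025]? with
        | none => false
        | some (pre, g', post) => Nat.beq g' g && (Nat.beq (runEF E (lm e) (post.map en) y) 1 &&
            Nat.beq (runEF E (lm e) (pre.map en) 1) i))
      (Nat.ble J 2047))
    -- definition
    (Nat.ble (Nat.succ i) y && Nat.beq (D y) (Nat.add (Nat.mul i 32) g))
    (Nat.ble J 1024)

/-- check of one entry. With `J = J' + 1`: `J' < 1024` word `J'`, `1024` definition, `1025 + k` subgroup word `k`,
`2048 + k` word `k` with equalities, `4096 + b` inherited from `b`. -/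
def chkS (en : Nat → Nat → Nat) (E D : Nat → Nat) (wl : List (List (Nat → Nat))) (dl : List (Nat → Nat))
    (subs : List (List Nat × Nat × List Nat)) (nr g i e J : Nat) : Bool :=
  Nat.rec (motive := fun _ => Bool) (chkEmp E nr i e)
    (fun J' _ =>
      Bool.rec (motive := fun _ => Bool)
        (isN nr (Nat.land e 1048575) && chkOth en E D wl dl subs nr g i e (Nat.land e 1048575) J')
        (Nat.ble (Nat.add (Nat.mul (Nat.xor (runAF (lm e) (nthL wl dl J') (Nat.land e 1048575)) i) 1048576)
          (Nat.land e 1048575)) nr)
        (Nat.ble J' 1023))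
    J

/-- equality from a subgroup word -/
def qSub (en : Nat → Nat → Nat) (E : Nat → Nat) (lim : Nat) (subs : List (List Nat × List Nat)) (i y k : Nat) : Bool :=
  match subs[k]? with
  | none => false
  | some (pre, post) =>
    (Nat.beq (runEF E lim (post.map en) i) 1 && Nat.beq (runEF E lim (pre.map en) 1) y) ||
    (Nat.beq (runEF E lim (post.map en) y) 1 && Nat.beq (runEF E lim (pre.map en) 1) i)

/-- check of one equality -/
def chkQ (en : Nat → Nat → Nat) (E : Nat → Nat) (wl : List (List (Nat → Nat)))
    (subs : List (List Nat × List Nat)) (nr i e J : Nat) : Bool :=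
  Nat.rec (motive := fun _ => Bool)
    (Nat.beq e 0)
    (fun J' _ =>
      (Nat.ble 1 (Nat.land e 1048575) && Nat.ble (Nat.succ (Nat.land e 1048575)) i) &&
      Nat.rec (motive := fun _ => Bool)
        (qSub en E (lm e) subs i (Nat.land e 1048575) (Nat.shiftRight J' 2))
        (fun k _ => Nat.rec (motive := fun _ => Bool)
          (Nat.beq (runEF E (lm e) (nthL wl [] (Nat.shiftRight J' 2)) i) (Nat.land e 1048575))
          (fun k _ => Nat.rec (motive := fun _ => Bool)
            (Nat.beq (runEF E (lm e) (nthL wl [] (Nat.shiftRight J' 2)) (Nat.land e 1048575)) i)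
            (fun _ _ =>
              (isN nr (Nat.land (Nat.shiftRight J' 7) 1048575) && isN nr (Nat.shiftRight J' 27)) &&
              (Nat.beq (rep E (lm e) 20 (Nat.land (Nat.shiftRight J' 7) 1048575)) (rep E (lm e) 20 (Nat.shiftRight J' 27)) &&
              (Nat.beq (runE en E (lm e) [Nat.land (Nat.shiftRight J' 2) 31] (Nat.land (Nat.shiftRight J' 7) 1048575)) i &&
               Nat.beq (runE en E (lm e) [Nat.land (Nat.shiftRight J' 2) 31] (Nat.shiftRight J' 27)) (Nat.land e 1048575)))) k) k)
        (Nat.land J' 3))
    J

variable {X : Type*} {act : Nat → X → X} {v : Nat → X} {en : Nat → Nat → Nat} {E D : Nat → Nat} {nr lim : Nat}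
  {wA : Nat → Nat → List Nat} {wE : Nat → List Nat} {subs : List (List Nat × Nat × List Nat)}
  {subE : List (List Nat × List Nat)}

/-- semantic hypotheses of the checker -/
structure Hyp (act : Nat → X → X) (v : Nat → X) (D : Nat → Nat) (m : Nat) (wA : Nat → Nat → List Nat)
    (wE : Nat → List Nat)
    (subs : List (List Nat × Nat × List Nat)) (subE : List (List Nat × List Nat)) : Prop where
  inj : ∀ g, Function.Injective (act g)
  hm : m ≤ 32
  hD : ∀ i g j, D j = i * 32 + g → g < 32 → i < j → v j = act g (v i)
  hA : ∀ g k x, g < m → actW act (g :: wA g k) x = x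
  hE : ∀ k x, actW act (wE k) x = x
  hs : ∀ s ∈ subs, actW act (s.1 ++ s.2.1 :: s.2.2) (v 1) = v 1
  hs' : ∀ s ∈ subE, actW act (s.1 ++ s.2) (v 1) = v 1

theorem isN_sound {y : Nat} (h : isN nr y = true) : y ≠ 0 ∧ y ≤ nr := by
  unfold isN at h
  rw [Bool.and_eq_true] at h
  have h1 : y ≤ nr := Nat.le_of_ble_eq_true h.1
  have h2 : 1 ≤ y := Nat.le_of_ble_eq_true h.2
  omega

theorem land_vm (e : Nat) : Nat.land e 1048575 = e % 1048576 := by
  have : Nat.land e 1048575 = e &&& (2 ^ 20 - 1) := rfl
  rw [this, Nat.and_two_pow_sub_one_eq_mod]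

theorem chkOth_sound {m : Nat} (H : Hyp act v D m wA wE subs subE) {g i e y J : Nat} {wl : List (List (Nat → Nat))}
    {dl : List (Nat → Nat)} (hwl : ∀ k, nthL wl dl k = (wA g k).map en)
    (hnr : nr ≠ 0) (hg : g < m) (hi : i ≠ 0) (hy : y ≠ 0) (hyn : y ≤ nr) (hG : Good act v en E nr (lm e))
    (hc : chkOth en E D wl dl subs nr g i e y J = true) : act g (v i) = v y := by
  unfold chkOth at hc
  cases h1 : Nat.ble J 1024 with
  | true =>
    rw [h1] at hc
    dsimp only at hc
    rw [Bool.and_eq_true] at hc
    exact (H.hD i g y (nbeq hc.2) (lt_of_lt_of_le hg H.hm) (nble hc.1)).symm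
  | false =>
    rw [h1] at hc
    dsimp only at hc
    cases h2 : Nat.ble J 2047 with
    | true =>
      rw [h2] at hc
      dsimp only at hc
      cases hs : subs[Nat.sub J 1025]? with
      | none => rw [hs] at hc; simp at hc
      | some s =>
        obtain ⟨pre, g', post⟩ := s
        rw [hs] at hc
        simp only [Bool.and_eq_true] at hc
        obtain ⟨h3, h4, h5⟩ := hc
        have hg' : g' = g := nbeq h3
        subst hg'
        have e1 : runEF E (lm e) (post.map en) y = 1 := nbeq h4
        have e2 : runEF E (lm e) (pre.map en) 1 = i := nbeq h5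
        rw [runEF_map] at e1 e2
        have e3 := (hG.runE post y hy hyn (by rw [e1]; exact one_ne_zero)).2
        have e4 := (hG.runE pre 1 one_ne_zero (by omega) (by rw [e2]; exact hi)).2
        have e5 := H.hs _ (List.mem_of_getElem? hs)
        simp only [] at e5
        rw [actW_append, actW, e4, e2] at e5
        rw [e1] at e3
        exact actW_injective act H.inj _ (e5.trans e3.symm)
    | false =>
      rw [h2] at hc
      dsimp only at hc
      cases h3 : Nat.ble J 4095 with
      | true =>
        rw [h3] at hc
        dsimp only at hc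
        have e1 : runEF E (lm e) (nthL wl dl (Nat.sub J 2048)) y = i := nbeq hc
        rw [hwl, runEF_map] at e1
        have e2 := (hG.runE _ y hy hyn (by rw [e1]; exact hi)).2
        rw [e1] at e2
        have e3 := H.hA g (Nat.sub J 2048) (v i) hg
        rw [actW] at e3
        exact actW_injective act H.inj _ (e3.trans e2.symm)
      | false =>
        rw [h3] at hc
        dsimp only at hc
        simp only [Bool.and_eq_true] at hc
        obtain ⟨h5, h6, h7⟩ := hc
        obtain ⟨hb0, hbn⟩ := isN_sound h5
        have e1 : rep E (lm e) 20 (Nat.sub J 4096) = i := nbeq h6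
        have e2 : stp (lm e) (en g) (Nat.sub J 4096) = y := nbeq h7
        have e3 := (hG.rep 20 _ hb0 hbn).2.2
        have e4 := (hG.slot g _ hb0 hbn (by rw [e2]; exact hy)).2
        rw [e1] at e3
        rw [e2] at e4
        rw [← e3, e4]

theorem chkS_sound {m : Nat} (H : Hyp act v D m wA wE subs subE) {g i e J : Nat} {wl : List (List (Nat → Nat))}
    {dl : List (Nat → Nat)} (hwl : ∀ k, nthL wl dl k = (wA g k).map en) (h0 : ∀ g, en g 0 = 0)
    (hnr : nr ≠ 0) (hnr' : nr < 1048576) (hg : g < m) (hi : i ≠ 0) (hin : i ≤ nr)
    (hc : chkS en E D wl dl subs nr g i e J = true) :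
    JustS act v en E nr g i e ∧ (e = 0 → E i ≠ 0) := by
  unfold chkS at hc
  cases J with
  | zero =>
    change chkEmp E nr i e = true at hc
    obtain ⟨h1, h2⟩ := brec hc
    have he : e = 0 := nbeq h1
    refine ⟨fun h => absurd he h, fun _ => ?_⟩
    have h3 : Nat.ble (Nat.succ nr) (Nat.add i (Nat.mul (Nat.sub 1 i) (Nat.succ nr))) = false := by
      have h4 : Nat.sub 1 i = 0 := by show 1 - i = 0; omega
      rw [h4]
      show Nat.ble (nr + 1) (i + 0 * (nr + 1)) = false
      rw [zero_mul, add_zero]
      cases hb : Nat.ble (nr + 1) i with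
      | false => rfl
      | true => exact absurd (Nat.le_of_ble_eq_true hb) (by omega)
    rw [h3] at h2
    have := Nat.le_of_ble_eq_true h2
    omega
  | succ J =>
    dsimp only at hc
    rw [land_vm] at hc
    cases hk : Nat.ble J 1023 with
    | true =>
      rw [hk] at hc
      dsimp only at hc
      have h1 : (runAF (lm e) (nthL wl dl J) (e % 1048576) ^^^ i) * 1048576 + e % 1048576 ≤ nr :=
        Nat.le_of_ble_eq_true hc
      have h2 : runAF (lm e) (nthL wl dl J) (e % 1048576) ^^^ i = 0 := by
        by_contra h3
        have : 1 ≤ runAF (lm e) (nthL wl dl J) (e % 1048576) ^^^ i := Nat.one_le_iff_ne_zero.2 h3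
        have := Nat.mul_le_mul_right 1048576 this
        omega
      have h3 : runAF (lm e) (nthL wl dl J) (e % 1048576) = i := Nat.xor_eq_zero_iff.1 h2
      rw [hwl, runAF_map] at h3
      have h4 : e % 1048576 ≠ 0 := by
        intro h4
        rw [h4, runA_zero h0] at h3
        exact hi h3.symm
      have h5 : e % 1048576 ≤ nr := by omega
      refine ⟨fun _ => ⟨h4, fun hG => ⟨h5, ?_⟩⟩, fun he => ?_⟩
      · have e2 := (hG.runA _ _ h4 h5 (by rw [h3]; exact hi)).2
        rw [h3] at e2
        have e3 := H.hA g J (v i) hg
        rw [actW] at e3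
        exact actW_injective act H.inj _ (e3.trans e2.symm)
      · exact absurd (by rw [he]) h4
    | false =>
      rw [hk] at hc
      dsimp only at hc
      rw [Bool.and_eq_true] at hc
      obtain ⟨h4, h5⟩ := isN_sound hc.1
      refine ⟨fun _ => ⟨h4, fun hG => ⟨h5, ?_⟩⟩, fun he => absurd (by rw [he]) h4⟩
      exact chkOth_sound H hwl hnr hg hi h4 h5 hG hc.2

theorem chkQ_sound {m : Nat} (H : Hyp act v D m wA wE subs subE) {i e J : Nat} {wl : List (List (Nat → Nat))}
    (hwl : ∀ k, nthL wl [] k = (wE k).map en)
    (hnr : nr ≠ 0) (hi : i ≠ 0) (hin : i ≤ nr)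
    (hc : chkQ en E wl subE nr i e J = true) : JustE act v en E nr i e := by
  intro he
  unfold chkQ at hc
  cases J with
  | zero => exact absurd (nbeq hc) he
  | succ J =>
    dsimp only at hc
    rw [land_vm] at hc
    simp only [Bool.and_eq_true] at hc
    obtain ⟨⟨h1, h2⟩, h3⟩ := hc
    have hy0 : e % 1048576 ≠ 0 := by
      have := Nat.le_of_ble_eq_true h1
      omega
    have hyi : e % 1048576 < i := nble h2
    refine ⟨hy0, fun hG => ⟨hyi, ?_⟩⟩
    have hyn : e % 1048576 ≤ nr := by omega
    generalize Nat.land J 3 = k at h3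
    cases k with
    | zero =>
      change qSub en E (lm e) subE i (e % 1048576) (Nat.shiftRight J 2) = true at h3
      unfold qSub at h3
      cases hs : subE[Nat.shiftRight J 2]? with
      | none => rw [hs] at h3; simp at h3
      | some s =>
        obtain ⟨pre, post⟩ := s
        rw [hs] at h3
        have e5 := H.hs' _ (List.mem_of_getElem? hs)
        simp only [] at e5
        rw [actW_append] at e5
        simp only [Bool.or_eq_true, Bool.and_eq_true] at h3
        rcases h3 with h3 | h3
        · have e1 : runEF E (lm e) (post.map en) i = 1 := nbeq h3.1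
          have e2 : runEF E (lm e) (pre.map en) 1 = e % 1048576 := nbeq h3.2
          rw [runEF_map] at e1 e2
          have e3 := (hG.runE _ _ hi hin (by rw [e1]; exact one_ne_zero)).2
          have e4 := (hG.runE _ _ one_ne_zero (by omega) (by rw [e2]; exact hy0)).2
          rw [e4, e2] at e5
          rw [e1] at e3
          exact actW_injective act H.inj _ (e3.trans e5.symm)
        · have e1 : runEF E (lm e) (post.map en) (e % 1048576) = 1 := nbeq h3.1
          have e2 : runEF E (lm e) (pre.map en) 1 = i := nbeq h3.2
          rw [runEF_map] at e1 e2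
          have e3 := (hG.runE _ _ hy0 hyn (by rw [e1]; exact one_ne_zero)).2
          have e4 := (hG.runE _ _ one_ne_zero (by omega) (by rw [e2]; exact hi)).2
          rw [e4, e2] at e5
          rw [e1] at e3
          exact actW_injective act H.inj _ (e5.trans e3.symm)
    | succ k =>
      try dsimp only at h3
      cases k with
      | zero =>
        have e1 : runEF E (lm e) (nthL wl [] (Nat.shiftRight J 2)) i = e % 1048576 := nbeq h3
        rw [hwl, runEF_map] at e1
        have e2 := (hG.runE _ _ hi hin (by rw [e1]; exact hy0)).2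
        rw [H.hE, e1] at e2
        exact e2
      | succ k =>
        try dsimp only at h3
        cases k with
        | zero =>
          have e1 : runEF E (lm e) (nthL wl [] (Nat.shiftRight J 2)) (e % 1048576) = i := nbeq h3
          rw [hwl, runEF_map] at e1
          have e2 := (hG.runE _ _ hy0 hyn (by rw [e1]; exact hi)).2
          rw [H.hE, e1] at e2
          exact e2.symm
        | succ k =>
          try dsimp only at h3
          simp only [Bool.and_eq_true] at h3
          obtain ⟨⟨h4, h5⟩, h6, h7, h8⟩ := h3
          obtain ⟨hb0, hbn⟩ := isN_sound h4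
          obtain ⟨hc0, hcn⟩ := isN_sound h5
          have e1 := nbeq h6
          have e2 := nbeq h7
          have e3 := nbeq h8
          have e4 := (hG.runE _ _ hb0 hbn (by rw [e2]; exact hi)).2
          have e5 := (hG.runE _ _ hc0 hcn (by rw [e3]; exact hy0)).2
          have e6 := (hG.rep 20 _ hb0 hbn).2.2
          have e7 := (hG.rep 20 _ hc0 hcn).2.2
          rw [e2] at e4
          rw [e3] at e5
          rw [← e1] at e7
          simp only [actW] at e4 e5
          rw [← e4, ← e5, e6, e7]

end H34.T2
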