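import Cfsg.Agent.Lib.H34.TCGroup

/-!
Kernel-checked coset enumeration, version 2: tables are arbitrary functions `Nat → Nat`, names are `1, …, nr`
(`0` means undefined), all table accesses are native `Nat` operations.

The entry of name `x` under a letter is `s * 2^20 + y`: "the letter sends point `x` to point `y`", with decreasing
time stamp `s`; `0` means "no fact".
-/

set_option autoImplicit false

noncomputable section

namespace H34.T2

open H34.TC (actW actW_append actW_injective brec nbeq nble)

/-- one step -/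
def stp (lim : Nat) (f : Nat → Nat) (x : Nat) : Nat := Nat.land (Nat.sub (f x) lim) 1048575

/-- follow a word -/
def runA (en : Nat → Nat → Nat) (lim : Nat) : List Nat → Nat → Nat
  | [], x => x
  | g :: w, x => runA en lim w (stp lim (en g) x)

/-- follow equalities -/
def rep (E : Nat → Nat) (lim fuel : Nat) : Nat → Nat :=
  Nat.rec (motive := fun _ => Nat → Nat) (fun x => x)
    (fun _ ih x => Nat.rec (motive := fun _ => Nat) x (fun y _ => ih (Nat.succ y)) (stp lim E x)) fuel

/-- follow a word, using equalities after each letter -/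
def runE (en : Nat → Nat → Nat) (E : Nat → Nat) (lim : Nat) : List Nat → Nat → Nat
  | [], x => x
  | g :: w, x => runE en E lim w (rep E lim 20 (stp lim (en g) x))

variable {X : Type*}

/-- all facts with stamp at least `lim` hold -/
structure Good (act : Nat → X → X) (v : Nat → X) (en : Nat → Nat → Nat) (E : Nat → Nat) (nr lim : Nat) : Prop where
  slot : ∀ g x, x ≠ 0 → x ≤ nr → stp lim (en g) x ≠ 0 →
    stp lim (en g) x ≤ nr ∧ act g (v x) = v (stp lim (en g) x)
  eq : ∀ x, x ≠ 0 → x ≤ nr → stp lim E x ≠ 0 → stp lim E x ≤ nr ∧ v x = v (stp lim E x)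
  tab0 : ∀ g, en g 0 = 0
  E0 : E 0 = 0

variable {act : Nat → X → X} {v : Nat → X} {en : Nat → Nat → Nat} {E : Nat → Nat} {nr lim : Nat}

theorem stp_zero {f : Nat → Nat} (h : f 0 = 0) : stp lim f 0 = 0 := by
  unfold stp
  rw [h]
  show Nat.land (0 - lim) 1048575 = 0
  rw [Nat.zero_sub]
  exact Nat.zero_and _

theorem runA_zero (h : ∀ g, en g 0 = 0) (w : List Nat) : runA en lim w 0 = 0 := by
  induction w with
  | nil => rfl
  | cons g w ih => rw [runA, stp_zero (h g), ih]

theorem rep_zero (h : E 0 = 0) (f : Nat) : rep E lim f 0 = 0 := by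
  cases f with
  | zero => rfl
  | succ f =>
    show Nat.rec (motive := fun _ => Nat) 0 (fun y _ => rep E lim f (Nat.succ y)) (stp lim E 0) = 0
    rw [stp_zero h]
    rfl

theorem runE_zero (h : ∀ g, en g 0 = 0) (h' : E 0 = 0) (w : List Nat) : runE en E lim w 0 = 0 := by
  induction w with
  | nil => rfl
  | cons g w ih => rw [runE, stp_zero (h g), rep_zero h', ih]

theorem Good.runA (h : Good act v en E nr lim) (w : List Nat) :
    ∀ x, x ≠ 0 → x ≤ nr → runA en lim w x ≠ 0 → runA en lim w x ≤ nr ∧ actW act w (v x) = v (runA en lim w x) := by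
  induction w with
  | nil => intro x hx hn _; exact ⟨hn, rfl⟩
  | cons g w ih =>
    intro x hx hn hr
    rw [T2.runA] at hr ⊢
    have h1 : stp lim (en g) x ≠ 0 := by
      intro h0
      rw [h0, runA_zero h.tab0] at hr
      exact hr rfl
    obtain ⟨h2, h3⟩ := h.slot g x hx hn h1
    obtain ⟨h4, h5⟩ := ih _ h1 h2 hr
    refine ⟨h4, ?_⟩
    rw [actW, h3, h5]

theorem rep_succ (f x : Nat) : rep E lim (f + 1) x = if stp lim E x = 0 then x else rep E lim f (stp lim E x) := by
  show Nat.rec (motive := fun _ => Nat) x (fun y _ => rep E lim f (Nat.succ y)) (stp lim E x) = _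
  cases stp lim E x with
  | zero => simp
  | succ y => simp

theorem Good.rep (h : Good act v en E nr lim) (f : Nat) :
    ∀ x, x ≠ 0 → x ≤ nr → rep E lim f x ≠ 0 ∧ rep E lim f x ≤ nr ∧ v x = v (rep E lim f x) := by
  induction f with
  | zero => intro x hx hn; exact ⟨hx, hn, rfl⟩
  | succ f ih =>
    intro x hx hn
    rw [rep_succ]
    split_ifs with h0
    · exact ⟨hx, hn, rfl⟩
    · obtain ⟨h1, h2⟩ := h.eq x hx hn h0
      obtain ⟨h3, h4, h5⟩ := ih _ h0 h1
      exact ⟨h3, h4, h2.trans h5⟩

theorem Good.runE (h : Good act v en E nr lim) (w : List Nat) :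
    ∀ x, x ≠ 0 → x ≤ nr → runE en E lim w x ≠ 0 → runE en E lim w x ≤ nr ∧ actW act w (v x) = v (runE en E lim w x) := by
  induction w with
  | nil => intro x hx hn _; exact ⟨hn, rfl⟩
  | cons g w ih =>
    intro x hx hn hr
    rw [T2.runE] at hr ⊢
    have h1 : stp lim (en g) x ≠ 0 := by
      intro h0
      rw [h0, rep_zero h.E0, runE_zero h.tab0 h.E0] at hr
      exact hr rfl
    obtain ⟨h2, h3⟩ := h.slot g x hx hn h1
    obtain ⟨h4, h5, h6⟩ := h.rep 20 _ h1 h2
    obtain ⟨h7, h8⟩ := ih _ h4 h5 hr
    refine ⟨h7, ?_⟩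
    rw [actW, h3, h6, h8]

theorem stp_eq (lim : Nat) (f : Nat → Nat) (x : Nat) : stp lim f x = (f x - lim) % 1048576 := by
  have h : stp lim f x = (f x - lim) &&& (2 ^ 20 - 1) := rfl
  rw [h, Nat.and_two_pow_sub_one_eq_mod]

theorem stp_lim (s : Nat) (f : Nat → Nat) (x : Nat) :
    stp ((s + 1) * 1048576) f x = if s < f x / 1048576 then f x % 1048576 else 0 := by
  rw [stp_eq]
  split_ifs with h
  · have h1 : (s + 1) * 1048576 ≤ f x := by
      have := (Nat.le_div_iff_mul_le (by norm_num : 0 < 1048576)).1 (Nat.succ_le_of_lt h)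
      exact this
    obtain ⟨c, hc⟩ := Nat.exists_eq_add_of_le h1
    rw [hc, Nat.add_sub_cancel_left, Nat.add_comm, Nat.add_mul_mod_self_right]
  · have h1 : f x < (s + 1) * 1048576 := by
      have : f x / 1048576 < s + 1 := by omega
      exact (Nat.div_lt_iff_lt_mul (by norm_num)).1 this
    rw [Nat.sub_eq_zero_of_le h1.le]

/-- the limit belonging to an entry -/
def lm (e : Nat) : Nat := Nat.shiftLeft (Nat.succ (Nat.shiftRight e 20)) 20

theorem lm_eq (e : Nat) : lm e = (e / 1048576 + 1) * 1048576 := by
  show (e >>> 20 + 1) <<< 20 = _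
  rw [Nat.shiftLeft_eq, Nat.shiftRight_eq_div_pow]

/-- an entry is justified: its value is a name and the fact follows from later-stamped facts -/
def JustS (act : Nat → X → X) (v : Nat → X) (en : Nat → Nat → Nat) (E : Nat → Nat) (nr g x e : Nat) : Prop :=
  e ≠ 0 → e % 1048576 ≠ 0 ∧ (Good act v en E nr (lm e) → e % 1048576 ≤ nr ∧ act g (v x) = v (e % 1048576))

/-- an equality entry is justified -/
def JustE (act : Nat → X → X) (v : Nat → X) (en : Nat → Nat → Nat) (E : Nat → Nat) (nr x e : Nat) : Prop :=
  e ≠ 0 → e % 1048576 ≠ 0 ∧ (Good act v en E nr (lm e) → e % 1048576 < x ∧ v x = v (e % 1048576))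

/-- the induction on time stamps -/
theorem good_all {m : Nat} (h0 : ∀ g, en g 0 = 0) (hE0 : E 0 = 0)
    (hslot : ∀ g x, g < m → x ≠ 0 → x ≤ nr → JustS act v en E nr g x (en g x))
    (htab : ∀ g x, m ≤ g → en g x = 0)
    (heq : ∀ x, x ≠ 0 → x ≤ nr → JustE act v en E nr x (E x)) :
    ∀ s, Good act v en E nr ((s + 1) * 1048576) := by
  obtain ⟨B, hB1, hB2⟩ : ∃ B, (∀ g x, g < m → x ≤ nr → en g x / 1048576 < B) ∧ (∀ x, x ≤ nr → E x / 1048576 < B) := by
    refine ⟨((Finset.range m) ×ˢ (Finset.range (nr + 1))).sup (fun p => en p.1 p.2) + (Finset.range (nr + 1)).sup E + 1,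
      fun g x hg hx => ?_, fun x hx => ?_⟩
    · have h1 : en g x ≤ ((Finset.range m) ×ˢ (Finset.range (nr + 1))).sup (fun p => en p.1 p.2) :=
        Finset.le_sup (f := fun p : Nat × Nat => en p.1 p.2) (b := (g, x)) (by simp; omega)
      have := Nat.div_le_self (en g x) 1048576
      omega
    · have h1 : E x ≤ (Finset.range (nr + 1)).sup E := Finset.le_sup (f := E) (by simp; omega)
      have := Nat.div_le_self (E x) 1048576
      omega
  have key : ∀ t s, B ≤ s + t → Good act v en E nr ((s + 1) * 1048576) := by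
    intro t
    induction t with
    | zero =>
      intro s hs
      refine ⟨fun g x hx hn h => ?_, fun x hx hn h => ?_, h0, hE0⟩
      · exfalso
        rw [stp_lim] at h
        split_ifs at h with hlt
        · by_cases hg : g < m
          · have := hB1 g x hg hn; omega
          · rw [htab g x (by omega)] at hlt; simp at hlt
        · exact h rfl
      · exfalso
        rw [stp_lim] at h
        split_ifs at h with hlt
        · have := hB2 x hn; omega
        · exact h rfl
    | succ t ih =>
      intro s hs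
      have hG := ih (s + 1) (by omega)
      refine ⟨fun g x hx hn h => ?_, fun x hx hn h => ?_, h0, hE0⟩
      · rw [stp_lim] at h ⊢
        split_ifs at h ⊢ with hlt
        · by_cases hs1 : s + 1 < en g x / 1048576
          · have h2 := hG.slot g x hx hn (by rw [stp_lim, if_pos hs1]; exact h)
            rw [stp_lim, if_pos hs1] at h2
            exact h2
          · have hse : en g x / 1048576 = s + 1 := by omega
            by_cases hg : g < m
            · refine ((hslot g x hg hx hn) (by rintro h3; rw [h3] at hse; simp at hse)).2 ?_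
              rw [lm_eq, hse]
              exact hG
            · rw [htab g x (by omega)] at hlt; simp at hlt
        · exact absurd rfl h
      · rw [stp_lim] at h ⊢
        split_ifs at h ⊢ with hlt
        · by_cases hs1 : s + 1 < E x / 1048576
          · have h2 := hG.eq x hx hn (by rw [stp_lim, if_pos hs1]; exact h)
            rw [stp_lim, if_pos hs1] at h2
            exact h2
          · have hse : E x / 1048576 = s + 1 := by omega
            have := ((heq x hx hn) (by rintro h3; rw [h3] at hse; simp at hse)).2 (by rw [lm_eq, hse]; exact hG)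
            exact ⟨by omega, this.2⟩
        · exact absurd rfl h
  intro s
  exact key B s (by omega)

/-- the set of points without equality is closed -/
theorem closed {m : Nat} (hnr : nr ≠ 0) (h0 : ∀ g, en g 0 = 0) (hE0 : E 0 = 0)
    (hslot : ∀ g x, g < m → x ≠ 0 → x ≤ nr → JustS act v en E nr g x (en g x) ∧ (en g x = 0 → E x ≠ 0))
    (htab : ∀ g x, m ≤ g → en g x = 0)
    (heq : ∀ x, x ≠ 0 → x ≤ nr → JustE act v en E nr x (E x)) :
    ∃ S : Finset X, S.card ≤ ((Finset.Icc 1 nr).filter (fun x => E x = 0)).card ∧ v 1 ∈ S ∧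
      ∀ g x, g < m → x ∈ S → act g x ∈ S := by
  classical
  have hG : ∀ e, Good act v en E nr (lm e) := by
    intro e
    rw [lm_eq]
    exact good_all h0 hE0 (fun g x hg hx hn => (hslot g x hg hx hn).1) htab heq _
  have hall : ∀ x, x ≠ 0 → x ≤ nr → v x ∈ ((Finset.Icc 1 nr).filter (fun x => E x = 0)).image v := by
    intro x
    induction x using Nat.strong_induction_on with
    | _ x ih =>
      intro hx hn
      by_cases he : E x = 0
      · rw [Finset.mem_image]
        exact ⟨x, by simp only [Finset.mem_filter, Finset.mem_Icc]; exact ⟨⟨by omega, hn⟩, he⟩, rfl⟩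
      · obtain ⟨h1, h2⟩ := heq x hx hn he
        obtain ⟨h3, h4⟩ := h2 (hG _)
        rw [h4]
        exact ih _ h3 h1 (by omega)
  refine ⟨((Finset.Icc 1 nr).filter (fun x => E x = 0)).image v, Finset.card_image_le, hall 1 (by norm_num) (by omega), ?_⟩
  intro g x hg hx
  rw [Finset.mem_image] at hx
  obtain ⟨i, hi, rfl⟩ := hx
  simp only [Finset.mem_filter, Finset.mem_Icc] at hi
  obtain ⟨h1, h2⟩ := hslot g i hg (by omega) hi.1.2
  have h3 : en g i ≠ 0 := fun h => h2 h hi.2
  obtain ⟨h4, h5⟩ := h1 h3
  obtain ⟨h6, h7⟩ := h5 (hG _)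
  rw [h7]
  exact hall _ h4 h6

end H34.T2
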