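import Cfsg.Agent.Lib.H34.T2Perm

/-!
Version 2: final wrapper for certificates of subgroups of `CoxPresented` groups.
-/

set_option autoImplicit false

noncomputable section

namespace H34.T2

open H34.TC (actW actW_append actW_injective brec nbeq nble wp wp_eq wp_append wp_reverse lab exists_equiv blkOK blk_lab
  blk_ns ell gn relChk exists_hom)

open Cfsg.Spor

/-- the decidable side conditions -/
def sideChk (ι : Nat → Nat) (m m' : Nat) (defs exps : List (List Nat)) (eqs : List (List Nat × List Nat))
    (hl : List Nat) : Bool :=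
  (decide (m' = m + defs.length) && ((List.range m).all fun g => decide (ι g < m))) &&
  ((((List.range m).all fun g => eqs.elem ([g, ι g], [])) &&
   ((List.range defs.length).all fun k => (defs.getD k []).all fun g => decide (g < m + k))) &&
  (((List.range defs.length).all fun k => (exps.getD k []).all fun g => decide (g < m)) &&
   (((List.range defs.length).all fun k => decide (exps.getD k [] = (defs.getD k []).flatMap (exp1 m exps))) &&
   ((eqs.all fun p => (p.1.all fun g => decide (g < m')) && (p.2.all fun g => decide (g < m))) &&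
   (hl.all fun l => decide (l < m'))))))

theorem side_of {ι : Nat → Nat} {N m m' : Nat} {defs exps : List (List Nat)} {eqs : List (List Nat × List Nat)}
    {bs hl st : List Nat} (h : sideChk ι m m' defs exps eqs hl = true) : Side ι N m m' defs exps eqs bs hl st := by
  unfold sideChk at h
  simp only [Bool.and_eq_true, List.all_eq_true, decide_eq_true_eq, List.mem_range] at h
  obtain ⟨⟨h1, h2⟩, ⟨h3, h4⟩, h5, h6, h7, h8⟩ := h
  exact ⟨h1, h2, fun g hg => List.elem_iff.1 (h3 g hg), h4, h5, h6, fun p hp => (h7 p hp).1, fun p hp => (h7 p hp).2, h8⟩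

/-- exact index, bijection and action from an upper bound and verified permutations -/
theorem cox_exact {α : Type} [DecidableEq α] {edges : List (α × ℕ × α)} {extra : List (FreeGroup α)} {gens : List α}
    (hg : ∀ x, x ∈ gens)
    (hnd : gens.Nodup)
    (H : Subgroup (CoxPresented α edges extra)) (hw : List (List Nat))
    (hH : H = Subgroup.closure {x | ∃ w ∈ hw, x = wp (ell gens (gn edges extra)) w})
    (base : List (List Nat)) (hb : relChk gens edges extra base = true)
    (N : Nat) (h0 : 0 < N) (hup : H.FiniteIndex ∧ H.index ≤ N)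
    (nxL : List (Nat → Nat)) (m' : Nat) (defs exps : List (List Nat)) (eqs : List (List Nat × List Nat))
    (bs hl : List Nat)
    (F : Facts (enF nxL) id N gens.length m' defs eqs bs hl (0 :: bs))
    (hside : sideChk id gens.length m' defs exps eqs hl = true)
    (hrel : (base.all fun w => eqs.any fun p =>
      decide (w.reverse = (p.1 ++ p.2).flatMap (exp1 gens.length exps))) = true)
    (hhw : decide (hw = hl.map (exp1 gens.length exps)) = true)
    (hfix : (hl.all fun l => Nat.beq (enF nxL l 0) 0) = true)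
    (hst : (bs.all fun b => (List.range gens.length).any fun g => Nat.ble (Nat.succ (enF nxL g b)) b) = true) :
    H.index = N ∧ ∃ (φ : CoxPresented α edges extra →* Equiv.Perm (Fin N))
      (e : CoxPresented α edges extra ⧸ H ≃ Fin N),
      IsPermT (enF nxL) N m' ∧
      (∀ g < gens.length, φ (ell gens (gn edges extra) g) = permT (enF nxL) N g) ∧
      (∀ (g : CoxPresented α edges extra) (q : CoxPresented α edges extra ⧸ H), e (g • q) = φ g (e q)) ∧
      e ((1 : CoxPresented α edges extra) : CoxPresented α edges extra ⧸ H) = ⟨0, h0⟩ ∧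
      (∀ i : Fin N, ∃ g, φ g ⟨0, h0⟩ = i) ∧
      ∀ (lo hi : Nat) (hlo : lo < N), hi ≤ N → blkOK bs lo hi N = true →
        (MulAction.orbit H (e.symm ⟨lo, hlo⟩)).ncard = hi - lo ∧
        ∀ q, q ∈ MulAction.orbit H (e.symm ⟨lo, hlo⟩) ↔ (lo ≤ (e q : Nat) ∧ (e q : Nat) < hi) := by
  have S : Side id N gens.length m' defs exps eqs bs hl (0 :: bs) := side_of hside
  have hP := F.isPerm S
  have hm : gens.length ≤ m' := by have := S.hm'; omega
  rw [List.all_eq_true] at hrel hfix hst
  have hinv : ∀ g, g < gens.length → permT (enF nxL) N g * permT (enF nxL) N g = 1 := by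
    intro g hg'
    have h1 := wp_congr_of (u := [g, g]) (v := []) hP (by
      intro a ha
      simp only [List.mem_cons, List.not_mem_nil, or_false, or_self] at ha
      omega) (by simp) (fun i hi => F.eqs i hi _ (S.inv g hg'))
    simpa [wp] using h1
  obtain ⟨φ, hφ⟩ := exists_hom (edges := edges) (extra := extra) hg hb (permT (enF nxL) N) (by
      intro x
      exact hinv _ (List.idxOf_lt_length_of_mem (hg x)))
    (by
      intro w hw' hlt
      have h1 := hrel w hw'
      rw [List.any_eq_true] at h1
      obtain ⟨p, hp, h2⟩ := h1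
      have h3 := F.rel S hp (of_decide_eq_true h2)
      rwa [wp_reverse] at h3)
  have hφ' : ∀ g < gens.length, φ (ell gens (gn edges extra) g) = permT (enF nxL) N g := by
    intro g hg'
    rcases hφ g hg' with h | ⟨h, h2⟩
    · exact h
    · exact absurd (hnd.idxOf_getElem g h) h2
  have hH' : H = Subgroup.closure {x | ∃ l ∈ hl, x = el (ell gens (gn edges extra)) gens.length exps l} := by
    rw [hH, of_decide_eq_true hhw]
    congr 1
    ext x
    constructor
    · rintro ⟨w, hw1, rfl⟩
      obtain ⟨l, hl1, rfl⟩ := List.mem_map.1 hw1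
      exact ⟨l, hl1, rfl⟩
    · rintro ⟨l, hl1, rfl⟩
      exact ⟨_, List.mem_map.2 ⟨l, hl1, rfl⟩, rfl⟩
  have htr := F.trans S h0 hφ' (by
    intro b hb
    rcases List.mem_cons.1 hb with rfl | hb
    · left; rfl
    · right
      have := hst b hb
      rw [List.any_eq_true] at this
      obtain ⟨g, hg1, hg2⟩ := this
      exact ⟨g, List.mem_range.1 hg1, nble hg2⟩)
  have hfix' : ∀ h ∈ H, φ h ⟨0, h0⟩ = ⟨0, h0⟩ := by
    intro h hh
    rw [hH'] at hh
    induction hh using Subgroup.closure_induction with
    | mem x hx =>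
      obtain ⟨l, hl1, rfl⟩ := hx
      rw [F.map_el S hφ' l (S.hlt l hl1)]
      apply Fin.ext
      rw [← hP l (S.hlt l hl1) ⟨0, h0⟩]
      exact nbeq (hfix l hl1)
    | one => simp
    | mul x y _ _ hx hy => rw [map_mul, Equiv.Perm.mul_apply, hy, hx]
    | inv x _ hx => rw [map_inv, Equiv.Perm.inv_eq_iff_eq]; exact hx.symm
  obtain ⟨hidx, e, he, he1⟩ := exists_equiv h0 htr hfix' hup
  refine ⟨hidx, φ, e, hP, hφ', he, he1, htr, ?_⟩
  intro lo hi hlo hhi hblk
  have horb : ∀ q, q ∈ MulAction.orbit H (e.symm ⟨lo, hlo⟩) ↔ (lo ≤ (e q : Nat) ∧ (e q : Nat) < hi) := by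
    intro q
    rw [← F.orb S hφ' hH' lo hi hlo (blk_lab hblk) (by
      intro x h1 h2 h3
      rcases List.mem_cons.1 h3 with rfl | h3
      · omega
      · exact blk_ns hblk x h1 h2 h3) (e q)]
    constructor
    · rintro ⟨h, rfl⟩
      refine ⟨h, h.2, ?_⟩
      show _ = e ((h : CoxPresented α edges extra) • e.symm ⟨lo, hlo⟩)
      rw [he, Equiv.apply_symm_apply]
    · rintro ⟨h, hh, h1⟩
      refine ⟨⟨h, hh⟩, ?_⟩
      show (h : CoxPresented α edges extra) • e.symm ⟨lo, hlo⟩ = q
      apply e.injective
      rw [he, Equiv.apply_symm_apply, h1]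
  refine ⟨?_, horb⟩
  have h1 : MulAction.orbit H (e.symm ⟨lo, hlo⟩) = e ⁻¹' {x | lo ≤ (x : Nat) ∧ (x : Nat) < hi} := by
    ext q
    exact horb q
  rw [h1, ← Equiv.image_symm_eq_preimage, Set.ncard_image_of_injective _ e.symm.injective]
  have h2 : ({x : Fin N | lo ≤ (x : Nat) ∧ (x : Nat) < hi}) = ((Finset.univ.filter (fun x : Fin N => lo ≤ (x : Nat) ∧ (x : Nat) < hi) : Finset (Fin N)) : Set (Fin N)) := by
    ext x; simp
  rw [h2, Set.ncard_coe_finset]
  have h3 : (Finset.univ.filter (fun x : Fin N => lo ≤ (x : Nat) ∧ (x : Nat) < hi)).card = (Finset.Ico lo hi).card := by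
    apply Finset.card_bij (fun (x : Fin N) _ => (x : Nat))
    · intro x hx; simpa using hx
    · intro a _ b _ h; exact Fin.ext h
    · intro b hb
      have hb' := Finset.mem_Ico.1 hb
      exact ⟨⟨b, lt_of_lt_of_le hb'.2 hhi⟩, by simpa using hb', rfl⟩
  rw [h3, Nat.card_Ico]

end H34.T2
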