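import Cfsg.Agent.Lib.H34.T2Upper
import Cfsg.Agent.Lib.H34.TCMain

/-!
Version 2, part B: permutations given by total functions `nx g : Nat → Nat` on `[0, N)`, checked by one
native expression per point (`Zc`, an `or` of values which must all be zero).

Letters: `g < m` are the letters of the group, letters `m + k` are auxiliary, defined by words `defs[k]` in smaller
letters. `exps[k]` is the expansion of the auxiliary letter in the letters of the group.
-/

set_option autoImplicit false

noncomputable section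

namespace H34.T2

open H34.TC (actW actW_append actW_injective brec nbeq nble wp wp_eq wp_append wp_reverse lab)

/-- follow a word through total functions -/
def runT (nx : Nat → Nat → Nat) (w : List Nat) : Nat → Nat :=
  List.rec (motive := fun _ => Nat → Nat) (fun i => i) (fun g _ ih i => ih (nx g i)) w

theorem runT_nil (nx : Nat → Nat → Nat) (i : Nat) : runT nx [] i = i := rfl

theorem runT_cons (nx : Nat → Nat → Nat) (g : Nat) (w : List Nat) (i : Nat) :
    runT nx (g :: w) i = runT nx w (nx g i) := rfl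

/-- bounds for letters `< k` -/
def bndN (nx : Nat → Nat → Nat) (M k i : Nat) : Nat :=
  Nat.rec (motive := fun _ => Nat) 0 (fun g ih => Nat.lor (Nat.sub (nx g i) M) ih) k

/-- definitions of auxiliary letters -/
def defN (nx : Nat → Nat → Nat) (defs : List (List Nat)) (m i : Nat) : Nat :=
  List.rec (motive := fun _ => Nat → Nat) (fun _ => 0)
    (fun d _ ih k => Nat.lor (Nat.xor (nx k i) (runT nx d i)) (ih (Nat.succ k))) defs m

/-- inverse word -/
def invW (ι : Nat → Nat) (v : List Nat) : List Nat := (v.map ι).reverse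

/-- relations `u ++ v = 1`, checked as `u = v⁻¹` -/
def eqN (nx : Nat → Nat → Nat) (ι : Nat → Nat) (eqs : List (List Nat × List Nat)) (i : Nat) : Nat :=
  List.rec (motive := fun _ => Nat) 0
    (fun p _ ih => Nat.lor (Nat.xor (runT nx p.1 i) (runT nx (invW ι p.2) i)) ih) eqs

/-- block label -/
def labN (bs : List Nat) (j : Nat) : Nat :=
  List.rec (motive := fun _ => Nat) 0 (fun b _ ih => Nat.add (Nat.sub 1 (Nat.sub b j)) ih) bs

/-- letters of the list preserve the label -/
def labX (nx : Nat → Nat → Nat) (bs hl : List Nat) (i : Nat) : Nat :=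
  List.rec (motive := fun _ => Nat) 0 (fun l _ ih => Nat.lor (Nat.xor (labN bs (nx l i)) (labN bs i)) ih) hl

/-- nonzero if some letter of the list decreases `i` -/
def orS (nx : Nat → Nat → Nat) (hl : List Nat) (i : Nat) : Nat :=
  List.rec (motive := fun _ => Nat) 0 (fun l _ ih => Nat.lor (Nat.sub i (nx l i)) ih) hl

/-- nonzero if `i` is in the list -/
def isSt (st : List Nat) (i : Nat) : Nat :=
  List.rec (motive := fun _ => Nat) 0 (fun b _ ih => Nat.lor (Nat.sub 1 (Nat.xor i b)) ih) st

/-- the complete check of a point; must be `0` -/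
def Zc (nx : Nat → Nat → Nat) (ι : Nat → Nat) (N m m' : Nat) (defs : List (List Nat)) (eqs : List (List Nat × List Nat))
    (bs hl st : List Nat) (i : Nat) : Nat :=
  Nat.mul (Nat.lor (bndN nx (Nat.sub N 1) m' i) (Nat.lor (defN nx defs m i) (Nat.lor (eqN nx ι eqs i)
    (Nat.lor (labX nx bs hl i) (Nat.sub 1 (Nat.lor (orS nx hl i) (isSt st i))))))) (Nat.sub N i)

theorem lor_zero {a b : Nat} (h : Nat.lor a b = 0) : a = 0 ∧ b = 0 := Nat.or_eq_zero_iff.1 h

theorem xor_zero {a b : Nat} (h : Nat.xor a b = 0) : a = b := Nat.xor_eq_zero_iff.1 h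

theorem bndN_sound {nx : Nat → Nat → Nat} {M k i : Nat} (h : bndN nx M k i = 0) : ∀ g, g < k → nx g i ≤ M := by
  induction k with
  | zero => intro g hg; omega
  | succ k ih =>
    intro g hg
    obtain ⟨h1, h2⟩ := lor_zero h
    rcases Nat.lt_succ_iff_lt_or_eq.1 hg with hg | rfl
    · exact ih h2 g hg
    · exact Nat.sub_eq_zero_iff_le.1 h1

theorem defN_sound {nx : Nat → Nat → Nat} {defs : List (List Nat)} {m i : Nat} (h : defN nx defs m i = 0) :
    ∀ k, k < defs.length → nx (m + k) i = runT nx (defs.getD k []) i := by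
  induction defs generalizing m with
  | nil => intro k hk; simp at hk
  | cons d ds ih =>
    intro k hk
    obtain ⟨h1, h2⟩ := lor_zero h
    cases k with
    | zero => exact xor_zero h1
    | succ k =>
      have := ih h2 k (by simpa using hk)
      rw [List.getD_cons_succ, ← this]
      congr 1
      omega

theorem eqN_sound {nx : Nat → Nat → Nat} {ι : Nat → Nat} {eqs : List (List Nat × List Nat)} {i : Nat}
    (h : eqN nx ι eqs i = 0) : ∀ p ∈ eqs, runT nx p.1 i = runT nx (invW ι p.2) i := by
  induction eqs with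
  | nil => intro p hp; simp at hp
  | cons q eqs ih =>
    intro p hp
    obtain ⟨h1, h2⟩ := lor_zero h
    rcases List.mem_cons.1 hp with rfl | hp
    · exact xor_zero h1
    · exact ih h2 p hp

theorem labX_sound {nx : Nat → Nat → Nat} {bs hl : List Nat} {i : Nat}
    (h : labX nx bs hl i = 0) : ∀ l ∈ hl, labN bs (nx l i) = labN bs i := by
  induction hl with
  | nil => intro p hp; simp at hp
  | cons q eqs ih =>
    intro p hp
    obtain ⟨h1, h2⟩ := lor_zero h
    rcases List.mem_cons.1 hp with rfl | hp
    · exact xor_zero h1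
    · exact ih h2 p hp

theorem orS_sound {nx : Nat → Nat → Nat} {hl : List Nat} {i : Nat} (h : orS nx hl i ≠ 0) : ∃ l ∈ hl, nx l i < i := by
  induction hl with
  | nil => exact absurd rfl h
  | cons q hl ih =>
    by_cases h1 : Nat.sub i (nx q i) = 0
    · have h2 : orS nx hl i ≠ 0 := by
        intro h2
        apply h
        show Nat.lor (Nat.sub i (nx q i)) (orS nx hl i) = 0
        rw [h1, h2]; rfl
      obtain ⟨l, hl, h3⟩ := ih h2
      exact ⟨l, List.mem_cons_of_mem _ hl, h3⟩
    · refine ⟨q, List.mem_cons_self, ?_⟩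
      have : i - nx q i ≠ 0 := h1
      omega

theorem isSt_sound {st : List Nat} {i : Nat} (h : isSt st i ≠ 0) : i ∈ st := by
  induction st with
  | nil => exact absurd rfl h
  | cons b st ih =>
    by_cases h1 : Nat.sub 1 (Nat.xor i b) = 0
    · have h2 : isSt st i ≠ 0 := by
        intro h2
        apply h
        show Nat.lor (Nat.sub 1 (Nat.xor i b)) (isSt st i) = 0
        rw [h1, h2]; rfl
      exact List.mem_cons_of_mem _ (ih h2)
    · have h3 : 1 - Nat.xor i b ≠ 0 := h1
      have h4 : Nat.xor i b = 0 := by omega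
      rw [xor_zero h4]
      exact List.mem_cons_self

theorem labN_eq (bs : List Nat) (j : Nat) : labN bs j = lab bs j := by
  induction bs with
  | nil => rfl
  | cons b bs ih =>
    show (1 - (b - j)) + labN bs j = _
    rw [ih, H34.TC.lab_cons]
    split_ifs with h <;> omega

/-- what the check gives at all points -/
structure Facts (nx : Nat → Nat → Nat) (ι : Nat → Nat) (N m m' : Nat) (defs : List (List Nat))
    (eqs : List (List Nat × List Nat)) (bs hl st : List Nat) : Prop where
  bnd : ∀ i, i < N → ∀ g, g < m' → nx g i < N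
  dfn : ∀ i, i < N → ∀ k, k < defs.length → nx (m + k) i = runT nx (defs.getD k []) i
  eqs : ∀ i, i < N → ∀ p ∈ eqs, runT nx p.1 i = runT nx (invW ι p.2) i
  hlab : ∀ i, i < N → ∀ l ∈ hl, lab bs (nx l i) = lab bs i
  dec : ∀ i, i < N → (∃ l ∈ hl, nx l i < i) ∨ i ∈ st

theorem facts_of {nx : Nat → Nat → Nat} {ι : Nat → Nat} {N m m' : Nat} {defs : List (List Nat)}
    {eqs : List (List Nat × List Nat)} {bs hl st : List Nat}
    (h : ∀ i, i < N → Zc nx ι N m m' defs eqs bs hl st i = 0) : Facts nx ι N m m' defs eqs bs hl st := by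
  have key : ∀ i, i < N → bndN nx (Nat.sub N 1) m' i = 0 ∧ defN nx defs m i = 0 ∧ eqN nx ι eqs i = 0 ∧
      labX nx bs hl i = 0 ∧ Nat.sub 1 (Nat.lor (orS nx hl i) (isSt st i)) = 0 := by
    intro i hi
    have h1 := h i hi
    unfold Zc at h1
    rcases Nat.mul_eq_zero.1 h1 with h1 | h1
    · obtain ⟨h2, h3⟩ := lor_zero h1
      obtain ⟨h4, h5⟩ := lor_zero h3
      obtain ⟨h6, h7⟩ := lor_zero h5
      obtain ⟨h8, h9⟩ := lor_zero h7
      exact ⟨h2, h4, h6, h8, h9⟩
    · have : N - i = 0 := h1
      omega
  refine ⟨fun i hi g hg => ?_, fun i hi => defN_sound (key i hi).2.1, fun i hi => eqN_sound (key i hi).2.2.1,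
    fun i hi l hl => ?_, fun i hi => ?_⟩
  · have := bndN_sound (key i hi).1 g hg
    have h2 : nx g i ≤ N - 1 := this
    omega
  · have := labX_sound (key i hi).2.2.2.1 l hl
    rwa [labN_eq, labN_eq] at this
  · have h1 : 1 - Nat.lor (orS nx hl i) (isSt st i) = 0 := (key i hi).2.2.2.2
    by_cases h2 : orS nx hl i = 0
    · right
      apply isSt_sound
      intro h3
      rw [h2, h3] at h1
      exact absurd h1 (by decide)
    · left
      exact orS_sound h2

/-- range of points checked by a loop -/
theorem rngZ_of_loop {Z : Nat → Nat} {a b lo : Nat} (hi : Nat)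
    (h : loop2 (fun i => Nat.beq (Z i) 0) a b lo = true) (hhi : hi = lo + a * b) :
    RngF (fun _ z => z = 0) Z lo hi := by
  intro i h1 h2
  exact nbeq (loop2_sound h i h1 (by omega))

theorem facts_of_rng {nx : Nat → Nat → Nat} {ι : Nat → Nat} {N m m' : Nat} {defs : List (List Nat)}
    {eqs : List (List Nat × List Nat)} {bs hl st : List Nat} (Z : Nat → Nat)
    (hZ : ∀ i, Z i = Zc nx ι N m m' defs eqs bs hl st i) {hi : Nat} (h : RngF (fun _ z => z = 0) Z 0 hi) (hhi : N ≤ hi) :
    Facts nx ι N m m' defs eqs bs hl st :=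
  facts_of (fun i hi' => (hZ i).symm.trans (h i (Nat.zero_le _) (by omega)))

/-! ### permutations -/

/-- the permutation of `Fin N` given by a function (if it is one) -/
def permT (nx : Nat → Nat → Nat) (N : Nat) (g : Nat) : Equiv.Perm (Fin N) :=
  letI := Classical.propDecidable (∃ σ : Equiv.Perm (Fin N), ∀ i : Fin N, nx g i = (σ i : Nat))
  if h : ∃ σ : Equiv.Perm (Fin N), ∀ i : Fin N, nx g i = (σ i : Nat) then h.choose else 1

theorem permT_spec {nx : Nat → Nat → Nat} {N g : Nat} (h : ∃ σ : Equiv.Perm (Fin N), ∀ i : Fin N, nx g i = (σ i : Nat))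
    (i : Fin N) : nx g i = (permT nx N g i : Nat) := by
  have : permT nx N g = h.choose := by
    unfold permT
    exact dif_pos h
  rw [this]
  exact h.choose_spec i

/-- letters `< m'` are permutations -/
def IsPermT (nx : Nat → Nat → Nat) (N m' : Nat) : Prop := ∀ g, g < m' → ∀ i : Fin N, nx g i = (permT nx N g i : Nat)

theorem runT_eq {nx : Nat → Nat → Nat} {N : Nat} (w : List Nat)
    (hp : ∀ g ∈ w, ∀ i : Fin N, nx g i = (permT nx N g i : Nat)) (i : Fin N) :
    runT nx w i = (wp (permT nx N) w i : Nat) := by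
  induction w generalizing i with
  | nil => simp [runT_nil, wp]
  | cons g w ih =>
    rw [runT_cons, hp g (by simp) i]
    simp only [wp]
    rw [ih (fun g hg => hp g (by simp [hg]))]
    rfl

variable {nx : Nat → Nat → Nat} {ι : Nat → Nat} {N m m' : Nat} {defs exps : List (List Nat)}
  {eqs : List (List Nat × List Nat)} {bs hl st : List Nat}

/-- combinatorial side conditions (all decidable) -/
structure Side (ι : Nat → Nat) (N m m' : Nat) (defs exps : List (List Nat)) (eqs : List (List Nat × List Nat))
    (bs hl st : List Nat) : Prop where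
  hm' : m' = m + defs.length
  hι : ∀ g, g < m → ι g < m
  inv : ∀ g, g < m → ([g, ι g], []) ∈ eqs
  dlt : ∀ k, k < defs.length → ∀ g ∈ defs.getD k [], g < m + k
  elt : ∀ k, k < defs.length → ∀ g ∈ exps.getD k [], g < m
  exp : ∀ k, k < defs.length → exps.getD k [] =
    (defs.getD k []).flatMap (fun g => if g < m then [g] else exps.getD (g - m) [])
  eq1 : ∀ p ∈ eqs, ∀ g ∈ p.1, g < m'
  eq2 : ∀ p ∈ eqs, ∀ g ∈ p.2, g < m
  hlt : ∀ l ∈ hl, l < m'

/-- expansion of a letter -/
def exp1 (m : Nat) (exps : List (List Nat)) (g : Nat) : List Nat := if g < m then [g] else exps.getD (g - m) []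

theorem Facts.isPerm (F : Facts nx ι N m m' defs eqs bs hl st) (S : Side ι N m m' defs exps eqs bs hl st) :
    IsPermT nx N m' := by
  intro g
  induction g using Nat.strong_induction_on with
  | _ g ih =>
    intro hg
    by_cases hgm : g < m
    · have hinj : Function.Injective (fun i : Fin N => (⟨nx g i, F.bnd i i.2 g hg⟩ : Fin N)) := by
        intro i j hij
        have h1 : nx g i = nx g j := congrArg Fin.val hij
        have h2 := F.eqs i i.2 _ (S.inv g hgm)
        have h3 := F.eqs j j.2 _ (S.inv g hgm)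
        simp only [runT_cons, runT_nil, invW, List.map_nil, List.reverse_nil] at h2 h3
        rw [h1, h3] at h2
        exact Fin.ext h2.symm
      have hbij := Finite.injective_iff_bijective.1 hinj
      exact permT_spec ⟨Equiv.ofBijective _ hbij, fun i => rfl⟩
    · have hk : g - m < defs.length := by have := S.hm'; omega
      have hgk : m + (g - m) = g := by omega
      refine permT_spec ⟨wp (permT nx N) (defs.getD (g - m) []), fun i => ?_⟩
      rw [← runT_eq (defs.getD (g - m) []) (fun a ha => ih a (by have := S.dlt _ hk a ha; omega)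
        (by have := S.dlt _ hk a ha; omega)), ← F.dfn i i.2 _ hk, hgk]

theorem wp_congr_of {u v : List Nat} (hp : IsPermT nx N m') (hu : ∀ g ∈ u, g < m') (hv : ∀ g ∈ v, g < m')
    (h : ∀ i, i < N → runT nx u i = runT nx v i) : wp (permT nx N) u = wp (permT nx N) v := by
  ext i
  have h1 := runT_eq u (fun g hg => hp g (hu g hg)) i
  have h2 := runT_eq v (fun g hg => hp g (hv g hg)) i
  rw [← h1, ← h2, h i i.2]

theorem Facts.wp_exp (F : Facts nx ι N m m' defs eqs bs hl st) (S : Side ι N m m' defs exps eqs bs hl st) :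
    ∀ g, g < m' → wp (permT nx N) (exp1 m exps g) = permT nx N g := by
  have hp := F.isPerm S
  intro g
  induction g using Nat.strong_induction_on with
  | _ g ih =>
    intro hg
    unfold exp1
    split_ifs with hgm
    · simp [wp]
    · have hk : g - m < defs.length := by have := S.hm'; omega
      have hgk : m + (g - m) = g := by omega
      have key : ∀ w : List Nat, (∀ a ∈ w, a < g) →
          wp (permT nx N) (w.flatMap (exp1 m exps)) = wp (permT nx N) w := by
        intro w
        induction w with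
        | nil => intro _; rfl
        | cons a w ih2 =>
          intro hw
          rw [List.flatMap_cons, wp_append, ih2 (fun b hb => hw b (by simp [hb]))]
          rw [ih a (hw a (by simp)) (by have := hw a (by simp); omega)]
          rfl
      rw [S.exp _ hk]
      have h1 : wp (permT nx N) ((defs.getD (g - m) []).flatMap (exp1 m exps)) = wp (permT nx N) (defs.getD (g - m) []) :=
        key _ (fun a ha => by have := S.dlt _ hk a ha; omega)
      refine h1.trans ?_
      have h2 : wp (permT nx N) [g] = permT nx N g := by simp [wp]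
      rw [← h2]
      symm
      refine wp_congr_of hp (by simpa using hg) (fun a ha => by have := S.dlt _ hk a ha; omega) (fun i hi => ?_)
      have := F.dfn i hi _ hk
      rw [hgk] at this
      exact this

theorem wp_flatMap (f : Nat → List Nat) (P : Nat → Equiv.Perm (Fin N)) (w : List Nat)
    (h : ∀ a ∈ w, wp P (f a) = P a) : wp P (w.flatMap f) = wp P w := by
  induction w with
  | nil => rfl
  | cons a w ih =>
    rw [List.flatMap_cons, wp_append, ih (fun b hb => h b (by simp [hb])), h a (by simp)]
    rfl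

/-- a relation proved by an equation of the list -/
theorem Facts.rel (F : Facts nx ι N m m' defs eqs bs hl st) (S : Side ι N m m' defs exps eqs bs hl st)
    {r : List Nat} {p : List Nat × List Nat} (hp : p ∈ eqs) (hr : r = (p.1 ++ p.2).flatMap (exp1 m exps)) :
    wp (permT nx N) r = 1 := by
  have hP := F.isPerm S
  have hm : m ≤ m' := by have := S.hm'; omega
  have hinv : ∀ g, g < m → permT nx N (ι g) = (permT nx N g)⁻¹ := by
    intro g hg
    have h1 := wp_congr_of (u := [g, ι g]) (v := []) hP (by
      intro a ha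
      simp only [List.mem_cons, List.not_mem_nil, or_false] at ha
      have := S.hι g hg
      rcases ha with rfl | rfl <;> omega) (by simp) (fun i hi => F.eqs i hi _ (S.inv g hg))
    simp only [wp, one_mul] at h1
    exact eq_inv_of_mul_eq_one_left h1
  have hiw : ∀ v : List Nat, (∀ g ∈ v, g < m) → wp (permT nx N) (invW ι v) = (wp (permT nx N) v)⁻¹ := by
    intro v
    induction v with
    | nil => intro _; simp [invW, wp]
    | cons a v ih =>
      intro hv
      have h1 : invW ι (a :: v) = invW ι v ++ [ι a] := by simp [invW]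
      rw [h1, wp_append, ih (fun g hg => hv g (by simp [hg]))]
      simp only [wp, one_mul, mul_inv_rev]
      rw [hinv a (hv a (by simp))]
  rw [hr, wp_flatMap (exp1 m exps) (permT nx N) _ (fun a ha => F.wp_exp S a (by
    rcases List.mem_append.1 ha with ha | ha
    · exact S.eq1 p hp a ha
    · exact lt_of_lt_of_le (S.eq2 p hp a ha) hm)), wp_append]
  have h1 := wp_congr_of (u := p.1) (v := invW ι p.2) hP (S.eq1 p hp) (by
    intro g hg
    simp only [invW, List.mem_reverse, List.mem_map] at hg
    obtain ⟨a, ha, rfl⟩ := hg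
    exact lt_of_lt_of_le (S.hι a (S.eq2 p hp a ha)) hm) (fun i hi => F.eqs i hi p hp)
  rw [h1, hiw _ (S.eq2 p hp), mul_inv_cancel]

/-! ### action -/

section act

variable {G : Type*} [Group G] {ℓ : Nat → G} {H : Subgroup G} {φ : G →* Equiv.Perm (Fin N)}

theorem map_wp (hφ : ∀ g < m, φ (ℓ g) = permT nx N g) (w : List Nat) (hw : ∀ g ∈ w, g < m) :
    φ (wp ℓ w) = wp (permT nx N) w := by
  induction w with
  | nil => simp [wp]
  | cons g w ih =>
    simp only [wp, map_mul]
    rw [ih (fun g hg => hw g (by simp [hg])), hφ g (hw g (by simp))]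

/-- the group element of a letter -/
def el (ℓ : Nat → G) (m : Nat) (exps : List (List Nat)) (g : Nat) : G := wp ℓ (exp1 m exps g)

theorem Facts.map_el (F : Facts nx ι N m m' defs eqs bs hl st) (S : Side ι N m m' defs exps eqs bs hl st)
    (hφ : ∀ g < m, φ (ℓ g) = permT nx N g) (g : Nat) (hg : g < m') : φ (el ℓ m exps g) = permT nx N g := by
  rw [el, map_wp hφ, F.wp_exp S g hg]
  intro a ha
  unfold exp1 at ha
  split_ifs at ha with h
  · simp only [List.mem_singleton] at ha; omega
  · exact S.elt _ (by have := S.hm'; omega) a ha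

/-- transitivity -/
theorem Facts.trans (F : Facts nx ι N m m' defs eqs bs hl st) (S : Side ι N m m' defs exps eqs bs hl st) (hN : 0 < N)
    (hφ : ∀ g < m, φ (ℓ g) = permT nx N g)
    (hst : ∀ b ∈ st, b = 0 ∨ ∃ g, g < m ∧ nx g b < b) :
    ∀ i : Fin N, ∃ g : G, φ g ⟨0, hN⟩ = i := by
  have hP := F.isPerm S
  have hm : m ≤ m' := by have := S.hm'; omega
  have key : ∀ i, (hi : i < N) → ∃ g : G, φ g ⟨i, hi⟩ = ⟨0, hN⟩ := by
    intro i
    induction i using Nat.strong_induction_on with
    | _ i ih =>
      intro hi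
      have hl' : ∀ l, l < m' → nx l i < i → ∃ g : G, φ g ⟨i, hi⟩ = ⟨0, hN⟩ := by
        intro l hl h1
        obtain ⟨g, hg⟩ := ih _ h1 (h1.trans hi)
        refine ⟨g * el ℓ m exps l, ?_⟩
        rw [map_mul, Equiv.Perm.mul_apply, F.map_el S hφ l hl, ← hg]
        congr 1
        apply Fin.ext
        exact (hP l hl ⟨i, hi⟩).symm
      rcases F.dec i hi with ⟨l, hl, h1⟩ | h1
      · exact hl' l (S.hlt l hl) h1
      · rcases hst i h1 with rfl | ⟨g, hg, h2⟩
        · exact ⟨1, by simp⟩
        · exact hl' g (by omega) h2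
  intro i
  obtain ⟨g, hg⟩ := key i i.2
  refine ⟨g⁻¹, ?_⟩
  rw [map_inv, Equiv.Perm.inv_eq_iff_eq]
  exact hg.symm

/-- label invariance -/
theorem Facts.lab_inv (F : Facts nx ι N m m' defs eqs bs hl st) (S : Side ι N m m' defs exps eqs bs hl st)
    (hφ : ∀ g < m, φ (ℓ g) = permT nx N g) (hH : H = Subgroup.closure {x | ∃ l ∈ hl, x = el ℓ m exps l}) :
    ∀ h ∈ H, ∀ i : Fin N, lab bs (φ h i) = lab bs i := by
  have hP := F.isPerm S
  intro h hh
  rw [hH] at hh
  induction hh using Subgroup.closure_induction with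
  | mem x hx =>
    obtain ⟨l, hl, rfl⟩ := hx
    intro i
    rw [F.map_el S hφ l (S.hlt l hl), ← hP l (S.hlt l hl) i]
    exact F.hlab i i.2 l hl
  | one => intro i; simp
  | mul x y _ _ hx hy => intro i; rw [map_mul, Equiv.Perm.mul_apply, hx, hy]
  | inv x _ hx =>
    intro i
    rw [map_inv]
    have := hx ((φ x)⁻¹ i)
    rw [← Equiv.Perm.mul_apply, mul_inv_cancel, Equiv.Perm.one_apply] at this
    exact this.symm

/-- orbits of the subgroup on the points -/
theorem Facts.orb (F : Facts nx ι N m m' defs eqs bs hl st) (S : Side ι N m m' defs exps eqs bs hl st)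
    (hφ : ∀ g < m, φ (ℓ g) = permT nx N g) (hH : H = Subgroup.closure {x | ∃ l ∈ hl, x = el ℓ m exps l})
    (lo hi : Nat) (hlo : lo < N) (hlab : ∀ x, x < N → (lab bs x = lab bs lo ↔ (lo ≤ x ∧ x < hi)))
    (hns : ∀ x, lo < x → x < hi → x ∉ st) :
    ∀ y : Fin N, (∃ h ∈ H, φ h ⟨lo, hlo⟩ = y) ↔ (lo ≤ (y : Nat) ∧ (y : Nat) < hi) := by
  have hP := F.isPerm S
  have hinv := F.lab_inv S hφ hH
  intro y
  constructor
  · rintro ⟨h, hh, rfl⟩
    exact (hlab _ (Fin.is_lt _)).1 (hinv h hh ⟨lo, hlo⟩)
  · intro hq
    have key : ∀ x, (hx : x < N) → lo ≤ x → x < hi → ∃ h ∈ H, φ h ⟨x, hx⟩ = ⟨lo, hlo⟩ := by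
      intro x
      induction x using Nat.strong_induction_on with
      | _ x ih =>
        intro hx h1 h2
        rcases Nat.eq_or_lt_of_le h1 with rfl | h3
        · exact ⟨1, H.one_mem, by simp⟩
        · rcases F.dec x hx with ⟨l, hl, h4⟩ | h4
          · have h7 : el ℓ m exps l ∈ H := by rw [hH]; exact Subgroup.subset_closure ⟨l, hl, rfl⟩
            have h8 : φ (el ℓ m exps l) ⟨x, hx⟩ = ⟨nx l x, h4.trans hx⟩ := by
              rw [F.map_el S hφ l (S.hlt l hl)]
              apply Fin.ext
              exact (hP l (S.hlt l hl) ⟨x, hx⟩).symm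
            have h10 : lab bs (nx l x) = lab bs lo := (F.hlab x hx l hl).trans ((hlab x hx).2 ⟨h1, h2⟩)
            obtain ⟨h11, h12⟩ := (hlab _ (h4.trans hx)).1 h10
            obtain ⟨h, hh, h13⟩ := ih _ h4 (h4.trans hx) h11 h12
            refine ⟨h * el ℓ m exps l, H.mul_mem hh h7, ?_⟩
            rw [map_mul, Equiv.Perm.mul_apply, h8, h13]
          · exact absurd h4 (hns x h3 h2)
    obtain ⟨h, hh, h1⟩ := key y y.2 hq.1 hq.2
    refine ⟨h⁻¹, H.inv_mem hh, ?_⟩
    rw [map_inv, Equiv.Perm.inv_eq_iff_eq]
    exact h1.symm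

end act

end H34.T2
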