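import Cfsg.Agent.Lib.H34.T2Check
import Cfsg.Agent.Lib.H34.TCCox

/-!
Version 2: loops, ranges, counting, and the group-level upper bound `H.index ≤ N`.
-/

set_option autoImplicit false

noncomputable section

open scoped Pointwise

namespace H34.T2

open H34.TC (actW actW_append actW_injective brec nbeq nble wp wp_eq wp_append wp_reverse actW_smul mkW wp_mkW wAF wEF)

/-! ### loops -/

/-- run `f` on `[lo, lo + n)` -/
def loopB (f : Nat → Bool) (n lo : Nat) : Bool :=
  Nat.rec (motive := fun _ => Bool) true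
    (fun k ih => Bool.rec (motive := fun _ => Bool) false ih (f (Nat.add lo k))) n

/-- run `f` on `[lo, lo + a * b)` -/
def loop2 (f : Nat → Bool) (a b lo : Nat) : Bool :=
  Nat.rec (motive := fun _ => Bool) true
    (fun q ih => Bool.rec (motive := fun _ => Bool) false ih (loopB f b (Nat.add lo (Nat.mul q b)))) a

theorem loopB_sound {f : Nat → Bool} {n lo : Nat} (h : loopB f n lo = true) :
    ∀ i, lo ≤ i → i < lo + n → f i = true := by
  induction n with
  | zero => intro i h1 h2; omega
  | succ n ih =>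
    intro i h1 h2
    obtain ⟨h3, h4⟩ := brec h
    by_cases h5 : i = lo + n
    · subst h5; exact h3
    · exact ih h4 i h1 (by omega)

theorem loop2_sound {f : Nat → Bool} {a b lo : Nat} (h : loop2 f a b lo = true) :
    ∀ i, lo ≤ i → i < lo + a * b → f i = true := by
  induction a with
  | zero => intro i h1 h2; omega
  | succ a ih =>
    intro i h1 h2
    obtain ⟨h3, h4⟩ := brec h
    by_cases h5 : i < lo + a * b
    · exact ih h4 i h1 h5
    · refine loopB_sound h3 i (by show lo + a * b ≤ i; omega) ?_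
      show i < lo + a * b + b
      rw [Nat.succ_mul] at h2
      omega

/-- a predicate holds for all entries of a table function in `[lo, hi)` -/
def RngF (P : Nat → Nat → Prop) (f : Nat → Nat) (lo hi : Nat) : Prop := ∀ i, lo ≤ i → i < hi → P i (f i)

/-- binary branching of table functions -/
def brF (p : Nat) (f0 f1 : Nat → Nat) (i : Nat) : Nat :=
  Bool.rec (motive := fun _ => Nat) (f0 i) (f1 i) (Nat.ble p i)

theorem brF_eq (p : Nat) (f0 f1 : Nat → Nat) (i : Nat) : brF p f0 f1 i = if p ≤ i then f1 i else f0 i := by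
  unfold brF
  by_cases h : p ≤ i
  · rw [if_pos h, show Nat.ble p i = true from Nat.ble_eq_true_of_le h]
  · rw [if_neg h, show Nat.ble p i = false from by
      cases hb : Nat.ble p i with
      | false => rfl
      | true => exact absurd (Nat.le_of_ble_eq_true hb) h]

theorem RngF.br {P : Nat → Nat → Prop} {f0 f1 : Nat → Nat} {lo p hi : Nat} (h1 : RngF P f0 lo p)
    (h2 : RngF P f1 p hi) : RngF P (brF p f0 f1) lo hi := by
  intro i hlo hhi
  rw [brF_eq]
  split_ifs with h
  · exact h2 i h hhi
  · exact h1 i hlo (by omega)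

theorem RngF.app {P : Nat → Nat → Prop} {f : Nat → Nat} {lo p hi : Nat} (h1 : RngF P f lo p)
    (h2 : RngF P f p hi) : RngF P f lo hi := by
  intro i hlo hhi
  by_cases h : i < p
  · exact h1 i hlo h
  · exact h2 i (by omega) hhi

theorem RngF.mono {P : Nat → Nat → Prop} {f : Nat → Nat} {lo hi hi' : Nat} (h1 : RngF P f lo hi')
    (h : hi ≤ hi') : RngF P f lo hi := fun i hlo hhi => h1 i hlo (by omega)

/-- branching inside an accessor `K` -/
theorem RngF.brK {P : Nat → Nat → Prop} {K : Nat → Nat → Nat} {f0 f1 : Nat → Nat} {lo p hi : Nat}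
    (h1 : RngF P (fun x => K (f0 x) x) lo p) (h2 : RngF P (fun x => K (f1 x) x) p hi) :
    RngF P (fun x => K (brF p f0 f1 x) x) lo hi := by
  intro i hlo hhi
  show P i (K (brF p f0 f1 i) i)
  rw [brF_eq]
  split_ifs with h
  · exact h2 i h hhi
  · exact h1 i hlo (by omega)

theorem RngF.zero {P : Nat → Nat → Prop} {lo hi : Nat} (h : ∀ i, lo ≤ i → i < hi → P i 0) :
    RngF P (fun _ => 0) lo hi := h

/-- range from a kernel computation -/
theorem rng_of_loop (chk : Nat → Nat → Nat → Bool) (f j : Nat → Nat) (a b lo hi : Nat)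
    (h : loop2 (fun i => chk i (f i) (j i)) a b lo = true) (hhi : hi = lo + a * b) :
    RngF (fun i e => ∃ J, chk i e J = true) f lo hi := by
  intro i h1 h2
  exact ⟨j i, loop2_sound h i h1 (by omega)⟩

/-! ### counting -/

/-- number of `x` in `[lo + 1, lo + 2^d]` with `x ≤ nr` and `f x = 0` -/
def cntR (f : Nat → Nat) (nr : Nat) (d : Nat) : Nat → Nat :=
  Nat.rec (motive := fun _ => Nat → Nat)
    (fun lo => Nat.sub 1 (Nat.add (f (Nat.succ lo)) (Nat.sub (Nat.succ lo) nr)))
    (fun d ih lo => Nat.add (ih lo) (ih (Nat.add lo (Nat.shiftLeft 1 d)))) d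

theorem cntR_eq (f : Nat → Nat) (nr : Nat) (d : Nat) : ∀ lo,
    cntR f nr d lo = ((Finset.Ioc lo (lo + 2 ^ d)).filter (fun x => x ≤ nr ∧ f x = 0)).card := by
  induction d with
  | zero =>
    intro lo
    show 1 - (f (lo + 1) + (lo + 1 - nr)) = _
    have h1 : Finset.Ioc lo (lo + 2 ^ 0) = {lo + 1} := by
      ext x; simp only [Finset.mem_Ioc, Finset.mem_singleton, pow_zero]; omega
    rw [h1, Finset.filter_singleton]
    split_ifs with h
    · rw [Finset.card_singleton]; omega
    · rw [Finset.card_empty]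
      by_contra h2
      apply h
      constructor <;> omega
  | succ d ih =>
    intro lo
    show cntR f nr d lo + cntR f nr d (lo + Nat.shiftLeft 1 d) = _
    have h5 : Nat.shiftLeft 1 d = 2 ^ d := Nat.one_shiftLeft d
    rw [h5, ih, ih, ← Finset.card_union_of_disjoint, ← Finset.filter_union]
    · congr 2
      ext x
      have : (2 : Nat) ^ (d + 1) = 2 ^ d + 2 ^ d := by rw [pow_succ]; omega
      simp only [Finset.mem_union, Finset.mem_Ioc, this]
      omega
    · rw [Finset.disjoint_left]
      intro x hx hx'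
      simp only [Finset.mem_filter, Finset.mem_Ioc] at hx hx'
      omega

theorem cntR_zero (f : Nat → Nat) (nr d : Nat) (h : nr ≤ 2 ^ d) :
    cntR f nr d 0 = ((Finset.Icc 1 nr).filter (fun x => f x = 0)).card := by
  rw [cntR_eq]
  congr 1
  ext x
  simp only [Finset.mem_filter, Finset.mem_Ioc, Finset.mem_Icc]
  omega

/-! ### points -/

/-- the points named by the definition table -/
def vOf {X : Type*} (act : Nat → X → X) (x0 : X) (D : Nat → Nat) (k : Nat) : X :=
  Nat.strongRec (motive := fun _ => X)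
    (fun k ih => if h : D k / 32 < k then act (D k % 32) (ih _ h) else x0) k

theorem vOf_eq {X : Type*} (act : Nat → X → X) (x0 : X) (D : Nat → Nat) (k : Nat) :
    vOf act x0 D k = if D k / 32 < k then act (D k % 32) (vOf act x0 D (D k / 32)) else x0 := by
  conv_lhs => unfold vOf
  rw [Nat.strongRec_eq]
  by_cases h : D k / 32 < k
  · rw [dif_pos h, if_pos h]; rfl
  · rw [dif_neg h, if_neg h]

theorem vOf_one {X : Type*} (act : Nat → X → X) (x0 : X) (D : Nat → Nat) (h : 32 ≤ D 1) : vOf act x0 D 1 = x0 := by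
  rw [vOf_eq, if_neg]
  have : 1 ≤ D 1 / 32 := (Nat.le_div_iff_mul_le (by norm_num)).2 (by omega)
  omega

theorem vOf_def {X : Type*} (act : Nat → X → X) (x0 : X) (D : Nat → Nat) (i g j : Nat) (h : D j = i * 32 + g)
    (hg : g < 32) (hij : i < j) : vOf act x0 D j = act g (vOf act x0 D i) := by
  rw [vOf_eq]
  have h1 : D j / 32 = i := by omega
  have h2 : D j % 32 = g := by omega
  rw [h1, h2, if_pos hij]

/-- table functions of the letters -/
def enF (enL : List (Nat → Nat)) (g : Nat) : Nat → Nat := enL.getD g (fun _ => 0)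

variable {G : Type*} [Group G]

/-- upper bound from a certificate -/
theorem upper (ℓ : Nat → G) (H : Subgroup G) (m nr N dd : Nat) (enL : List (Nat → Nat)) (E D : Nat → Nat)
    (base : List (List Nat)) (ι : Nat → Nat) (WA : List (List (List Nat))) (HA : List (List (Nat × Bool × Nat)))
    (WE : List (List Nat)) (HE : List (Nat × Bool × Nat)) (subs : List (List Nat × Nat × List Nat))
    (subE : List (List Nat × List Nat)) (wel : List (List (Nat → Nat)))
    (hm : m ≤ 32) (hnr0 : nr ≠ 0) (hnr : nr < 1048576) (hdd : nr ≤ 2 ^ dd) (hlen : enL.length = m)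
    (h00 : ∀ f ∈ enL, f 0 = 0) (hE0 : E 0 = 0) (hD1 : 32 ≤ D 1)
    (hι : ∀ g, ℓ (ι g) = (ℓ g)⁻¹)
    (hbase : ∀ r ∈ base, (r.map ℓ).prod = 1)
    (hgen : Subgroup.closure {x | ∃ g < m, x = ℓ g} = ⊤)
    (hsub : ∀ s ∈ subs, wp ℓ (s.1 ++ s.2.1 :: s.2.2) ∈ H)
    (hsub' : ∀ s ∈ subE, wp ℓ (s.1 ++ s.2) ∈ H)
    (hW : ∀ g < m, (WA.getD g []).map (g :: ·) = (HA.getD g []).map (mkW ι base))
    (hWE : WE = HE.map (mkW ι base))
    (hwel : wel = WE.map (List.map (enF enL)))
    (hslot : ∀ g, g < m → ∃ wl dl, wl = (WA.getD g []).map (List.map (enF enL)) ∧ dl = [ι g].map (enF enL) ∧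
      RngF (fun i e => ∃ J, chkS (enF enL) E D wl dl subs nr g i e J = true) (enF enL g) 0 (nr + 1))
    (heq : RngF (fun i e => ∃ J, chkQ (enF enL) E wel subE nr i e J = true) E 0 (nr + 1))
    (hN : cntR E nr dd 0 = N) :
    H.FiniteIndex ∧ H.index ≤ N := by
  classical
  set act : Nat → (G ⧸ H) → (G ⧸ H) := fun g x => ℓ g • x with hact
  set x0 : G ⧸ H := ((1 : G) : G ⧸ H) with hx0
  have hfix : ∀ h ∈ H, h • x0 = x0 := by
    intro h hh
    rw [hx0]
    change ((h * 1 : G) : G ⧸ H) = ((1 : G) : G ⧸ H)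
    rw [QuotientGroup.eq]
    simpa using hh
  have hv1 := vOf_one act x0 D hD1
  have Hyp1 : Hyp act (vOf act x0 D) D m (wAF ι WA) (wEF WE) subs subE := by
    refine ⟨fun g x y h => MulAction.injective (ℓ g) h, hm, fun i g j h1 h2 h3 => vOf_def _ _ _ _ _ _ h1 h2 h3, ?_, ?_, ?_, ?_⟩
    · intro g k x hg
      have : wp ℓ (g :: wAF ι WA g k) = 1 := by
        unfold wAF
        rw [List.getD_eq_getElem?_getD]
        cases h2 : (WA.getD g [])[k]? with
        | none => simp [wp, hι]
        | some r =>
          have h3 : (g :: r) ∈ (WA.getD g []).map (g :: ·) := List.mem_map.2 ⟨r, List.mem_of_getElem? h2, rfl⟩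
          rw [hW g hg, List.mem_map] at h3
          obtain ⟨h, _, h4⟩ := h3
          simp only [Option.getD_some]
          rw [← h4]
          exact wp_mkW ℓ ι hι base hbase h
      rw [hact, actW_smul, this, one_smul]
    · intro k x
      have : wp ℓ (wEF WE k) = 1 := by
        unfold wEF
        rw [List.getD_eq_getElem?_getD]
        cases h2 : WE[k]? with
        | none => simp [wp]
        | some r =>
          have h3 : r ∈ WE := List.mem_of_getElem? h2
          rw [hWE, List.mem_map] at h3
          obtain ⟨h, _, h4⟩ := h3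
          simp only [Option.getD_some]
          rw [← h4]
          exact wp_mkW ℓ ι hι base hbase h
      rw [hact, actW_smul, this, one_smul]
    · intro s hs
      rw [hact, actW_smul, ← hact, hv1]
      exact hfix _ (hsub s hs)
    · intro s hs
      rw [hact, actW_smul, ← hact, hv1]
      exact hfix _ (hsub' s hs)
  have htab : ∀ g x, m ≤ g → enF enL g x = 0 := by
    intro g i hg
    unfold enF
    rw [List.getD_eq_getElem?_getD, List.getElem?_eq_none (by omega)]
    rfl
  have h0 : ∀ g, enF enL g 0 = 0 := by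
    intro g
    unfold enF
    rw [List.getD_eq_getElem?_getD]
    cases h2 : enL[g]? with
    | none => rfl
    | some f => exact h00 f (List.mem_of_getElem? h2)
  have hwe : ∀ k, nthL wel [] k = (wEF WE k).map (enF enL) := by
    intro k
    rw [hwel]
    exact nthL_map (enF enL) WE [] k
  obtain ⟨S, hS1, hS2, hS3⟩ := closed (act := act) (v := vOf act x0 D) (en := enF enL) (E := E) (nr := nr) (m := m)
    hnr0 h0 hE0
    (by
      intro g x hg hx hn
      obtain ⟨wl, dl, h1, h2, h3⟩ := hslot g hg
      obtain ⟨J, hJ⟩ := h3 x (Nat.zero_le _) (by omega)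
      refine chkS_sound Hyp1 ?_ h0 hnr0 hnr hg hx hn hJ
      intro k
      rw [h1, h2]
      exact nthL_map (enF enL) (WA.getD g []) [ι g] k)
    htab
    (by
      intro x hx hn
      obtain ⟨J, hJ⟩ := heq x (Nat.zero_le _) (by omega)
      exact chkQ_sound Hyp1 hwe hnr0 hx hn hJ)
  rw [hv1] at hS2
  rw [← cntR_zero E nr dd hdd, hN] at hS1
  have key : ∀ g : G, ∀ x ∈ S, g • x ∈ S := by
    have h1 : (⊤ : Subgroup G) ≤ MulAction.stabilizer G (S : Set (G ⧸ H)) := by
      rw [← hgen, Subgroup.closure_le]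
      rintro _ ⟨g, hg, rfl⟩
      rw [SetLike.mem_coe, MulAction.mem_stabilizer_set_iff_smul_set_subset (Finset.finite_toSet S)]
      rintro _ ⟨x, hx, rfl⟩
      exact hS3 g x hg hx
    intro g x hx
    have h2 : g ∈ MulAction.stabilizer G (S : Set (G ⧸ H)) := h1 (Subgroup.mem_top g)
    rw [MulAction.mem_stabilizer_iff] at h2
    have : g • x ∈ g • (S : Set (G ⧸ H)) := Set.smul_mem_smul_set hx
    rw [h2] at this
    exact this
  have hall : ∀ x : G ⧸ H, x ∈ S := by
    intro x
    induction x using QuotientGroup.induction_on with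
    | H g =>
      have := key g x0 hS2
      rw [hx0] at this
      change ((g * 1 : G) : G ⧸ H) ∈ S at this
      rwa [mul_one] at this
  have hfin : Finite (G ⧸ H) := Set.finite_univ_iff.1 ((Finset.finite_toSet S).subset (fun x _ => hall x))
  refine ⟨Subgroup.finiteIndex_of_finite_quotient, ?_⟩
  have : Fintype (G ⧸ H) := Fintype.ofFinite _
  rw [Subgroup.index, Nat.card_eq_fintype_card, ← Finset.card_univ]
  exact (Finset.card_le_card (fun x _ => hall x)).trans hS1

open Cfsg.Spor H34.TC in
/-- upper bound for Coxeter-type presentations -/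
theorem cox_upper {α : Type} [DecidableEq α] {edges : List (α × ℕ × α)} {extra : List (FreeGroup α)} {gens : List α}
    (hg : ∀ x, x ∈ gens) (hn : ∀ x, x ∈ coxNodes edges)
    (H : Subgroup (CoxPresented α edges extra)) (hw : List (List Nat))
    (hH : H = Subgroup.closure {x | ∃ w ∈ hw, x = wp (ell gens (gn edges extra)) w})
    (base : List (List Nat)) (hb : baseChk gens edges extra base = true)
    (nr N dd : Nat) (enL : List (Nat → Nat)) (E D : Nat → Nat)
    (WA : List (List (List Nat))) (HA : List (List (Nat × Bool × Nat)))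
    (WE : List (List Nat)) (HE : List (Nat × Bool × Nat)) (subs : List (List Nat × Nat × List Nat))
    (subE : List (List Nat × List Nat)) (wel : List (List (Nat → Nat)))
    (hm : gens.length ≤ 32) (hnr0 : nr ≠ 0) (hnr : nr < 1048576) (hdd : nr ≤ 2 ^ dd) (hlen : enL.length = gens.length)
    (h00 : (enL.all fun f => Nat.beq (f 0) 0) = true) (hE0 : Nat.beq (E 0) 0 = true) (hD1 : Nat.ble 32 (D 1) = true)
    (hsub : (subs.all fun s => hw.elem (s.1 ++ s.2.1 :: s.2.2)) = true)
    (hsub' : (subE.all fun s => hw.elem (s.1 ++ s.2)) = true)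
    (hW : ((List.range gens.length).all fun g => decide ((WA.getD g []).map (g :: ·) = (HA.getD g []).map (mkW id base))) = true)
    (hWE : decide (WE = HE.map (mkW id base)) = true)
    (hwel : wel = WE.map (List.map (enF enL)))
    (hslot : ∀ g, g < gens.length → ∃ wl dl, wl = (WA.getD g []).map (List.map (enF enL)) ∧ dl = [id g].map (enF enL) ∧
      RngF (fun i e => ∃ J, chkS (enF enL) E D wl dl subs nr g i e J = true) (enF enL g) 0 (nr + 1))
    (heq : RngF (fun i e => ∃ J, chkQ (enF enL) E wel subE nr i e J = true) E 0 (nr + 1))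
    (hN : cntR E nr dd 0 = N) :
    H.FiniteIndex ∧ H.index ≤ N := by
  refine upper (ell gens (gn edges extra)) H gens.length nr N dd enL E D base id WA HA WE HE subs subE wel hm hnr0 hnr
    hdd hlen ?_ (nbeq hE0) (Nat.le_of_ble_eq_true hD1)
    (ell_inv hn) (base_trivial hg hn hb) (ell_gen hg) ?_ ?_ ?_ (of_decide_eq_true hWE) hwel hslot heq hN
  · intro f hf
    rw [List.all_eq_true] at h00
    exact nbeq (h00 f hf)
  · intro s hs
    rw [List.all_eq_true] at hsub
    rw [hH]
    exact Subgroup.subset_closure ⟨_, List.elem_iff.1 (hsub s hs), rfl⟩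
  · intro s hs
    rw [List.all_eq_true] at hsub'
    rw [hH]
    exact Subgroup.subset_closure ⟨_, List.elem_iff.1 (hsub' s hs), rfl⟩
  · intro g hg'
    rw [List.all_eq_true] at hW
    exact of_decide_eq_true (hW g (List.mem_range.2 hg'))

end H34.T2
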