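import Cfsg.Agent.Lib.H34.TCO7B.Snd
import Cfsg.Agent.Lib.H34.TCO7B.R0

/-!  -/

set_option autoImplicit false
set_option maxRecDepth 100000
set_option linter.all false
namespace H34.TCO7B
open H35.TC
theorem cnt_live : cntB liveP 12 0 = 729 := by
  have h : Nat.beq (cntB liveP 12 0) 729 = true := by decide +kernel
  exact eqOfBeq h
theorem all_nodes : ∀ u, u < M → chkP u = true := by
  intro u hu
  have hu' : u < 3950 := hu
  rcases Nat.lt_or_ge u 512 with h | h
  · exact allB_spec _ _ _ r_0 u (by omega) (by omega)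
  rcases Nat.lt_or_ge u 1024 with h | h
  · exact allB_spec _ _ _ r_1 u (by omega) (by omega)
  rcases Nat.lt_or_ge u 1536 with h | h
  · exact allB_spec _ _ _ r_2 u (by omega) (by omega)
  rcases Nat.lt_or_ge u 2048 with h | h
  · exact allB_spec _ _ _ r_3 u (by omega) (by omega)
  rcases Nat.lt_or_ge u 2560 with h | h
  · exact allB_spec _ _ _ r_4 u (by omega) (by omega)
  rcases Nat.lt_or_ge u 3072 with h | h
  · exact allB_spec _ _ _ r_5 u (by omega) (by omega)
  rcases Nat.lt_or_ge u 3584 with h | h
  · exact allB_spec _ _ _ r_6 u (by omega) (by omega)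
  rcases Nat.lt_or_ge u 4096 with h | h
  · exact allB_spec _ _ _ r_7 u (by omega) (by omega)
  omega
/-- **certificate**: in any group `G` with elements `g` satisfying the relators `rels`, a subgroup `H` containing
the words `subs` has relative index at most 729 in the subgroup generated by `g`. -/
theorem main {G : Type} [Group G] {g : Lt → G} {H : Subgroup G} (hinv : ∀ x, g (inv x) = (g x)⁻¹)
    (hp : ∀ x y, (g x * g y) ^ mm x y = 1) (he : ∀ p ∈ extra, ((p.1.map g).prod) ^ p.2 = 1)
    (hH : ∀ r ∈ subs, (r.map g).prod ∈ H) :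
    H.relIndex (Subgroup.closure (Set.range g)) ≤ 729 ∧ H.relIndex (Subgroup.closure (Set.range g)) ≠ 0 :=
  final hinv (mkRels_ok hp he) hH all_nodes cnt_live
end H34.TCO7B
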